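/-
The three classes of subgroups `3·U₄(3)` of `SU₆(2)`.
-/
import Cfsg.Agent.Lib.F24.Orb
import Cfsg.Agent.Lib.G.Basic
import Cfsg.Agent.Lib.Classical.OrthIso

set_option autoImplicit false
set_option linter.unusedSectionVars false
set_option linter.unusedVariables false

namespace CA.F24

open Cfsg Equiv Subgroup CA CA.Fi CA.Unit CA.Fi.F4 CA.Cl

theorem exists_cv {L : Type*} [Group L] (π : L →* U43) (hπ : Function.Surjective π)
    (h : Nat.card π.ker = 3) : ∃ x, Cv π x ∧ x ≠ 1 := by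
  have : Finite π.ker := Nat.finite_of_card_ne_zero (by omega)
  have : Fact (Nat.Prime 3) := ⟨by norm_num⟩
  obtain ⟨x, hx⟩ := (isCyclic_of_prime_card h).exists_generator
  have o : orderOf x = 3 := by rw [orderOf_eq_card_of_forall_mem_zpowers hx, h]
  have k : ∀ l, π l = 1 ↔ l ∈ zpowers x.1 := fun l => ⟨fun e => by
    obtain ⟨n, hn⟩ := hx ⟨l, e⟩; exact ⟨n, congrArg Subtype.val hn⟩,
    fun e => (zpowers_le (H := π.ker)).2 x.2 e⟩
  have x3 : x.1 ^ 3 = 1 := by
    have := pow_orderOf_eq_one x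
    rw [o] at this
    exact congrArg Subtype.val this
  have x1 : x.1 ≠ 1 := fun e => by rw [show x = 1 from Subtype.ext e] at o; simp at o
  refine ⟨x.1, ⟨hπ, k, x3, ?_⟩, x1⟩
  -- the centraliser of `x` has index at most two
  let C := centralizer ({x.1} : Set L)
  have hc : ∀ l : L, l * x * l⁻¹ = x ∨ l * x * l⁻¹ = x.1⁻¹ := fun l => by
    have h1 : l * x * l⁻¹ ∈ π.ker := (MonoidHom.normal_ker π).conj_mem _ x.2 l
    obtain ⟨i, hi⟩ : ∃ i : Fin 3, x ^ i.1 = ⟨_, h1⟩ := by
      obtain ⟨n, hn⟩ := (mem_powers_iff_mem_zpowers.2 (hx ⟨_, h1⟩))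
      have := pow_mod_orderOf x n
      rw [o] at this
      exact ⟨⟨n % 3, Nat.mod_lt _ (by norm_num)⟩, this.trans hn⟩
    replace hi := congrArg Subtype.val hi
    fin_cases i
    · exact absurd (by simpa using hi.symm) x1
    · exact Or.inl (by simpa using hi.symm)
    · refine Or.inr (hi.symm.trans (eq_inv_of_mul_eq_one_left ?_))
      simpa [← pow_succ] using x3
  have hn : C.Normal := ⟨fun c hc' g => by
    rw [mem_centralizer_singleton_iff] at hc' ⊢
    have e : c * x⁻¹ = x⁻¹ * c := (show Commute c x.1 from hc').inv_right.eq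
    rcases hc g⁻¹ with f | f
    · calc _ = g * (c * (g⁻¹ * x * g⁻¹⁻¹)) * g⁻¹ := by group
        _ = g * (g⁻¹ * x * g⁻¹⁻¹ * c) * g⁻¹ := by rw [f, hc']
        _ = _ := by group
    · calc _ = g * (c * (g⁻¹ * x * g⁻¹⁻¹)) * g⁻¹ := by group
        _ = g * (g⁻¹ * x * g⁻¹⁻¹ * c) * g⁻¹ := by rw [f]; exact congrArg (g * · * g⁻¹) e
        _ = _ := by group⟩
  have hk : π.ker ≤ C := fun l hl => by
    obtain ⟨n, rfl⟩ := (k l).1 hl
    exact mem_centralizer_singleton_iff.2 (Commute.zpow_self x.1 n).eq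
  have hs : ∀ l, l * l ∈ C := fun l => by
    rw [mem_centralizer_singleton_iff, ← mul_inv_eq_iff_eq_mul]
    rcases hc l with f | f
    · calc _ = l * (l * x * l⁻¹) * l⁻¹ := by group
        _ = _ := by rw [f, f]
    · calc _ = l * (l * x * l⁻¹) * l⁻¹ := by group
        _ = l * x.1⁻¹ * l⁻¹ := by rw [f]
        _ = (l * x * l⁻¹)⁻¹ := by group
        _ = _ := by rw [f]; simp
  rcases (hn.map π hπ).eq_bot_or_eq_top with e | e
  · exfalso
    have : ∀ u : U43, u * u = 1 := fun u => by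
      obtain ⟨l, rfl⟩ := hπ u
      rw [← map_mul, ← mem_bot, ← e]; exact ⟨_, hs l, rfl⟩
    obtain ⟨u, hu⟩ := exists_prime_orderOf_dvd_card' (G := U43) 3 (by rw [card_U43]; norm_num)
    have := orderOf_dvd_of_pow_eq_one ((pow_two u).trans (this u))
    rw [hu] at this; omega
  · intro l
    have := comap_map_eq_self hk
    rw [e, comap_top] at this
    exact mem_centralizer_singleton_iff.1 (this ▸ mem_top l : l ∈ C)

theorem trp_inj {L W : Type*} [Group L] [AddCommGroup W] [Module F4 W] {ρ : L →* W ≃ₗ[F4] W}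
    (hρ : Function.Injective ρ) (ψ : W ≃ₗ[F4] V6) : Function.Injective (trp ψ ρ) := fun a b e =>
  hρ (LinearEquiv.ext fun v => ψ.injective (by rw [← trp_apply, e, trp_apply]))

theorem range_trp {L W : Type*} [Group L] [AddCommGroup W] [Module F4 W] {ρ : L →* W ≃ₗ[F4] W}
    (hρ : Function.Injective ρ) {ψ : W ≃ₗ[F4] V6} (h : ∀ l, trp ψ ρ l ∈ K0) {π : L →* U43}
    (hπ : Function.Surjective π) (h3 : Nat.card π.ker = 3) : (trp ψ ρ).range = K0 := by
  refine eq_of_le_of_card_ge (by rintro _ ⟨l, rfl⟩; exact h l) ?_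
  rw [← Nat.card_congr (MonoidHom.ofInjective (trp_inj hρ ψ)).toEquiv, card_K0,
    card_eq_card_quotient_mul_card_subgroup π.ker, h3,
    Nat.card_congr (QuotientGroup.quotientKerEquivOfSurjective π hπ).toEquiv, card_U43]

theorem exists_su (F : Type) [Field F] [Fintype F] (hF : Fintype.card F = 4) :
    Nonempty (Cfsg.SU 6 F 2 ≃* Unit.SU h6) := by
  let σ : F ≃+* F4 := FiniteField.ringEquivOfCardEq hF
  have : (Cfsg.SU 6 F 2).map (Cl.slCongr (ι := Fin 6) σ : _ →* _) = Cfsg.SU 6 F4 2 := by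
    have key : ∀ {F F' : Type} [Field F] [Field F'] (σ : F ≃+* F') g, g ∈ Cfsg.SU 6 F 2 →
        Cl.slCongr σ g ∈ Cfsg.SU 6 F' 2 := by
      intro F F' _ _ σ g hg u v
      have e : ∀ u : Fin 6 → F', (slToMat 6 F' (Cl.slCongr σ g)).mulVec u =
          fun i => σ ((slToMat 6 F g).mulVec (fun j => σ.symm (u j)) i) := fun u => by
        funext i; simp [Cl.slCongr, slToMat, Matrix.mulVec, dotProduct]
      have := congrArg σ (hg (fun j => σ.symm (u j)) fun j => σ.symm (v j))
      rw [e, e]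
      simpa [hermForm] using this
    refine le_antisymm (by rintro _ ⟨g, hg, rfl⟩; exact key σ g hg) fun g hg =>
      ⟨_, key σ.symm g hg, ?_⟩
    ext i j; simp [Cl.slCongr]
  exact ⟨((Cl.slCongr σ).subgroupMap _).trans ((MulEquiv.subgroupCongr this).trans (suEquiv hK 6))⟩

/-- elements of given determinant -/
noncomputable def dd (c : ZMod 3) : U h6 := Unit.tr h6 (Pi.single 0 1) (1 - om c)

theorem det_dd (c : ZMod 3) : detU h6 (dd c) = om c := by
  have e : h6 (Pi.single 0 1) (Pi.single 0 1) = 1 := by decide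
  rw [dd, detU_tr (by rw [e]; revert c; decide), e]; simp

theorem det_K1 {g : U h6} (h : iota g ∈ K1) : detU h6 g = 1 := by
  have : K1 ≤ (Unit.SU h6).map iota := (closure_le _).2 (by
    rintro _ ⟨r, -, rfl⟩; exact ⟨_, (trSU h6 r).2, rfl⟩)
  obtain ⟨k, hk, e⟩ := this h
  exact iota_inj e ▸ hk

theorem three_classes {S : Type} [Group S] (θ : S ≃* Unit.SU h6) : ∃ K : ZMod 3 → Subgroup S,
    (∀ c, Nonempty (K c ≃* K0)) ∧ (∀ c d g, cj g (K c) = K d → c = d) ∧
    ∀ H : Subgroup S, Nat.card (center H) = 3 → Nonempty (H ⧸ center H ≃* U43) → ∃ g c, cj g H = K c := by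
  let j : S →* Perm V6 := iota.comp ((Unit.SU h6).subtype.comp θ.toMonoidHom)
  have ji : Function.Injective j := iota_inj.comp (Subtype.val_injective.comp θ.injective)
  have jr : ∀ g : U h6, detU h6 g = 1 → ∃ s, j s = iota g := fun g hg =>
    ⟨θ.symm ⟨g, hg⟩, by simp [j]⟩
  have jc : ∀ g (H : Subgroup S), (cj g H).map j = cj (j g) (H.map j) := fun g H => by
    simp only [cj, map_map]; congr 1; ext1; simp
  have hm : ∀ c, ((cj (iota (dd c)) K0).comap j).map j = cj (iota (dd c)) K0 := fun c => by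
    refine map_comap_eq_self fun x hx => ?_
    obtain ⟨y, hy, rfl⟩ := mem_cj'.1 hx
    obtain ⟨k, rfl⟩ := K0_GU hy
    rw [← map_inv, ← map_mul, ← map_mul]
    refine jr _ ?_
    rw [map_mul, map_mul, det_K1 (K0_le hy), mul_one, ← map_mul, mul_inv_cancel, map_one]
  refine ⟨fun c => (cj (iota (dd c)) K0).comap j, fun c => ⟨(equivMapOfInjective _ j ji).trans
    ((MulEquiv.subgroupCongr (hm c)).trans (cjEquiv _ _).symm)⟩, fun c d g e => ?_, ?_⟩
  · have := congrArg (Subgroup.map j) e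
    rw [jc, hm, hm, eq_comm, cj_eq_iff, cj_cj, cj_cj, eq_comm, ← mem_normalizer_iff_cj] at this
    have e2 : (iota (dd d))⁻¹ * j g * iota (dd c) = iota ((dd d)⁻¹ * (θ g).1 * dd c) := by simp [j]
    rw [e2] at this
    have := det_K1 (mem_K1 ⟨_, rfl⟩ (norm_StR (GU_le_OV ⟨_, rfl⟩) this))
    have e3 : detU h6 (dd d) * detU h6 (dd d)⁻¹ = 1 := by rw [← map_mul, mul_inv_cancel, map_one]
    rw [map_mul, map_mul, mem_SU.1 (θ g).2, mul_one, det_dd] at this
    rw [det_dd] at e3
    refine om_inj ?_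
    linear_combination (om d) * this - om c * e3
  · rintro H h3 ⟨e⟩
    let π : H →* U43 := e.toMonoidHom.comp (QuotientGroup.mk' _)
    have hπ : Function.Surjective π := e.surjective.comp QuotientGroup.mk_surjective
    have hk : Nat.card π.ker = 3 := by
      rw [MonoidHom.ker_comp_of_injective _ _ e.injective, QuotientGroup.ker_mk', h3]
    obtain ⟨x, C, -⟩ := exists_cv π hπ hk
    let ρ : H →* V6 ≃ₗ[F4] V6 :=
      (U h6).subtype.comp ((Unit.SU h6).subtype.comp (θ.toMonoidHom.comp H.subtype))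
    have hρ : Function.Injective ρ := Subtype.val_injective.comp (Subtype.val_injective.comp
      (θ.injective.comp Subtype.val_injective))
    obtain ⟨ψ, h1, h2, -⟩ := C.unique hρ fr6.le nd6 fun l => U.map_h (θ l).1
    have h4 := range_trp hρ h2 hπ hk
    let u : U h6 := ⟨ψ, h1⟩
    have h5 : cj (iota u) (H.map j) = K0 := by
      rw [← h4]
      ext y
      simp only [mem_cj', mem_map, MonoidHom.mem_range]
      exact ⟨by rintro ⟨_, ⟨l, hl, rfl⟩, rfl⟩; exact ⟨⟨l, hl⟩, rfl⟩,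
        by rintro ⟨l, rfl⟩; exact ⟨_, ⟨l, l.2, rfl⟩, rfl⟩⟩
    have h6' := det_mul_star hK.exists_star_ne nd6 u
    obtain ⟨g, hg⟩ := jr (dd (lg (star (detU h6 u))) * u) (by
      rw [map_mul, det_dd, om_lg _ (right_ne_zero_of_mul_eq_one h6'), mul_comm, h6'])
    refine ⟨g, lg (star (detU h6 u)), map_injective ji ?_⟩
    rw [jc, hm, hg, map_mul, cj_mul, h5]

end CA.F24
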