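/-
The twelve-dimensional orthogonal representation of `3·U₄(3)` over `F₂`.
-/
import Cfsg.Agent.Lib.F24.Three
import Cfsg.Agent.Lib.Classical.ExtraOut

set_option autoImplicit false
set_option linter.unusedSectionVars false
set_option linter.unusedVariables false

namespace CA.F24

open Cfsg Equiv Subgroup CA CA.Fi CA.Unit CA.Fi.F4 QuadraticMap

/-- the inclusion of the prime field -/
def i2 (a : ZMod 2) : F4 := if a = 0 then 0 else 1
theorem i2_add : ∀ a b, i2 (a + b) = i2 a + i2 b := by decide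
theorem i2_eq_zero : ∀ {a}, i2 a = 0 ↔ a = 0 := by decide
theorem i2_star : ∀ a, star (i2 a) = i2 a := by decide
theorem w'_eq : w' = w + 1 := by decide

theorem exists_mod {W : Type*} [AddCommGroup W] (J : W →+ W) (h2 : ∀ v : W, v + v = 0)
    (hJ : ∀ v, J (J v) = J v + v) : ∃ _ : Module F4 W, ∀ v, w • v = J v := by
  have h3 : ∀ u v : W, u + (u + v) = v := fun u v => by rw [← add_assoc, h2, zero_add]
  let : SMul F4 W := ⟨fun a v => if a = 0 then 0 else if a = 1 then v else if a = w then J v else J v + v⟩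
  have e0 : ∀ v : W, (0 : F4) • v = 0 := fun _ => rfl
  have e1 : ∀ v : W, (1 : F4) • v = v := fun _ => rfl
  have e2 : ∀ v : W, w • v = J v := fun _ => rfl
  have e3 : ∀ v : W, w' • v = J v + v := fun _ => rfl
  refine ⟨Module.ofMinimalAxioms (fun a u v => ?_) (fun a b v => ?_) (fun a b v => ?_) e1, e2⟩
  · rcases F4.cases a with rfl | rfl | rfl | rfl <;> simp only [e0, e1, e2, e3, map_add, add_zero]
    abel
  · rcases F4.cases a with rfl | rfl | rfl | rfl <;> rcases F4.cases b with rfl | rfl | rfl | rfl <;>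
      simp only [show (1 : F4) + 1 = 0 from rfl, show 1 + w = w' from rfl, show 1 + w' = w from rfl,
        show w + 1 = w' from rfl, show w + w = 0 from rfl, show w + w' = 1 from rfl, show w' + 1 = w from rfl,
        show w' + w = 1 from rfl, show w' + w' = 0 from rfl, e0, e1, e2, e3, add_zero, zero_add, h2, h3] <;>
      simp only [add_comm, add_left_comm, h2, h3, add_zero]
  · rcases F4.cases a with rfl | rfl | rfl | rfl <;> rcases F4.cases b with rfl | rfl | rfl | rfl <;>
      simp only [show w * w = w' from rfl, show w * w' = 1 from rfl, show w' * w = 1 from rfl,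
        show w' * w' = w from rfl, mul_one, one_mul, mul_zero, zero_mul, e0, e1, e2, e3, add_zero, map_zero,
        map_add, hJ] <;>
      simp only [add_comm, add_left_comm, h2, h3, add_zero]

theorem smul_of_w {W W' : Type*} [AddCommGroup W] [Module F4 W] [AddCommGroup W'] [Module F4 W'] {f : W → W'}
    (ha : ∀ u v, f (u + v) = f u + f v) (hw : ∀ v, f (w • v) = w • f v) (a : F4) (v : W) :
    f (a • v) = a • f v := by
  rcases F4.cases a with rfl | rfl | rfl | rfl
  · simpa using ha 0 0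
  · simp
  · exact hw v
  · rw [w'_eq, add_smul, add_smul, ha, hw, one_smul, one_smul]

/-- a linear representation from an additive action -/
def mkRep {L W : Type*} [Group L] [AddCommGroup W] [Module F4 W] (a : L → W → W) (h1 : ∀ v, a 1 v = v)
    (hm : ∀ l k v, a (l * k) v = a l (a k v)) (ha : ∀ l u v, a l (u + v) = a l u + a l v)
    (hw : ∀ l v, a l (w • v) = w • a l v) : L →* W ≃ₗ[F4] W where
  toFun l :=
    { toFun := a l, invFun := a l⁻¹, map_add' := ha l, map_smul' := smul_of_w (ha l) (hw l)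
      left_inv := fun v => by rw [← hm, inv_mul_cancel, h1]
      right_inv := fun v => by rw [← hm, mul_inv_cancel, h1] }
  map_one' := LinearEquiv.ext h1
  map_mul' l k := LinearEquiv.ext (hm l k)

theorem card_pow (W : Type*) [AddCommGroup W] [Module F4 W] [Finite W] :
    Nat.card W = 4 ^ Module.finrank F4 W := by
  rw [Module.natCard_eq_pow_finrank (K := F4), Nat.card_eq_fintype_card, F4.card]

theorem finrank_le {W : Type*} [AddCommGroup W] [Module F4 W] [Finite W] {n : ℕ} (h : Nat.card W ≤ 4 ^ n) :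
    Module.finrank F4 W ≤ n := by
  rwa [card_pow, Nat.pow_le_pow_iff_right (by norm_num)] at h

theorem Cv.fpf {L W : Type*} [Group L] [AddCommGroup W] [Finite W] {π : L →* U43} {x : L} (C : Cv π x)
    (h2 : ∀ v : W, v + v = 0) (hW : Nat.card W = 4096) (ρ : L → W →+ W) (h1 : ∀ v, ρ 1 v = v)
    (hm : ∀ l k v, ρ (l * k) v = ρ l (ρ k v)) (hρ : ∀ l, (∀ v, ρ l v = v) → l = 1) (v : W) :
    ρ x (ρ x v) = ρ x v + v := by
  obtain ⟨b, B⟩ := C.exists_bs
  obtain ⟨g, hg⟩ := C.ne_one B
  have h3 : ∀ u v : W, u + (u + v) = v := fun u v => by rw [← add_assoc, h2, zero_add]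
  have x3 : ∀ v, ρ x (ρ x (ρ x v)) = v := fun v => by
    rw [← hm, ← hm, ← pow_two, ← pow_succ, C.x3, h1]
  have xc : ∀ l v, ρ l (ρ x v) = ρ x (ρ l v) := fun l v => by rw [← hm, C.cen, hm]
  -- the fixed points
  have t0 : ∀ v, ρ x v = v → ρ (g⁻¹ * b 0 * g * (b 0)⁻¹) v = v := fun v hv => by
    obtain ⟨m, e⟩ := exists_mod (W := W × W)
      ((AddMonoidHom.snd W W).prod (AddMonoidHom.fst W W + AddMonoidHom.snd W W))
      (fun v => Prod.ext (h2 _) (h2 _)) (fun v => by
        ext <;> simp [add_comm, add_left_comm, h2])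
    let ρ' := mkRep (W := W × W) (fun l v => (ρ l v.1, ρ l v.2)) (fun v => by simp [h1])
      (fun l k v => by simp [hm]) (fun l u v => by simp) (fun l v => by simp [e])
    have : Module.finrank F4 (W × W) ≤ 12 := finrank_le (by rw [Nat.card_prod, hW]; norm_num)
    have := C.triv0 (ρ := ρ') B (by omega) g (v, 0) (by
      change (ρ x v, ρ x 0) = _
      simp [hv])
    exact congrArg Prod.fst this
  let W1 : AddSubgroup W :=
    { carrier := {v | ρ x (ρ x v) = ρ x v + v}
      add_mem' := fun {u v} hu hv => by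
        simp only [Set.mem_ofPred_eq, map_add] at *
        rw [hu, hv]; abel
      zero_mem' := by simp
      neg_mem' := fun {u} hu => by rwa [neg_eq_of_add_eq_zero_left (h2 u)] }
  have i1 : ∀ l, ∀ v ∈ W1, ρ l v ∈ W1 := fun l v hv => by
    change ρ x (ρ x (ρ l v)) = _
    rw [← xc l v, ← xc l, show ρ x (ρ x v) = _ from hv, map_add]
  obtain ⟨m, e⟩ := exists_mod (W := W1) (((ρ x).domRestrict W1).codRestrict W1 fun v => i1 _ _ v.2)
    (fun v => Subtype.ext (h2 _)) fun v => Subtype.ext v.2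
  replace e : ∀ v : W1, (w • v).1 = ρ x v := fun v => congrArg Subtype.val (e v)
  let ρ' := mkRep (W := W1) (fun l v => ⟨ρ l v, i1 _ _ v.2⟩) (fun v => Subtype.ext (h1 _))
    (fun l k v => Subtype.ext (hm _ _ _)) (fun l u v => Subtype.ext (map_add _ _ _))
    (fun l v => Subtype.ext (by simp only [e, xc]))
  have c1 : Nat.card W1 ≤ Nat.card W := Nat.card_le_card_of_injective _ Subtype.val_injective
  have f6 : Module.finrank F4 W1 ≤ 6 := finrank_le (by rw [hW] at c1; exact c1)
  rcases C.dich (ρ := ρ') B 1 f6 with h | ⟨D, hD, l0, h⟩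
  · refine absurd (hρ _ fun v => ?_) hg
    have a1 : ρ x v + ρ x (ρ x v) ∈ W1 := by
      change ρ x (ρ x _) = _
      simp only [map_add, x3]
      simp [add_comm, add_left_comm, h2]
    have a2 := congrArg Subtype.val (h g ⟨_, a1⟩ (Subtype.ext (e _).symm))
    have a3 := t0 (v + (ρ x v + ρ x (ρ x v))) (by simp only [map_add, x3]; abel)
    change ρ _ _ = ρ x v + ρ x (ρ x v) at a2
    rw [map_add, a2] at a3
    exact add_right_cancel a3
  · have := (exists_wt_basis (ρ := ρ') f6 hD h).1
    have : W1 = ⊤ := AddSubgroup.eq_top_of_card_eq _ (by rw [card_pow W1, this, hW]; rfl)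
    exact (this.ge (AddSubgroup.mem_top v) : v ∈ W1)

theorem model {L W : Type*} [Group L] [AddCommGroup W] [Module (ZMod 2) W] [Finite W] {π : L →* U43}
    (hπ : Function.Surjective π) (h3 : Nat.card π.ker = 3) {q : QuadraticForm (ZMod 2) W} (hq : Orth.ND q)
    (hW : Nat.card W = 4096) (ρ : L →* Orth.O q) (hρ : Function.Injective ρ) :
    ∃ ψ : W ≃+ V6, (∀ v, h6 (ψ v) (ψ v) = i2 (q v)) ∧
      ∀ k, k ∈ K0 ↔ ∃ l, ∀ v, k (ψ v) = ψ ((ρ l).1 v) := by
  obtain ⟨x, C, -⟩ := exists_cv π hπ h3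
  have h2 : ∀ v : W, v + v = 0 := ExOut.add_self_two
  have hm : ∀ l k v, (ρ (l * k)).1 v = (ρ l).1 ((ρ k).1 v) := fun l k v => by rw [map_mul]; rfl
  have h1 : ∀ v, (ρ 1).1 v = v := fun v => by rw [map_one]; rfl
  have hi : ∀ l, (∀ v, (ρ l).1 v = v) → l = 1 := fun l h =>
    hρ (by rw [map_one]; exact Subtype.ext (LinearEquiv.ext h))
  have hx : ∀ v, (ρ x).1 ((ρ x).1 v) = (ρ x).1 v + v :=
    C.fpf h2 hW (fun l => (ρ l).1.toAddEquiv.toAddMonoidHom) h1 hm hi
  have x3 : ∀ v, (ρ x).1 ((ρ x).1 ((ρ x).1 v)) = v := fun v => by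
    rw [← hm, ← hm, ← pow_two, ← pow_succ, C.x3, h1]
  obtain ⟨m, e⟩ := exists_mod (ρ x).1.toAddEquiv.toAddMonoidHom h2 hx
  replace e : ∀ v : W, w • v = (ρ x).1 v := e
  have xc : ∀ l v, (ρ l).1 ((ρ x).1 v) = (ρ x).1 ((ρ l).1 v) := fun l v => by rw [← hm, C.cen, hm]
  let ρ' := mkRep (W := W) (fun l v => (ρ l).1 v) h1 hm (fun l u v => map_add _ _ _)
    (fun l v => by rw [e, e, xc])
  have k1 : ∀ a b : ZMod 2, i2 (a + b) + w' * i2 a = w * (i2 a + w' * i2 b) := by decide
  have k2 : ∀ a b : ZMod 2, star (i2 a + w' * i2 b) = i2 (a + b) + w' * i2 b := by decide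
  have k3 : ∀ a b : ZMod 2, i2 a + w' * i2 b = 0 → b = 0 := by decide
  let H : W → W → F4 := fun u v => i2 (polar q ((ρ x).1 u) v) + w' * i2 (polar q u v)
  have Ha : ∀ u v y, H (u + v) y = H u y + H v y := fun u v y => by
    simp only [H, map_add, polar_add_left, i2_add]; ring
  let h : Herm F4 W :=
    { toFun := H, add_left' := Ha
      smul_left' := fun a u v => smul_of_w (f := fun u => H u v) (fun u u' => Ha u u' v) (fun u => by
        simp only [H, e, hx, polar_add_left, smul_eq_mul, k1]) a u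
      star_eq' := fun u v => by
        simp only [H]
        rw [k2, ← polar_add_left, ← hx, ← Orth.O.map_B (ρ x), x3, polar_comm q u v, polar_comm q u] }
  have hh : ND h := fun v hv => hq v fun y => k3 _ _ (hv y)
  have i' : Function.Injective ρ' := (injective_iff_map_eq_one _).2 fun l hl =>
    hi l fun v => LinearEquiv.congr_fun hl v
  obtain ⟨ψ, a1, a2, -⟩ := C.unique (ρ := ρ') i' (finrank_le (by rw [hW]; rfl)) hh fun l u v => by
    change H ((ρ l).1 u) ((ρ l).1 v) = H u v
    simp only [H, ← xc, Orth.O.map_B]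
  refine ⟨ψ.toAddEquiv, fun v => (a1 v v).trans ?_, fun k => ?_⟩
  · change i2 _ + w' * i2 _ = _
    have := Orth.Q_add (Q := q) ((ρ x).1 v) v
    rw [← hx, Orth.O.map_Q, Orth.O.map_Q, ExOut.add_self_two, zero_add] at this
    rw [← this, polar_self, two_nsmul, ExOut.add_self_two, i2_eq_zero.2 rfl, mul_zero, add_zero]
  · rw [← range_trp i' a2 hπ h3]
    exact exists_congr fun l => ⟨fun h v => h ▸ trp_apply ψ l v, fun h => Equiv.ext fun v => by
      obtain ⟨v, rfl⟩ := ψ.surjective v
      exact (trp_apply ψ l v).trans (h v).symm⟩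

end CA.F24
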