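/-
Groups of large Fischer type: coordinates for `Q = 2^{1+12}`.
-/
import Cfsg.Agent.Lib.F24.Lin
import Cfsg.Agent.Lib.Co.Sect

set_option autoImplicit false
set_option linter.unusedSectionVars false
set_option linter.unusedVariables false

namespace CA.F24

open Cfsg Equiv Subgroup CA CA.Fi CA.Unit CA.Fi.F4 CA.Ex2 QuadraticMap
open scoped commutatorElement

variable {G : Type*} [Group G]

theorem mem_map_sub {z : G} {Q : Subgroup ↥𝐂[z]} {q : G} :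
    q ∈ Q.map (𝐂[z]).subtype ↔ ∃ h : q ∈ 𝐂[z], (⟨q, h⟩ : ↥𝐂[z]) ∈ Q :=
  ⟨by rintro ⟨x, hx, rfl⟩; exact ⟨x.2, hx⟩, fun ⟨h, h'⟩ => ⟨_, h', rfl⟩⟩

theorem lq_of_set [Finite G] {z : G} {Q : Subgroup ↥𝐂[z]} {w : ℕ} (hS : IsExtraspecialCentralizerSetting z Q w) :
    LQ (Q.map (𝐂[z]).subtype) z :=
  lq_of_fstar hS.1 (by rw [FStar.fstar, hS.2.1]) (isExtraspecial_iff.2
    ((isExtraspecial_iff.1 hS.2.2.1).map (subtype_injective _)))

/-- the polar form -/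
def bv (u v : V6) : F4 := h6 u v + h6 v u

theorem h6_add (u v : V6) : h6 (u + v) (u + v) = h6 u u + h6 v v + bv u v := by
  rw [bv]; hsimp; ring
theorem bv_comm (u v : V6) : bv u v = bv v u := add_comm _ _
theorem bv_add (u v y : V6) : bv (u + v) y = bv u y + bv v y := by simp only [bv]; hsimp; ring
theorem f4_add_self : ∀ a : F4, a + a = 0 := by decide
theorem bv_self (v : V6) : bv v v = 0 := f4_add_self _
theorem OV.bv {g : Perm V6} (hg : g ∈ OV) (u v : V6) : bv (g u) (g v) = bv u v := by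
  have := hg.2 (u + v)
  rwa [hg.1, h6_add, h6_add, hg.2, hg.2, add_right_inj] at this

/-- the hypothesis of large Fischer type in coordinates -/
structure FT (Q : Subgroup G) (z : G) (π : ↥𝐂[z] →* Perm V6) (c : G → V6) : Prop where
  lq : LQ Q z
  card : Nat.card Q = 2 ^ 13
  ker : pker π = Q
  k0 : K0 ≤ π.range
  idx : K0.relIndex π.range = 2
  ov : π.range ≤ OV
  mul : ∀ {a b}, a ∈ Q → b ∈ Q → c (a * b) = c a + c b
  sur : ∀ v, ∃ q ∈ Q, c q = v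
  zero : ∀ {q}, q ∈ Q → (c q = 0 ↔ q ∈ zpowers z)
  sq : ∀ {q}, q ∈ Q → (q * q = 1 ↔ h6 (c q) (c q) = 0)
  comm : ∀ {a b}, a ∈ Q → b ∈ Q → (a * b = b * a ↔ bv (c a) (c b) = 0)
  equi : ∀ {y q}, y ∈ 𝐂[z] → q ∈ Q → c (y * q * y⁻¹) = pel π y (c q)
  ex : ∃ g, g * z * g⁻¹ ∈ Q ∧ g * z * g⁻¹ ≠ z

theorem ft_of [Finite G] {z : G} {Q : Subgroup ↥𝐂[z]} [Q.Normal] (hF : IsOfLargeFischerTypeAt z Q) :
    ∃ π c, FT (Q.map (𝐂[z]).subtype) z π c := by
  classical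
  obtain ⟨hS, N, M, _, _, hQN, hNM, hN, ⟨K, _, _, hK, ⟨e⟩⟩, hM⟩ := hF
  have hl := lq_of_set hS
  obtain ⟨W, _, _, D, hc⟩ := ExOut.exists_data hS.2.2.1
  have hz : ∀ x : Q, D.π x = 0 ↔ ((x : ↥𝐂[z]) : G) ∈ zpowers z := fun x => by
    rw [← Co.mem_center_iff_zp hl.ez, mem_center_iff]
    refine ⟨fun h y => ?_, hc x⟩
    rcases (D.ker x).1 h with rfl | rfl
    · simp
    · exact D.z_comm y
  have : Finite W := Finite.of_surjective _ D.surj
  have cW : Nat.card W = 4096 := by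
    have := D.card_eq
    rw [hS.2.2.2.1] at this
    omega
  let ρ : ↥𝐂[z] →* Orth.O D.Q := (D.ρ hc).comp MulAut.conjNormal
  have ρπ : ∀ y x, (ρ y).1 (D.π x) = D.π (MulAut.conjNormal y x) := fun y x => D.ρ_π hc _ x
  have kρ : ∀ y, ρ y = 1 ↔ y ∈ Q := fun y => by
    constructor
    · intro h
      refine (mem_map_iff_mem (subtype_injective _)).1 (hl.mem_of_comm ?_)
      rintro _ ⟨x, hx, rfl⟩
      have := ρπ y ⟨x, hx⟩⁻¹
      rw [h] at this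
      have := (hz (⟨x, hx⟩ * MulAut.conjNormal y ⟨x, hx⟩⁻¹)).1 (by
        rw [D.map_mul, ← this, D.map_inv]; exact ExOut.add_self_two _)
      simpa [mul_assoc] using this
    · intro h
      refine Subtype.ext (LinearEquiv.ext fun v => ?_)
      obtain ⟨x, rfl⟩ := D.surj v
      rw [ρπ, show MulAut.conjNormal y x = ⟨y, h⟩ * x * ⟨y, h⟩⁻¹ from rfl, D.map_mul, D.map_mul, D.map_inv,
        add_right_comm, ExOut.add_self_two, zero_add]
      rfl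
  obtain ⟨e'⟩ := U43_iso hK
  let f : M →* U43 := (e.trans e'.symm).toMonoidHom.comp (QuotientGroup.mk' _)
  have kf : ∀ y, f y = 1 ↔ y.1 ∈ N := fun y =>
    ((e.trans e'.symm).map_eq_one_iff).trans (QuotientGroup.eq_one_iff _)
  let πL := QuotientGroup.lift (Q.subgroupOf M) f fun y hy => (kf y).2 (hQN hy)
  let ρL := QuotientGroup.lift (Q.subgroupOf M) (ρ.comp M.subtype) fun y hy => (kρ y).2 hy
  have s1 : Function.Surjective πL := QuotientGroup.lift_surjective_of_surjective _ _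
    ((e.trans e'.symm).surjective.comp (QuotientGroup.mk'_surjective _)) _
  have s2 : Nat.card πL.ker = 3 := by
    have a1 := πL.ker.index_mul_card
    rw [index_ker, MonoidHom.range_eq_top.2 s1, card_top] at a1
    have a2 := (Q.subgroupOf M).index_mul_card
    have a3 := (N.subgroupOf M).index_mul_card
    rw [Nat.card_congr (subgroupOfEquivOfLe (hQN.trans hNM)).toEquiv, index_eq_card, ← a1] at a2
    rw [Nat.card_congr (subgroupOfEquivOfLe hNM).toEquiv, index_eq_card,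
      Nat.card_congr (e.trans e'.symm).toEquiv, hN, ← a2, mul_assoc, Nat.mul_right_inj Nat.card_pos.ne',
      Nat.mul_left_inj Nat.card_pos.ne'] at a3
    exact a3.symm
  have s3 : Function.Injective ρL := (injective_iff_map_eq_one _).2 fun l hl => by
    obtain ⟨y, rfl⟩ := QuotientGroup.mk_surjective l
    exact (QuotientGroup.eq_one_iff _).2 ((kρ y).1 hl)
  obtain ⟨ψ, p1, p2⟩ := model s1 s2 (D.nd hc) cW ρL s3
  let π : ↥𝐂[z] →* Perm V6 :=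
    { toFun := fun y => ψ.toEquiv.permCongr (ρ y).1.toEquiv
      map_one' := by rw [map_one]; ext v; simp
      map_mul' := fun a b => by rw [map_mul]; ext v; simp }
  have πψ : ∀ y v, π y (ψ v) = ψ ((ρ y).1 v) := fun y v => by simp [π]
  have kπ : π.ker = Q := by
    ext y
    rw [← kρ, MonoidHom.mem_ker]
    refine ⟨fun h => Subtype.ext (LinearEquiv.ext fun v => ψ.injective ?_), fun h => Equiv.ext fun v => ?_⟩
    · rw [← πψ, h]; rfl
    · obtain ⟨v, rfl⟩ := ψ.surjective v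
      rw [πψ, h]; rfl
  have mK : M.map π = K0 := by
    ext k
    rw [p2]
    constructor
    · rintro ⟨y, hy, rfl⟩
      exact ⟨QuotientGroup.mk ⟨y, hy⟩, πψ y⟩
    · rintro ⟨l, hl⟩
      obtain ⟨y, rfl⟩ := QuotientGroup.mk_surjective l
      refine ⟨y, y.2, Equiv.ext fun v => ?_⟩
      obtain ⟨v, rfl⟩ := ψ.surjective v
      exact (πψ _ _).trans (hl v).symm
  let c : G → V6 := fun q => if h : q ∈ Q.map (𝐂[z]).subtype then
    ψ (D.π ⟨⟨q, (mem_map_sub.1 h).1⟩, (mem_map_sub.1 h).2⟩) else 0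
  have cx : ∀ x : Q, c x.1.1 = ψ (D.π x) := fun x => dif_pos ⟨_, x.2, rfl⟩
  have inj : ∀ {x y : Q}, x.1.1 = y.1.1 ↔ x = y := by simp
  refine ⟨π, c, hl, by rw [card_map_subtype, hS.2.2.2.1], ?_, mK ▸ map_le_range _ _, ?_, ?_, ?_, fun v => ?_, ?_, ?_,
    ?_, ?_, ?_⟩
  · rw [← kπ]; rfl
  · rw [← index_comap, ← mK, comap_map_eq_self (kπ ▸ hQN.trans hNM), hM]
  · rintro _ ⟨y, rfl⟩
    refine ⟨fun u v => ?_, fun v => ?_⟩
    · obtain ⟨u, rfl⟩ := ψ.surjective u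
      obtain ⟨v, rfl⟩ := ψ.surjective v
      rw [← map_add, πψ, πψ, πψ, map_add, map_add]
    · obtain ⟨v, rfl⟩ := ψ.surjective v
      rw [πψ, p1, p1, Orth.O.map_Q]
  · rintro _ _ ⟨x, hx, rfl⟩ ⟨y, hy, rfl⟩
    exact (cx (⟨x, hx⟩ * ⟨y, hy⟩)).trans (by rw [D.map_mul, map_add, ← cx, ← cx])
  · obtain ⟨v, rfl⟩ := ψ.surjective v
    obtain ⟨x, rfl⟩ := D.surj v
    exact ⟨_, ⟨_, x.2, rfl⟩, cx x⟩
  · rintro _ ⟨x, hx, rfl⟩
    exact (by rw [cx, map_eq_zero_iff _ ψ.injective] : c (⟨x, hx⟩ : Q).1.1 = 0 ↔ _).trans (hz ⟨x, hx⟩)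
  · rintro _ ⟨x, hx, rfl⟩
    change ((⟨x, hx⟩ : Q) * ⟨x, hx⟩).1.1 = (1 : Q).1.1 ↔ h6 (c (⟨x, hx⟩ : Q).1.1) (c (⟨x, hx⟩ : Q).1.1) = 0
    rw [cx, p1, i2_eq_zero, D.Q_eq_zero_iff, inj]
  · rintro _ _ ⟨x, hx, rfl⟩ ⟨y, hy, rfl⟩
    change ((⟨x, hx⟩ : Q) * ⟨y, hy⟩).1.1 = ((⟨y, hy⟩ : Q) * ⟨x, hx⟩).1.1 ↔
      bv (c (⟨x, hx⟩ : Q).1.1) (c (⟨y, hy⟩ : Q).1.1) = 0
    have := h6_add (ψ (D.π ⟨x, hx⟩)) (ψ (D.π ⟨y, hy⟩))
    rw [← map_add, p1, p1, p1, Orth.Q_add, i2_add, i2_add, add_right_inj] at this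
    rw [cx, cx, ← this, i2_eq_zero, D.polar_eq_zero_iff, inj]
  · rintro y _ hy ⟨x, hx, rfl⟩
    rw [pel_of_mem _ hy]
    exact (cx (MulAut.conjNormal (⟨y, hy⟩ : ↥𝐂[z]) ⟨x, hx⟩)).trans
      (by rw [← ρπ, ← πψ, ← cx]; rfl)
  · obtain ⟨g, h1, h2⟩ := hS.2.2.2.2
    exact ⟨g, mem_map_sub.2 h1, h2⟩

end CA.F24
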