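/-
Tools: matrices as permutations, permutation of families under conjugation, the overgroups of `K0`.
-/
import Cfsg.Agent.Lib.F24.Type

set_option autoImplicit false
set_option linter.unusedSectionVars false
set_option linter.unusedVariables false

namespace CA.F24

open Cfsg Equiv Subgroup CA CA.Fi CA.Unit CA.Fi.F4

open Classical in
/-- the permutation with a given matrix -/
noncomputable def mat (M : ℕ) : Perm V6 := if h : ∃ g, Rep g M then h.choose else 1

theorem Rep.mat_eq {g : Perm V6} {M : ℕ} (h : Rep g M) : mat M = g := by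
  have : ∃ g, Rep g M := ⟨g, h⟩
  rw [mat, dif_pos this]
  exact this.choose_spec.eq h
theorem RK.rep {K : Subgroup (Perm V6)} {M : ℕ} (h : RK K M) : Rep (mat M) M := by
  obtain ⟨g, -, r⟩ := h
  exact r.mat_eq ▸ r
theorem RK.mat_mem {K : Subgroup (Perm V6)} {M : ℕ} (h : RK K M) : mat M ∈ K := h.mem h.rep
theorem RK.mono {K K' : Subgroup (Perm V6)} {M : ℕ} (h : RK K M) (e : K ≤ K') : RK K' M :=
  h.imp fun _ h => ⟨e h.1, h.2⟩
theorem Rep.rk {K : Subgroup (Perm V6)} {g : Perm V6} {M : ℕ} (h : Rep g M) (hg : g ∈ K) : RK K M := ⟨g, hg, h⟩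

theorem Rep.conj {a b c : Perm V6} {A B C : ℕ} (ha : Rep a A) (hb : Rep b B) (hc : Rep c C)
    (e : mm A B = mm C A) : a * b * a⁻¹ = c := by
  rw [mul_inv_eq_iff_eq_mul]
  exact (e ▸ ha.mul hb).eq (hc.mul ha)

/-- a matrix from its columns -/
noncomputable def mkN (n : ℕ) : (ℕ → ℕ) → ℕ :=
  Nat.rec (fun _ => 0) (fun _ r f => Nat.add (f 0) (Nat.mul 4096 (r fun i => f (Nat.succ i)))) n

theorem dec_mkN {n : ℕ} {f : ℕ → ℕ} (hf : ∀ i, f i < 4096) {i : ℕ} (hi : i < n) :
    dec (mkN n f >>> (12 * i)) = dec (f i) := by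
  induction n generalizing f i with
  | zero => omega
  | succ n ih =>
    rcases i with _ | i
    · exact dec_cons _
    · exact (congrArg dec (shr_cons (hf _) _ _)).trans (ih (fun _ => hf _) (by omega))

/-- the matrix of a transvection -/
noncomputable def trM (r : ℕ) : ℕ := fc r fun r =>
  mkN 12 fun i => enc (dec (2 ^ i) + (∑ j, dec (2 ^ i) j * star (dec r j)) • dec r)

theorem rep_trM {r : ℕ} (h : h6 (dec r) (dec r) = 0) : Rep (tr (dec r)) (trM r) :=
  rep_tr h fun i hi => by rw [trM, fc_eq, dec_mkN (fun _ => enc_lt _) hi, dec_enc]; rfl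

section nrm
variable {G : Type*} [Group G] {n : ℕ} {F : Fin n → G}

/-- the elements permuting a family under conjugation -/
def Nrm (F : Fin n → G) : Subgroup G where
  carrier := {g | ∃ s : Perm (Fin n), ∀ i, g * F i * g⁻¹ = F (s i)}
  one_mem' := ⟨1, by simp⟩
  mul_mem' := by
    rintro a b ⟨s, hs⟩ ⟨t, ht⟩
    exact ⟨s * t, fun i => by rw [Perm.mul_apply, ← hs, ← ht]; group⟩
  inv_mem' := by
    rintro a ⟨s, hs⟩
    refine ⟨s⁻¹, fun i => ?_⟩
    rw [← s.apply_symm_apply i, ← hs]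
    simp [mul_assoc]

theorem mem_Nrm (hF : Function.Injective F) {g : G} (h : ∀ i, ∃ j, g * F i * g⁻¹ = F j) : g ∈ Nrm F := by
  choose s hs using h
  have : Function.Injective s := fun i j e => hF (by
    have := (hs i).trans (e ▸ (hs j).symm)
    simpa using this)
  exact ⟨Equiv.ofBijective s this.bijective_of_finite, hs⟩

/-- the induced permutation -/
noncomputable def phN (hF : Function.Injective F) : Nrm F →* Perm (Fin n) :=
  MonoidHom.mk' (fun g => g.2.choose) fun a b => Equiv.ext fun i => hF (by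
    rw [Perm.mul_apply, ← a.2.choose_spec, ← b.2.choose_spec, ← (a * b).2.choose_spec]
    simp [mul_assoc])

theorem phN_spec (hF : Function.Injective F) {g : G} (hg : g ∈ Nrm F) (i : Fin n) :
    g * F i * g⁻¹ = F (pel (phN hF) g i) := by
  rw [pel_of_mem _ hg]
  exact hg.choose_spec i

theorem phN_eq (hF : Function.Injective F) {g : G} {s : Perm (Fin n)} (h : ∀ i, g * F i * g⁻¹ = F (s i)) :
    pel (phN hF) g = s := Equiv.ext fun i => hF ((phN_spec hF ⟨s, h⟩ i).symm.trans (h i))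

theorem mem_pker_phN (hF : Function.Injective F) {g : G} : g ∈ pker (phN hF) ↔ ∀ i, g * F i * g⁻¹ = F i :=
  mem_pker.trans ⟨fun h i => by rw [phN_spec hF h.1, h.2]; rfl, fun h => ⟨⟨1, h⟩, phN_eq hF h⟩⟩

end nrm

theorem alt_le {H : Subgroup (Perm (Fin 6))} (h : ∀ i j, i ≠ j → swap 0 1 * swap i j ∈ H) :
    alternatingGroup (Fin 6) ≤ H := by
  rw [← Perm.closure_three_cycles_eq_alternating, closure_le]
  intro s hs
  obtain ⟨x, hx⟩ := Finset.card_pos.1 (show 0 < s.support.card by rw [hs.card_support]; norm_num)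
  have h1 := Perm.mem_support.1 hx
  rw [SetLike.mem_coe, (Perm.IsThreeCycle.eq_swap_mul_swap_iff_mem_support hs).2 hx]
  simpa [mul_assoc] using mul_mem (inv_mem (h x (s x) h1.symm)) (h (s x) (s (s x)) (s.injective.ne h1.symm))

theorem card_A6 : Nat.card (alternatingGroup (Fin 6)) = 360 := by
  have := two_mul_nat_card_alternatingGroup (α := Fin 6)
  rw [Nat.card_perm, Nat.card_fin, show Nat.factorial 6 = 720 from rfl] at this
  omega

theorem eq_one_of_comm_A6 {s : Perm (Fin 6)} (h : ∀ a ∈ alternatingGroup (Fin 6), s * a = a * s) : s = 1 := by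
  ext i
  by_contra e
  obtain ⟨a, b, h1, h2, h3, h4⟩ : ∃ a b, i ≠ a ∧ a ≠ b ∧ (swap i a * swap a b) i ≠ i ∧
      (swap i a * swap a b) (s i) = s i := by
    have : ∀ i j : Fin 6, j ≠ i → ∃ a b, i ≠ a ∧ a ≠ b ∧ (swap i a * swap a b) i ≠ i ∧
      (swap i a * swap a b) j = j := by decide
    exact this i _ fun f => e (congrArg Fin.val f)
  have := congrArg (· i) (h (swap i a * swap a b) (by simp [Perm.mem_alternatingGroup, h1, h2]))
  simp only [Perm.mul_apply] at this h3 h4
  rw [h4] at this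
  exact h3 (s.injective this)

theorem pgroup_eq_bot {N : Subgroup (Perm (Fin 6))} (hN : IsPGroup 2 N) (h : alternatingGroup (Fin 6) ≤ 𝐍(N)) :
    N = ⊥ := by
  have hs : IsSimpleGroup (alternatingGroup (Fin 6)) := alternatingGroup.isSimpleGroup (by simp)
  have : (N.subgroupOf (alternatingGroup (Fin 6))).Normal :=
    ⟨fun n hn g => conj_mem_of_mem_normalizer (H := N) (h g.2) hn⟩
  rcases this.eq_bot_or_eq_top with e | e
  · refine (eq_bot_iff_forall _).2 fun s hs => eq_one_of_comm_A6 fun a ha => ?_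
    have : (⟨s * (a * s⁻¹ * a⁻¹), by
        simpa [mul_assoc] using mul_mem ((inferInstance : (alternatingGroup (Fin 6)).Normal).conj_mem a ha s)
          (inv_mem ha)⟩ : alternatingGroup (Fin 6)) ∈ N.subgroupOf _ :=
      mul_mem hs (conj_mem_of_mem_normalizer (h ha) (inv_mem hs))
    rw [e, mem_bot, Subtype.ext_iff] at this
    calc s * a = s * (a * s⁻¹ * a⁻¹) * (a * s) := by group
      _ = _ := by rw [show s * _ = 1 from this, one_mul]
  · obtain ⟨k, hk⟩ := IsPGroup.iff_card.1 (hN.to_le (subgroupOf_eq_top.1 e))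
    have : 3 ∣ 2 ^ k := hk ▸ card_A6 ▸ by norm_num
    exact absurd (Nat.Prime.dvd_of_dvd_pow Nat.prime_three this) (by norm_num)

theorem GU_of_comm {g : Perm V6} (hg : g ∈ OV) (e : g * sc 1 = sc 1 * g) : g ∈ GU := by
  have e' : ∀ v, g (w • v) = w • g v := fun v => congrArg (· v) e
  have := smul_of_w hg.1 e'
  refine mem_GU.2 ⟨hg.1, this, fun u v => ?_⟩
  have a1 := OV.bv hg u v
  have a2 := OV.bv hg (w • u) v
  rw [e'] at a2
  simp only [bv, h_smul_left, h_smul_right] at a1 a2
  rw [← h_star (g u), ← h_star u] at a1 a2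
  revert a1 a2
  generalize h6 (g u) (g v) = a
  generalize h6 u v = b
  revert a b; decide

theorem norm_cases {g : Perm V6} (hg : g ∈ OV) (hn : g ∈ 𝐍(K0)) :
    g ∈ K0 ∨ T * g ∈ K0 ∨ f0 * g ∈ K0 ∨ sig * g ∈ K0 := by
  have h1 := norm_StR hg hn
  obtain ⟨c, hc⟩ := phi_eq_one.1 (show (⟨_, conj_mem_of_mem_normalizer hn (sc_K0 1)⟩ : K0) ∈ phi.ker from
    center_K0 ▸ mem_center_iff.2 fun k => Subtype.ext (by
      have := sc_comm (K0_GU (conj_inv_mem_of_mem_normalizer hn k.2)) 1
      change k * (g * _ * _) = g * _ * _ * k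
      calc _ = g * (g⁻¹ * k * g * sc 1) * g⁻¹ := by group
        _ = _ := by rw [this]; group))
  change g * _ * _ = _ at hc
  have : c = 0 ∨ c = 1 ∨ c = -1 := by clear hc; revert c; decide
  rcases this with rfl | rfl | rfl
  · rw [sc_zero, conj_eq_one_iff, ← sc_zero] at hc
    exact absurd (sc_inj hc) (by decide)
  · rcases K1_cases (mem_K1 (GU_of_comm hg (mul_inv_eq_iff_eq_mul.1 hc)) h1) with h | h
    · exact Or.inl h
    · exact Or.inr (Or.inl h)
  · have : sig * sc (-1) * sig = sc 1 := sig_dg _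
    have := GU_of_comm (mul_mem sig_OV hg) (by
      rw [mul_assoc, mul_inv_eq_iff_eq_mul.1 hc, ← this]; simp only [mul_assoc, ← mul_assoc sig sig, sig_sq, one_mul])
    rcases K1_cases (mem_K1 this (mul_mem sig_StR h1)) with h | h
    · exact Or.inr (Or.inr (Or.inr h))
    · exact Or.inr (Or.inr (Or.inl (by rwa [f0, sig_T, mul_assoc])))

theorem Rt.T_mul {r : V6} (h : Rt r) : T * tr r ∈ K0 := rt_one.mem0 h
theorem Rt.not_K0 {r : V6} (h : Rt r) : tr r ∉ K0 := fun e =>
  T_not_K0 (by simpa using mul_mem h.T_mul (inv_mem e))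

end CA.F24
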