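/-
The stabilisers of the vectors `r0` and `s0`.
-/
import Cfsg.Agent.Lib.F24.Mat

set_option autoImplicit false
set_option linter.unusedSectionVars false
set_option linter.unusedVariables false

namespace CA.F24

open Cfsg Equiv Subgroup CA CA.Fi CA.Unit CA.Fi.F4

/-- the stabiliser of a vector -/
abbrev St (v : V6) : Subgroup (Perm V6) := MulAction.stabilizer (Perm V6) v

theorem mem_St {g : Perm V6} {v : V6} : g ∈ St v ↔ g v = v := Iff.rfl

theorem Rep.fix {g : Perm V6} {M c : ℕ} {v : V6} (h : Rep g M) (e : F24.app M c = c) (e' : dec c = v) :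
    g ∈ St v := e' ▸ (h.app c).trans (congrArg dec e)

theorem dec_r0 : dec 5 = r0 := by decide
theorem dec_s0 : dec 85 = s0 := by decide

theorem tb_QB' {c : ℕ} (h : c < 4096) : tb QB c = true ↔ ¬ h6 (dec c) (dec c) = 0 := by
  rw [tb_QB h]
  rcases h6_self (dec c) with e | e <;> simp [e]

theorem xor_lt {a b : ℕ} (ha : a < 4096) (hb : b < 4096) : a ^^^ b < 4096 :=
  Nat.xor_lt_two_pow (n := 12) ha hb

theorem r0_inv {S : Set V6} (h1 : ∀ u ∈ S, ∀ v ∈ S, h6 (u + v) (u + v) = 0) (h0 : 0 ∈ S) (h2 : r0 ∈ S)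
    (h3 : ∀ k ∈ K0 ⊓ St r0, ∀ v ∈ S, k v ∈ S) : S ⊆ {0, r0, w • r0, w' • r0} := by
  let L := [[], [5, 2, 3, 4, 2, 3, 0, 0, 6, 2, 5], [1, 5, 2, 6, 0, 5, 1, 2, 5, 3, 1, 1, 4, 1],
    [1, 5, 1, 2, 1, 3, 6, 1, 1, 1], [6, 0, 5, 4, 4, 0, 3, 2, 1, 3, 5, 0, 6], [1, 2, 5, 1, 2, 6, 1]]
  let L' := [idM, 0xa8a545a2a5158aa4552aa155aa8554aa2551, 0xa4a5c527a1e587a4e5a3a525a725e1a785e4, 0x2da1b5535f2f8da4b5f4facaad25b1ad85b4, 0x1a535f98574f92571fcfa8a5ef29a1ef89a4, 0x2da1b58da4b5aca585a1a535ad25b1ad85b4]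
  have e1 : L.map (wd gK) = L' := by decide +kernel
  have e2 : ∀ M ∈ L', RK (K0 ⊓ St r0) M := fun M hM => by
    have e3 : ∀ M ∈ L', app M 5 = 5 := by decide +kernel
    obtain ⟨x, -, rfl⟩ := List.mem_map.1 (e1 ▸ hM)
    exact (rk_wd rk_gK x).rep.rk ⟨(rk_wd rk_gK x).mat_mem, (rk_wd rk_gK x).rep.fix (e3 _ hM) dec_r0⟩
  have : allV (fun c => orr (tb QB c) (orr (tb QB (Nat.xor c 5)) (orr (exL (Nat.beq c) [0, 5, 10, 15])
    (exL (fun M => fc (app M c) fun a => exL (fun N => tb QB (Nat.xor a (app N c))) L') L')))) = true := by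
    decide +kernel
  intro v hv
  obtain ⟨c, hc, rfl⟩ := exists_dec v
  have := allV_iff.1 this c hc
  simp only [orr_iff, exL_iff, fc_eq, xor_eq, beq_iff] at this
  rw [tb_QB' hc, tb_QB' (xor_lt hc (by norm_num)), dec_xor, dec_r0] at this
  rcases this with e | e | ⟨a, ha, rfl⟩ | ⟨M, hM, N, hN, e⟩
  · exact absurd (by simpa using h1 _ hv _ h0) e
  · exact absurd (h1 _ hv _ h2) e
  · have : ∀ a ∈ [0, 5, 10, 15], dec a ∈ ({0, r0, w • r0, w' • r0} : Set V6) := by decide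
    exact this _ ha
  · obtain ⟨g, hg, r⟩ := e2 M hM
    obtain ⟨k, hk, s⟩ := e2 N hN
    rw [tb_QB' (xor_lt (app_lt _ _) (app_lt _ _)), dec_xor, ← r.app, ← s.app] at e
    exact absurd (h1 _ (h3 g hg _ hv) _ (h3 k hk _ hv)) e

/-- product of the listed matrices selected by the bits of `n` -/
noncomputable def bp (gs : List ℕ) : ℕ → ℕ :=
  List.rec (fun _ => idM) (fun a _ r n => Bool.rec (r (n / 2)) (mm a (r (n / 2))) (Nat.beq (n % 2) 1)) gs

theorem rk_bp {K : Subgroup (Perm V6)} {gs : List ℕ} (h : ∀ M ∈ gs, RK K M) (n : ℕ) : RK K (bp gs n) := by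
  induction gs generalizing n with
  | nil => exact rep_one.rk (one_mem _)
  | cons a l ih =>
    have := ih (fun M hM => h M (List.mem_cons_of_mem _ hM)) (n / 2)
    change RK K (Bool.rec (bp l (n / 2)) (mm a (bp l (n / 2))) (Nat.beq (n % 2) 1))
    cases Nat.beq (n % 2) 1
    · exact this
    · exact (h a List.mem_cons_self).mul this

/-- certificate that the products are distinct -/
noncomputable def bpChk (gs : List ℕ) (N c X : ℕ) : Bool :=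
  an (allN (fun a => Nat.beq (app (bp gs a) c) (lk X 12 4095 a)) N)
    (allN (fun a => allN (fun b => imp (Nat.beq (lk X 12 4095 a) (lk X 12 4095 b)) (Nat.beq a b)) N) N)

theorem bp_card {K : Subgroup (Perm V6)} {gs : List ℕ} (h : ∀ M ∈ gs, RK K M) {N c X : ℕ}
    (e : bpChk gs N c X = true) :
    N ≤ Nat.card K ∧ (Nat.card K ≤ N → ∀ g ∈ K, ∃ n < N, Rep g (bp gs n)) := by
  simp only [bpChk, an_iff, allN_iff, imp_iff, beq_iff] at e
  obtain ⟨f, hf1⟩ : ∃ f : Fin N → K, ∀ n, Rep (f n).1 (bp gs n) :=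
    ⟨fun n => ⟨_, (rk_bp h n).choose_spec.1⟩, fun n => (rk_bp h n).choose_spec.2⟩
  have hf : Function.Injective f := fun a b e' => Fin.ext (e.2 _ a.2 _ b.2 (by
    rw [← e.1 _ a.2, ← e.1 _ b.2]
    refine dec_inj (app_lt _ _) (app_lt _ _) ?_
    rw [← (hf1 a).app, ← (hf1 b).app, e']))
  refine ⟨by simpa using Nat.card_le_card_of_injective f hf, fun hc g hg => ?_⟩
  obtain ⟨n, hn⟩ := (hf.bijective_of_nat_card_le (by simpa using hc)).2 ⟨g, hg⟩
  exact ⟨n, n.2, by simpa [hn] using hf1 n⟩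

/-- conjugating words -/
def FW : Fin 6 → List ℕ := ![[], [6, 0, 5, 1, 2, 0, 1, 5], [5, 4, 5, 1, 2, 0, 1, 5], [3, 4, 2, 3, 1, 2, 0, 1, 5],
  [1, 5, 4, 5, 1, 2, 0, 1, 5], [3, 2, 1, 6, 4, 3, 2, 1, 5]]
/-- inverse words -/
def FW' : Fin 6 → List ℕ := ![[], [6, 1, 0, 2, 1, 6, 0, 5], [6, 1, 0, 2, 1, 6, 4, 6], [6, 1, 0, 2, 1, 3, 2, 4, 3],
  [6, 1, 0, 2, 1, 6, 4, 6, 1], [6, 1, 2, 3, 4, 5, 1, 2, 3]]
/-- the matrices of the six semilinear reflections fixing `s0` -/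
def FM : Fin 6 → ℕ := ![0x3ff155cff455f3f515fcf545ff3551ffc554, 0x300100c0040000300100c0040300100c0040,
  0x300100c0040000c0040030010c0040030010, 0x3aa1ffc554aa93fe159cfe459f3e519fce54,
  0x300100c004000300100c004000300100c004, 0x3551aacaa4ff63fb156cfb456f3b516fcb54]
/-- the six semilinear reflections fixing `s0` -/
noncomputable def Fs (i : Fin 6) : Perm V6 := mat (wd gK (FW i)) * f0 * (mat (wd gK (FW i)))⁻¹

theorem rep_conj_f0 {x y : List ℕ} {M : ℕ} (e : mm (wd gK x) (wd gK y) = idM)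
    (e' : mm (mm (wd gK x) (mm SM TM)) (wd gK y) = M) : Rep (mat (wd gK x) * f0 * (mat (wd gK x))⁻¹) M := by
  rw [(rk_wd rk_gK x).rep.inv (rk_wd rk_gK y).rep e, ← e']
  exact ((rk_wd rk_gK x).rep.mul rep_f0).mul (rk_wd rk_gK y).rep

theorem rep_Fs (i : Fin 6) : Rep (Fs i) (FM i) := by
  have : ∀ i, mm (wd gK (FW i)) (wd gK (FW' i)) = idM ∧
    mm (mm (wd gK (FW i)) (mm SM TM)) (wd gK (FW' i)) = FM i := by decide +kernel
  exact rep_conj_f0 (this i).1 (this i).2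
theorem Fs_zero : Fs 0 = f0 := (rep_Fs 0).eq ((by decide +kernel : mm SM TM = FM 0) ▸ rep_f0)
theorem f0_conj_mul {k : Perm V6} (h : k ∈ K0) : f0 * (k * f0 * k⁻¹) ∈ K0 := by
  simpa only [mul_assoc] using mul_mem (f0_conj h) (inv_mem h)
theorem f0_Fs (i : Fin 6) : f0 * Fs i ∈ K0 := f0_conj_mul (rk_wd rk_gK _).mat_mem
theorem Fs_Hs (i : Fin 6) : Fs i ∈ Hs := Or.inr (f0_Fs i)
theorem Fs_s0 (i : Fin 6) : Fs i ∈ St s0 := (rep_Fs i).fix (by revert i; decide +kernel) dec_s0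
theorem Fs_inj : Function.Injective Fs := fun i j e => by
  have := congrArg (· (dec 2)) e
  simp only [(rep_Fs _).app] at this
  exact (by decide +kernel : ∀ i j, app (FM i) 2 = app (FM j) 2 → i = j) i j (dec_inj (app_lt _ _) (app_lt _ _) this)
theorem Fs_comm (i j : Fin 6) : Fs i * Fs j * (Fs i)⁻¹ = Fs j :=
  (rep_Fs i).conj (rep_Fs j) (rep_Fs j) (by revert i j; decide +kernel)

theorem tr_swap (i j : Fin 6) (h : i ≠ j) :
    ∃ r, Rt r ∧ tr r ∈ St s0 ∧ ∀ k, tr r * Fs k * (tr r)⁻¹ = Fs (swap i j k) := by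
  let X := 0x65a50066666970065a00075f0140115af50075f00077777d6006660147770000055bb66901177d0050005be7005af6005bb5be000
  have : ∀ i j : Fin 6, i ≠ j → fc (lk X 12 4095 (6 * i + j)) (fun r => fc (trM r) fun M =>
    an (decide (Rt (dec r))) (an (Nat.beq (app M 85) 85)
      (decide (∀ k, mm M (FM k) = mm (FM (swap i j k)) M)))) = true := by decide +kernel
  have := this i j h
  simp only [fc_eq, an_iff, decide_eq_true_eq, beq_iff] at this
  have r := rep_trM this.1.iso.1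
  exact ⟨_, this.1, r.fix this.2.1 dec_s0, fun k => r.conj (rep_Fs _) (rep_Fs _) (this.2.2 k)⟩

/-- the action on the six reflections -/
noncomputable abbrev phS := phN Fs_inj

theorem A6_le_phS : alternatingGroup (Fin 6) ≤ pmap phS (K0 ⊓ St s0 ⊓ Nrm Fs) := alt_le fun i j h => by
  obtain ⟨a, a1, a2, a3⟩ := tr_swap 0 1 (by decide)
  obtain ⟨b, b1, b2, b3⟩ := tr_swap i j h
  have := pel_mem_pmap phS (X := K0 ⊓ St s0 ⊓ Nrm Fs) ⟨⟨a1.mem0 b1, mul_mem a2 b2⟩, mul_mem ⟨_, a3⟩ ⟨_, b3⟩⟩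
  rwa [pel_mul phS ⟨_, a3⟩ ⟨_, b3⟩, phN_eq _ a3, phN_eq _ b3] at this

/-- generators of `E5` -/
noncomputable def gE : List ℕ :=
  [mm (FM 0) (FM 1), mm (FM 0) (FM 2), mm (FM 0) (FM 3), mm (FM 0) (FM 4), FM 0]
/-- the group generated by the six reflections -/
noncomputable def E5 : Subgroup (Perm V6) := pker phS ⊓ (Hs ⊓ St s0)

theorem Fs_ker (i : Fin 6) : Fs i ∈ pker phS := (mem_pker_phN _).2 (Fs_comm i)
theorem Fs_E5 (i : Fin 6) : Fs i ∈ E5 := ⟨Fs_ker i, Fs_Hs i, Fs_s0 i⟩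
theorem rk_gE : ∀ M ∈ gE, RK E5 M := by
  have := fun i => (rep_Fs i).rk (Fs_E5 i)
  simp only [gE, List.forall_mem_cons, List.not_mem_nil, false_imp_iff, implies_true, and_true]
  exact ⟨(this 0).mul (this 1), (this 0).mul (this 2), (this 0).mul (this 3), (this 0).mul (this 4), this 0⟩
theorem rk_gE0 : ∀ M ∈ gE.take 4, RK (K0 ⊓ E5) M := by
  have : ∀ i, RK (K0 ⊓ E5) (mm (FM 0) (FM i)) := fun i => ((rep_Fs 0).mul (rep_Fs i)).rk
    ⟨by rw [Fs_zero]; exact f0_Fs i, mul_mem (Fs_E5 0) (Fs_E5 i)⟩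
  simp only [gE, List.take, List.forall_mem_cons, List.not_mem_nil, false_imp_iff, implies_true, and_true]
  exact ⟨this 1, this 2, this 3, this 4⟩
/-- images of a vector -/
def EX : ℕ := 0x6fc93f9cf6f3003f3ffcf00c9f36cf63f9fcff30300c0ffc7a8d2ad8a7a2aa8080020aa2da278a72ada8008a8aa2a002
theorem chk_E5 : bpChk gE 32 2 EX = true := by decide +kernel
theorem chk_E0 : bpChk (gE.take 4) 16 2 EX = true := by decide +kernel

theorem card_K0_s0 : Nat.card ↥(K0 ⊓ St s0) = 5760 := by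
  have := card_stab_s0 le_rfl (fun _ h => GU_le_OV (K0_GU h)) K0_StR
  rw [card_K0] at this
  exact Nat.eq_of_mul_eq_mul_left (by norm_num) this

theorem stab0_le : K0 ⊓ St s0 ≤ Nrm Fs := by
  have a1 := card_pmap_mul phS (X := K0 ⊓ St s0 ⊓ Nrm Fs) inf_le_right
  have a2 := card_le_of_le' A6_le_phS
  have a3 := (bp_card rk_gE0 chk_E0).1.trans (card_le_of_le' (B := pker phS ⊓ (K0 ⊓ St s0 ⊓ Nrm Fs))
    fun g hg => ⟨hg.2.1, ⟨hg.1, hg.2.2.2⟩, pker_le_dom _ hg.2.1⟩)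
  rw [card_A6] at a2
  exact inf_eq_left.1 (eq_of_le_of_card_le inf_le_left (by rw [card_K0_s0, ← a1]; exact Nat.mul_le_mul a3 a2))

theorem mul_mem_of_idx {H : Subgroup (Perm V6)} (h2 : K0.relIndex H = 2) {g t : Perm V6} (hg : g ∈ H)
    (ht : t ∈ H) (h1 : g ∉ K0) (h3 : t ∉ K0) : t * g ∈ K0 :=
  (mul_mem_iff_of_index_two (a := (⟨t, ht⟩ : H)) (b := ⟨g, hg⟩) h2).2 (iff_of_false h3 h1)

theorem s0_struct {H E : Subgroup (Perm V6)} (h1 : K0 ≤ H) (h2 : K0.relIndex H = 2) (h3 : H ≤ OV)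
    (hE : E ⊴ H ⊓ St s0) (hp : IsPGroup 2 E) (hc : 32 ≤ Nat.card E) :
    H = Hs ∧ E = E5 := by
  have hn : H ≤ 𝐍(K0) := (normal_subgroupOf_iff_le_normalizer h1).1 (normal_of_index_eq_two h2)
  have c1 : Nat.card ↥(H ⊓ St s0) = 11520 := by
    have a1 := card_stab_s0 h1 h3 fun g hg => norm_StR (h3 hg) (hn hg)
    have a2 := card_mul_relIndex h1
    rw [card_K0, h2, ← a1] at a2
    exact Nat.eq_of_mul_eq_mul_left (by norm_num : 0 < 1701) a2.symm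
  have key : ∀ t ∈ H ⊓ St s0 ⊓ Nrm Fs, t ∉ K0 → H ⊓ St s0 ≤ Nrm Fs ∧ E = pker phS ⊓ (H ⊓ St s0) ∧
      Nat.card E = 32 ∧ pmap phS (H ⊓ St s0) = alternatingGroup (Fin 6) := fun t ht ht' => by
    have b1 : H ⊓ St s0 ≤ Nrm Fs := fun g hg => by
      by_cases e : g ∈ K0
      · exact stab0_le ⟨e, hg.2⟩
      · exact (Subgroup.mul_mem_cancel_left _ ht.2).1 (stab0_le ⟨mul_mem_of_idx h2 hg.1 ht.1.1 e ht', mul_mem ht.1.2 hg.2⟩)
    have b2 := A6_le_phS.trans (pmap_mono phS (Y := H ⊓ St s0) fun g hg => ⟨h1 hg.1.1, hg.1.2⟩)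
    have b3 : E ≤ pker phS ⊓ (H ⊓ St s0) := le_inf ((pmap_eq_bot_iff (hE.1.trans b1)).1
      (pgroup_eq_bot (pgroup_pmap hp _) (b2.trans (hE.pmap phS).2))) hE.1
    have b4 := card_pmap_mul phS b1
    have b5 := card_le_of_le' b2
    have b6 := card_le_of_le' b3
    rw [card_A6] at b5
    rw [c1] at b4
    have b7 : Nat.card ↥(pker phS ⊓ (H ⊓ St s0)) ≤ 32 := by nlinarith
    exact ⟨b1, eq_of_le_of_card_le b3 (by omega), by omega,
      (eq_of_le_of_card_le b2 (by rw [card_A6]; nlinarith)).symm⟩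
  obtain ⟨a, a1, a2, a3⟩ := tr_swap 0 1 (by decide)
  have odd : ∀ t ∈ H ⊓ St s0 ⊓ Nrm Fs, t ∉ K0 → pel phS t ≠ swap 0 1 := fun t ht ht' e => by
    have := (key t ht ht').2.2.2 ▸ pel_mem_pmap phS ht.1
    rw [e, Perm.mem_alternatingGroup, Perm.sign_swap (by decide)] at this
    exact absurd this (by decide)
  obtain ⟨g, hg, hg'⟩ : ∃ g ∈ H, g ∉ K0 := SetLike.not_le_iff_exists.1 fun e => by
    rw [relIndex_eq_one.2 e] at h2; omega
  have m : ∀ {t}, t * g ∈ K0 → t ∈ H := fun e => (mul_mem_cancel_right hg).1 (h1 e)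
  rcases norm_cases (h3 hg) (hn hg) with e | e | e | e
  · exact absurd e hg'
  · exact absurd (phN_eq _ a3) (odd _ ⟨⟨(mul_mem_cancel_left (m e)).1 (h1 a1.T_mul), a2⟩, _, a3⟩ a1.not_K0)
  · have e1 : H = Hs := (eq_of_le_of_card_le (Hs_le h1 (m e)) (by
      rw [← card_mul_relIndex h1, h2, card_K0, card_Hs])).symm
    subst e1
    exact ⟨rfl, (key _ ⟨(Fs_E5 0).2, pker_le_dom _ (Fs_ker 0)⟩ (Fs_zero ▸ fun e => f0_not_GU (K0_GU e))).2.1⟩
  · refine absurd ?_ (odd (Fs 0 * tr a) ⟨⟨?_, mul_mem (Fs_s0 0) a2⟩, mul_mem (pker_le_dom _ (Fs_ker 0)) ⟨_, a3⟩⟩ ?_)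
    · rw [pel_mul _ (pker_le_dom _ (Fs_ker 0)) ⟨_, a3⟩, (mem_pker.1 (Fs_ker 0)).2, one_mul, phN_eq _ a3]
    · rw [Fs_zero, f0, mul_assoc]
      exact mul_mem (m e) (h1 a1.T_mul)
    · rw [Fs_zero]
      exact fun e => f0_not_GU ((mul_mem_cancel_right (tr_GU a)).1 (K0_GU e))

theorem stabH_le : Hs ⊓ St s0 ≤ Nrm Fs := fun g hg => hg.1.elim (fun e => stab0_le ⟨e, hg.2⟩) fun e =>
  (Subgroup.mul_mem_cancel_left _ (pker_le_dom _ (Fs_ker 0))).1
    (stab0_le ⟨by rwa [Fs_zero], mul_mem (Fs_s0 0) hg.2⟩)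

theorem card_E5' : Nat.card E5 = 32 ∧ pmap phS (Hs ⊓ St s0) = alternatingGroup (Fin 6) := by
  have c1 : Nat.card ↥(Hs ⊓ St s0) = 11520 := by
    have a1 := card_stab_s0 K0_Hs Hs_OV Hs_StR
    rw [card_Hs] at a1
    exact Nat.eq_of_mul_eq_mul_left (by norm_num) a1
  have b2 := A6_le_phS.trans (pmap_mono phS (Y := Hs ⊓ St s0) fun g hg => ⟨K0_Hs hg.1.1, hg.1.2⟩)
  have b4 := card_pmap_mul phS stabH_le
  have b5 := card_le_of_le' b2
  have b6 := (bp_card rk_gE chk_E5).1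
  rw [card_A6] at b5
  rw [c1] at b4
  change Nat.card E5 * _ = _ at b4
  exact ⟨by nlinarith, (eq_of_le_of_card_le b2 (by rw [card_A6]; nlinarith)).symm⟩
theorem card_E5 : Nat.card E5 = 32 := card_E5'.1
theorem phS_Hs : pmap phS (Hs ⊓ St s0) = alternatingGroup (Fin 6) := card_E5'.2
theorem E5_cases {g : Perm V6} (h : g ∈ E5) : ∃ n < 32, Rep g (bp gE n) := (bp_card rk_gE chk_E5).2 card_E5.le g h
theorem E5_sq {g : Perm V6} (h : g ∈ E5) : g * g = 1 := by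
  obtain ⟨n, hn, r⟩ := E5_cases h
  have : allN (fun n => fc (bp gE n) fun M => Nat.beq (mm M M) idM) 32 = true := by decide +kernel
  have := allN_iff.1 this n hn
  rw [fc_eq, beq_iff] at this
  exact (this ▸ r.mul r).eq rep_one

end CA.F24
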