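/-
Groups of large Fischer type: the conjugates of `z` in `Q`.
-/
import Cfsg.Agent.Lib.F24.Stab
import Cfsg.Agent.Lib.Extra2.Pair

set_option autoImplicit false
set_option linter.unusedSectionVars false
set_option linter.unusedVariables false

namespace CA.F24

open Cfsg Equiv Subgroup CA CA.Fi CA.Unit CA.Fi.F4 CA.Ex2
open scoped commutatorElement

variable {G : Type*} [Group G] [Finite G]

theorem card_le_of_ab {Q U : Subgroup G} {z : G} (h : EZ Q z) (hz : z ∈ U) (hU : U ≤ Q)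
    (ha : IsMulCommutative U) (hQ : Nat.card Q = 2 ^ 13) : Nat.card U ≤ 2 ^ 7 := by
  have h1 := h.card_mul_card_cent hz hU
  have h2 := card_le_of_le' (le_inf hU (abelian_iff.1 ha))
  rw [hQ] at h1
  nlinarith

namespace FT
variable {Q : Subgroup G} {z : G} {π : ↥𝐂[z] →* Perm V6} {c : G → V6} (h : FT Q z π c)
variable {a b q q' s t y g : G} {k : Perm V6}
include h

theorem ez : EZ Q z := h.lq.ez
theorem le_C : Q ≤ 𝐂[z] := h.ez.le_cent1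
theorem c_z : c z = 0 := (h.zero h.ez.mem).2 (mem_zpowers z)
theorem c_one : c 1 = 0 := (h.zero (one_mem _)).2 (one_mem _)
theorem c_mul_z (hq : q ∈ Q) : c (q * z) = c q := by rw [h.mul hq h.ez.mem, h.c_z, add_zero]
theorem c_inv (hq : q ∈ Q) : c q⁻¹ = c q := by
  have := h.mul (inv_mem hq) hq
  rw [inv_mul_cancel, h.c_one] at this
  rw [← add_zero (c q⁻¹), ← vadd_self (c q), ← add_assoc, ← this, zero_add]
theorem c_eq_iff (ha : a ∈ Q) (hb : b ∈ Q) : c a = c b ↔ b = a ∨ b = a * z := by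
  rw [← inv_mul_eq_iff_eq_mul, eq_comm (a := b), ← inv_mul_eq_one (a := a), ← h.ez.mem_zp,
    ← h.zero (mul_mem (inv_mem ha) hb), h.mul (inv_mem ha) hb, h.c_inv ha]
  exact ⟨fun e => e ▸ vadd_self _, fun e => add_right_cancel (e.trans (vadd_self _).symm)⟩
theorem conj_mem (hy : y ∈ 𝐂[z]) (hq : q ∈ Q) : y * q * y⁻¹ ∈ Q :=
  conj_mem_of_mem_normalizer (h.lq.le_norm hy) hq
theorem pel_eq_one (hq : q ∈ Q) : pel π q = 1 := (mem_pker.1 (h.ker.ge hq)).2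
theorem mem_of_pel (hy : y ∈ 𝐂[z]) (e : pel π y = 1) : y ∈ Q := h.ker.le (mem_pker.2 ⟨hy, e⟩)
omit h in
theorem exists_lift (hk : k ∈ π.range) : ∃ y ∈ 𝐂[z], pel π y = k := by
  obtain ⟨y, rfl⟩ := hk
  exact ⟨y, y.2, pel_coe _ _⟩
omit h in
theorem pel_range (y : G) : pel π y ∈ π.range := pmap_le_range π ⊤ (pel_mem_pmap π (mem_top y))
theorem pel_OV (y : G) : pel π y ∈ OV := h.ov (pel_range y)
theorem norm_K0 : π.range ≤ 𝐍(K0) :=
  (normal_subgroupOf_iff_le_normalizer h.k0).1 (normal_of_index_eq_two h.idx)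
theorem pel_StR (y : G) : pel π y ∈ StR := norm_StR (h.pel_OV y) (h.norm_K0 (pel_range y))
theorem card_range : Nat.card π.range = 19595520 := by rw [← card_mul_relIndex h.k0, h.idx, card_K0]

theorem twist (hk : k ∈ K0) : FT Q z ((MulAut.conj k).toMonoidHom.comp π) fun q => k (c q) := by
  have hp : ∀ y ∈ 𝐂[z], pel ((MulAut.conj k).toMonoidHom.comp π) y = k * pel π y * k⁻¹ :=
    fun y hy => by rw [pel_of_mem _ hy, pel_of_mem _ hy]; rfl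
  have hr : ((MulAut.conj k).toMonoidHom.comp π).range = π.range := by
    rw [MonoidHom.range_comp]; exact cj_eq_of_mem (h.k0 hk)
  have hk' := GU_le_OV (K0_GU hk)
  refine ⟨h.lq, h.card, ?_, hr ▸ h.k0, hr ▸ h.idx, hr ▸ h.ov, fun ha hb => by rw [h.mul ha hb, hk'.1], fun v => ?_,
    fun hq => by rw [← h.zero hq, ← hk'.1.zero, k.injective.eq_iff, hk'.1.zero], fun hq => by rw [h.sq hq, hk'.2],
    fun ha hb => by rw [h.comm ha hb, OV.bv hk'], fun hy hq => by rw [h.equi hy hq, hp _ hy]; simp, h.ex⟩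
  · rw [← h.ker]; ext x
    simp only [mem_pker]
    exact and_congr_right fun hx => by rw [hp x hx, conj_eq_one_iff]
  · obtain ⟨q, hq, e⟩ := h.sur (k⁻¹ v)
    exact ⟨q, hq, by simp [e]⟩

theorem conj_of (hq : q ∈ Q) (hq' : q' ∈ Q) (h0 : c q ≠ 0) (hk : k ∈ π.range) (e : k (c q) = c q') :
    ∃ y ∈ 𝐂[z], pel π y = k ∧ y * q * y⁻¹ = q' := by
  obtain ⟨y, hy, rfl⟩ := exists_lift hk
  rw [← h.equi hy hq] at e
  rcases (h.c_eq_iff (h.conj_mem hy hq) hq').1 e with f | f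
  · exact ⟨y, hy, rfl, f.symm⟩
  · obtain ⟨p, hp, e'⟩ := h.ez.exists_conj hq fun e => h0 ((h.zero hq).2 e)
    refine ⟨y * p, mul_mem hy (h.le_C hp), by rw [pel_mul _ hy (h.le_C hp), h.pel_eq_one hp, mul_one], ?_⟩
    rw [f, mul_inv_rev, show y * p * q * (p⁻¹ * y⁻¹) = y * (p * q * p⁻¹) * y⁻¹ by group, e', mul_assoc (y * q),
      mem_cent1_iff.1 (inv_mem hy)]
    group

theorem pmap_cent (hs : s ∈ Q) (h0 : c s ≠ 0) : pmap π (𝐂[z] ⊓ 𝐂[s]) = π.range ⊓ St (c s) := by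
  ext k
  rw [mem_pmap_of_le inf_le_left]
  constructor
  · rintro ⟨y, hy, rfl⟩
    exact ⟨pel_range y, mem_St.2 (by rw [← h.equi hy.1 hs, conj_eq_iff_mem_cent1.2 hy.2])⟩
  · rintro ⟨h1, h2⟩
    obtain ⟨y, hy, e1, e2⟩ := h.conj_of hs hs h0 h1 h2
    exact ⟨y, ⟨hy, conj_eq_iff_mem_cent1.1 e2⟩, e1⟩

theorem iso_of (hq : q ∈ Q) (h2 : q * q = 1) (h1 : q ∉ zpowers z) : Iso (c q) :=
  ⟨(h.sq hq).1 h2, fun e => h1 ((h.zero hq).1 e)⟩

theorem card_le {U : Subgroup G} (hU : U ≤ Q) {S : Set V6} (hS : ∀ u ∈ U, c u ∈ S) :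
    Nat.card U ≤ 2 * S.ncard := by
  classical
  choose σ h1 h2 using h.sur
  have := Nat.card_le_card_of_injective (fun u : U => ((if u = σ (c u) then 0 else 1, ⟨c u, hS u u.2⟩) : Fin 2 × S))
    fun u v e => by
      simp only [Prod.mk.injEq, Subtype.mk.injEq] at e
      obtain ⟨e1, e2⟩ := e
      rw [← e2] at e1
      rcases (h.c_eq_iff (h1 _) (hU u.2)).1 (h2 _) with f | f <;>
        rcases (h.c_eq_iff (h1 _) (hU v.2)).1 ((h2 _).trans e2) with f' | f'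
      · exact Subtype.ext (f.trans f'.symm)
      · rw [if_pos f, if_neg fun e => h.ez.ne_one (by simpa using f'.symm.trans e)] at e1
        exact absurd e1 (by decide)
      · rw [if_pos f', if_neg fun e => h.ez.ne_one (by simpa using f.symm.trans e)] at e1
        exact absurd e1 (by decide)
      · exact Subtype.ext (f.trans f'.symm)
  rwa [Nat.card_prod, Nat.card_fin, Nat.card_coe_set_eq] at this

theorem card_EP (hT : Tri Q (cj g Q) z s) :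
    Nat.card ↥(Q ⊓ cj g Q) * Nat.card (pmap π (cj g Q ⊓ 𝐂[z])) = 2 ^ 12 := by
  have a1 := hT.r.ez.card_cent1 hT.mem' hT.symm.not_mem
  have a2 := card_pmap_mul π (X := cj g Q ⊓ 𝐂[z]) inf_le_right
  rw [h.ker, ← inf_assoc, inf_right_comm, inf_eq_left.2 h.le_C] at a2
  rw [card_cj, h.card] at a1
  omega

theorem not_conj_r0 (hs : s ∈ Q) (e : c s = r0) : ¬ IsConj z s := by
  intro hc
  obtain ⟨g, rfl⟩ := isConj_iff.1 hc
  have h0 : c (g * z * g⁻¹) ≠ 0 := e ▸ rt_r0.iso.2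
  have hT := h.lq.tri hs fun f => h0 (by rw [f, h.c_z])
  have a1 := r0_inv (S := c '' (Q ⊓ cj g Q : Subgroup G)) ?_ ⟨1, one_mem _, h.c_one⟩ ⟨_, ⟨hs, hT.r.ez.mem⟩, e⟩ ?_
  · have a2 := h.card_le (U := Q ⊓ cj g Q) inf_le_left fun u hu => a1 ⟨u, hu, rfl⟩
    have a3 : ({0, r0, w • r0, w' • r0} : Set V6).ncard ≤ 4 :=
      (Set.ncard_insert_le _ _).trans (Nat.succ_le_succ ((Set.ncard_insert_le _ _).trans
        (Nat.succ_le_succ ((Set.ncard_insert_le _ _).trans (by simp)))))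
    have a4 := h.card_EP hT
    have a5 := card_dvd_of_le' (pmap_le_range π (cj g Q ⊓ 𝐂[z]))
    obtain ⟨n, -, hn⟩ := (Nat.dvd_prime_pow Nat.prime_two).1 (Dvd.intro_left _ a4)
    rw [h.card_range, hn] at a5
    rw [hn] at a4
    have : n ≤ 8 := by
      by_contra f
      exact absurd ((pow_dvd_pow 2 (show 9 ≤ n by omega)).trans a5) (by norm_num)
    have := Nat.pow_le_pow_right (show 0 < 2 by norm_num) this
    nlinarith
  · rintro _ ⟨u, hu, rfl⟩ _ ⟨v, hv, rfl⟩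
    rw [← h.mul hu.1 hv.1, ← h.sq (mul_mem hu.1 hv.1), ← pow_two]
    exact hT.elemAb_E.2 _ (mul_mem hu hv)
  · rintro k hk _ ⟨u, hu, rfl⟩
    obtain ⟨y, hy, rfl⟩ := (mem_pmap_of_le inf_le_left).1 ((h.pmap_cent hs h0).ge ⟨h.k0 hk.1, e ▸ hk.2⟩)
    exact ⟨y * u * y⁻¹, conj_mem_of_mem_normalizer (norms_inf (inf_le_left.trans h.lq.le_norm)
      (inf_le_right.trans hT.r.le_norm) hy) hu, h.equi hy.1 hu.1⟩

theorem not_conj_R (hs : s ∈ Q) (e : Rt (c s)) : ¬ IsConj z s := by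
  obtain ⟨k, hk, e'⟩ := orb_R e
  exact (h.twist hk).not_conj_r0 hs e'

theorem S_of_conj (hs : s ∈ Q) (hc : IsConj z s) (hne : s ≠ z) : Iso (c s) ∧ ¬ Rt (c s) := by
  refine ⟨?_, fun e => h.not_conj_R hs e hc⟩
  obtain ⟨g, rfl⟩ := isConj_iff.1 hc
  have hT := h.lq.tri hs hne
  exact h.iso_of hs hT.xsq hT.not_mem

theorem conj_S (ha : a ∈ Q) (hb : b ∈ Q) (h1 : Iso (c a) ∧ ¬ Rt (c a)) (h2 : Iso (c b) ∧ ¬ Rt (c b)) :
    ∃ y ∈ 𝐂[z], pel π y ∈ K0 ∧ y * a * y⁻¹ = b := by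
  obtain ⟨k, hk, e⟩ := orb_S h1.1 h1.2
  obtain ⟨k', hk', e'⟩ := orb_S h2.1 h2.2
  obtain ⟨y, hy, e1, e2⟩ := h.conj_of ha hb h1.1.2 (h.k0 (mul_mem (inv_mem hk') hk)) (by simp [e, ← e'])
  exact ⟨y, hy, e1 ▸ mul_mem (inv_mem hk') hk, e2⟩

theorem conj_R (ha : a ∈ Q) (hb : b ∈ Q) (h1 : Rt (c a)) (h2 : Rt (c b)) :
    ∃ y ∈ 𝐂[z], pel π y ∈ K0 ∧ y * a * y⁻¹ = b := by
  obtain ⟨k, hk, e⟩ := orb_R h1
  obtain ⟨k', hk', e'⟩ := orb_R h2
  obtain ⟨y, hy, e1, e2⟩ := h.conj_of ha hb h1.iso.2 (h.k0 (mul_mem (inv_mem hk') hk)) (by simp [e, ← e'])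
  exact ⟨y, hy, e1 ▸ mul_mem (inv_mem hk') hk, e2⟩

theorem conj_of_S (ha : a ∈ Q) (h1 : Iso (c a) ∧ ¬ Rt (c a)) : IsConj z a := by
  obtain ⟨g, h2, h3⟩ := h.ex
  obtain ⟨y, -, -, rfl⟩ := h.conj_S h2 ha (h.S_of_conj h2 (isConj_iff.2 ⟨g, rfl⟩) h3) h1
  exact (isConj_iff.2 ⟨g, rfl⟩).trans (isConj_iff.2 ⟨y, rfl⟩)

theorem R_of_not_conj (ht : t ∈ Q) (h2 : t * t = 1) (h1 : t ≠ 1) (hc : ¬ IsConj z t) : Rt (c t) := by
  by_contra e
  refine hc (h.conj_of_S ht ⟨h.iso_of ht h2 fun f => ?_, e⟩)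
  rcases h.ez.mem_zp.1 f with rfl | rfl
  · exact h1 rfl
  · exact hc (IsConj.refl _)

theorem tri_s0 (hs : g * z * g⁻¹ ∈ Q) (e : c (g * z * g⁻¹) = s0) : Tri Q (cj g Q) z (g * z * g⁻¹) :=
  h.lq.tri hs fun f => iso_s0.2 (by rw [← e, f, h.c_z])

theorem main_s0 (hs : g * z * g⁻¹ ∈ Q) (e : c (g * z * g⁻¹) = s0) : π.range = Hs ∧
    pmap π (cj g Q ⊓ 𝐂[z]) = E5 ∧ Nat.card ↥(Q ⊓ cj g Q) = 2 ^ 7 := by
  have hT := h.tri_s0 hs e
  have a1 := h.card_EP hT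
  have a2 := card_le_of_ab h.ez (mem_inf.2 ⟨h.ez.mem, hT.mem'⟩) inf_le_left hT.elemAb_E.1 h.card
  have a3 := NormalIn.pmap ⟨hT.r_le, hT.cent_norm_r⟩ π
  rw [h.pmap_cent hs (e ▸ iso_s0.2), e] at a3
  obtain ⟨b1, b2⟩ := s0_struct h.k0 h.idx h.ov a3 (pgroup_pmap (hT.r.ez.pg.to_le inf_le_left) _)
    (by nlinarith)
  rw [b2, card_E5] at a1
  exact ⟨b1, b2, by omega⟩

theorem exists_s0 (hs : s ∈ Q) (hc : IsConj z s) (hne : s ≠ z) : ∃ k ∈ K0, k (c s) = s0 :=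
  orb_S (h.S_of_conj hs hc hne).1 (h.S_of_conj hs hc hne).2

theorem exists_g : ∃ g, g * z * g⁻¹ ∈ Q ∧ c (g * z * g⁻¹) = s0 := by
  obtain ⟨q, hq, e⟩ := h.sur s0
  obtain ⟨g, rfl⟩ := isConj_iff.1 (h.conj_of_S hq (e ▸ ⟨iso_s0, not_rt_s0⟩))
  exact ⟨g, hq, e⟩

theorem range_eq : π.range = Hs := by
  obtain ⟨g, h1, h2⟩ := h.exists_g
  exact (h.main_s0 h1 h2).1

end FT

theorem FT.exists_eps {z : G} {Q : Subgroup ↥𝐂[z]} [Q.Normal] {π : ↥𝐂[z] →* Perm V6} {c : G → V6}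
    (h : FT (Q.map (𝐂[z]).subtype) z π c) : ∃ ε : ↥𝐂[z] ⧸ Q →* Perm V6, Function.Injective ε ∧
      ∀ Y : Subgroup ↥𝐂[z], (Y.map (QuotientGroup.mk' Q)).map ε = Y.map π := by
  have k : ∀ y, π y = 1 ↔ y ∈ Q := fun y => by
    rw [← mem_map_iff_mem (subtype_injective _), ← h.ker, mem_pker, coe_subtype, pel_coe]
    simp
  refine ⟨QuotientGroup.lift Q π fun y hy => (k y).2 hy, (injective_iff_map_eq_one _).2 fun l hl => ?_,
    fun Y => by rw [map_map]; rfl⟩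
  obtain ⟨y, rfl⟩ := QuotientGroup.mk_surjective l
  exact (QuotientGroup.eq_one_iff _).2 ((k y).1 hl)

end CA.F24
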