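/-
Groups of large Fischer type: the canonical section of `Q` and the lifts normalising `x`.
-/
import Cfsg.Agent.Lib.F24.Loc

set_option autoImplicit false
set_option linter.unusedSectionVars false
set_option linter.unusedVariables false

namespace CA.F24

open Cfsg Equiv Subgroup CA CA.Fi CA.Unit CA.Fi.F4 CA.Ex2

/-- the trace -/
def t2 (a : F4) : ZMod 2 := if a = 0 ∨ a = 1 then 0 else 1
theorem t2_add : ∀ a b, t2 (a + b) = t2 a + t2 b := by decide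
theorem t2_zero : t2 0 = 0 := by decide
theorem t2_star : ∀ a, t2 (star a) = t2 a := by decide
theorem bv_eq_zero {u v : V6} : bv u v = 0 ↔ t2 (h6 u v) = 0 := by
  rw [bv, ← h_star u v]
  generalize h6 u v = a
  revert a; decide

/-- the cocycle of the section -/
def be (u v : V6) : ZMod 2 := t2 (w' * h6 u v)
/-- the quadratic form -/
def nq (v : V6) : ZMod 2 := be v v

theorem be_add_left (u v y : V6) : be (u + v) y = be u y + be v y := by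
  simp only [be, h_add_left, mul_add, t2_add]
theorem be_add_right (u v y : V6) : be y (u + v) = be y u + be y v := by
  simp only [be, h_add_right, mul_add, t2_add]
theorem be_of_h {u v : V6} (h : h6 u v = 0) : be u v = 0 := by rw [be, h, mul_zero, t2_zero]
theorem be_add_be (u v : V6) : be u v + be v u = t2 (h6 u v) := by
  rw [be, be, ← h_star u v]
  generalize h6 u v = a
  revert a; decide
theorem nq_eq_zero {v : V6} : nq v = 0 ↔ h6 v v = 0 := by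
  rcases h6_self v with e | e <;> rw [nq, be, e] <;> decide
theorem z2_cases : ∀ a : ZMod 2, a = 0 ∨ a = 1 := by decide
theorem z2_add_self : ∀ a : ZMod 2, a + a = 0 := by decide

theorem w_w' (v : V6) : w' • w • v = v := by rw [smul_smul, show w' * w = 1 by decide, one_smul]
theorem add_w (v : V6) : v + w • v = w' • v := by rw [w'_eq, add_smul, one_smul, add_comm]
theorem sc1 (v : V6) : sc 1 v = w • v := rfl
theorem sc1_pow : sc 1 ^ 3 = 1 := by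
  rw [pow_succ, pow_two, ← sc_add, ← sc_add]; exact sc_zero
theorem sc1_inv (v : V6) : (sc 1)⁻¹ v = w' • v := by
  rw [Perm.inv_eq_iff_eq, sc1, smul_smul, show w * w' = 1 by decide, one_smul]
theorem sc1_ne_inv : sc 1 ≠ (sc 1)⁻¹ := fun e => by
  have := (sc1_inv 1).symm.trans (congrArg (· 1) e).symm
  revert this; rw [sc1]; decide
theorem K0_sc {k : Perm V6} (h : k ∈ K0) : k * sc 1 * k⁻¹ = sc 1 := by
  rw [sc_comm (K0_GU h), mul_inv_cancel_right]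
theorem f0_sc : f0 * sc 1 * f0⁻¹ = (sc 1)⁻¹ := by
  have : sig * sc 1 * sig = sc (-1) := sig_dg _
  rw [f0, mul_assoc sig, sc_comm T_GU, mul_inv_rev, sig_inv, ← mul_assoc, ← mul_assoc, mul_inv_cancel_right, this,
    eq_inv_iff_mul_eq_one, ← sc_add]
  exact sc_zero
theorem Hs_sc {k : Perm V6} (h : k ∈ Hs) (h' : k ∉ K0) : k * sc 1 * k⁻¹ = (sc 1)⁻¹ := by
  have := K0_sc (h.resolve_left h')
  calc _ = f0 * (f0 * k * sc 1 * (f0 * k)⁻¹) * f0⁻¹ := by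
        rw [mul_inv_rev, f0_inv]; simp only [mul_assoc, f0_f0, f0_sq, mul_one]
    _ = _ := by rw [this, f0_sc]
theorem K0_of_sc {k : Perm V6} (h : k ∈ Hs) (e : k * sc 1 * k⁻¹ = sc 1) : k ∈ K0 := by
  by_contra f
  exact sc1_ne_inv (e.symm.trans (Hs_sc h f))
theorem Hs_smul {k : Perm V6} (h : k ∈ Hs) (h' : k ∉ K0) (a : F4) (v : V6) : k (a • v) = star a • k v := by
  have := GU.smul (K0_GU (h.resolve_left h')) a v
  rw [← f0_f0 k, Perm.mul_apply, this, f0, Perm.mul_apply, GU.smul T_GU, sig_smul]; rfl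
theorem Hs_h {k : Perm V6} (h : k ∈ Hs) (h' : k ∉ K0) (u v : V6) : h6 (k u) (k v) = star (h6 u v) := by
  have := GU.h (K0_GU (h.resolve_left h')) u v
  rw [← f0_f0 k, Perm.mul_apply, Perm.mul_apply f0 (f0 * k), ← this]
  generalize (f0 * k) u = a
  generalize (f0 * k) v = b
  rw [f0, Perm.mul_apply, Perm.mul_apply, h_sig, GU.h T_GU]

variable {G : Type*} [Group G]

/-- power of an involution -/
def ze (z : G) (a : ZMod 2) : G := z ^ a.val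
@[simp] theorem ze_zero (z : G) : ze z 0 = 1 := pow_zero z
@[simp] theorem ze_one (z : G) : ze z 1 = z := pow_one z
theorem ze_add {z : G} (hz : z * z = 1) (a b : ZMod 2) : ze z (a + b) = ze z a * ze z b := by
  rcases z2_cases a with rfl | rfl <;> rcases z2_cases b with rfl | rfl <;> simp [hz, z2_add_self]
theorem ze_mem (z : G) (a : ZMod 2) : ze z a ∈ zpowers z := pow_mem (mem_zpowers z) _
theorem ze_comm {z y : G} (hy : y ∈ 𝐂[z]) (a : ZMod 2) : ze z a * y = y * ze z a :=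
  ((show Commute y z from mem_cent1_iff.1 hy).pow_right _).eq.symm
theorem ze_inj {z : G} (hz : z ≠ 1) {a b : ZMod 2} (e : ze z a = ze z b) : a = b := by
  rcases z2_cases a with rfl | rfl <;> rcases z2_cases b with rfl | rfl <;> simp_all [eq_comm]
theorem ze_sq {z : G} (hz : z * z = 1) (a : ZMod 2) : ze z a * ze z a = 1 := by
  rw [← ze_add hz, z2_add_self, ze_zero]
theorem ze_inv {z : G} (hz : z * z = 1) (a : ZMod 2) : (ze z a)⁻¹ = ze z a :=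
  inv_eq_of_mul_eq_one_right (ze_sq hz a)
theorem conj_ze {z y : G} (hy : y ∈ 𝐂[z]) (a : ZMod 2) : y * ze z a * y⁻¹ = ze z a := by
  rw [← ze_comm hy, mul_inv_cancel_right]

/-- coordinates with a section -/
structure FS (Q : Subgroup G) (z : G) (π : ↥𝐂[z] →* Perm V6) (c : G → V6) (x : G) (σ : V6 → G) : Prop
    extends FT Q z π c where
  xm : x ∈ 𝐂[z]
  xp : pel π x = sc 1
  x3 : x ^ 3 = 1
  sg : ∀ q ∈ Q, σ (w' • c q) = q * x * q⁻¹ * x⁻¹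

variable [Finite G] {Q : Subgroup G} {z x : G} {π : ↥𝐂[z] →* Perm V6} {c : G → V6} {σ : V6 → G}
variable {a b q q' n n' y g : G} {k : Perm V6} {u v : V6}

namespace FT
variable (h : FT Q z π c)
include h

theorem zz : z * z = 1 := h.ez.sq
theorem zm : z ∈ 𝐂[z] := self_mem_cent1 z
theorem ze_Q (e : ZMod 2) : ze z e ∈ Q := h.ez.zp_le (ze_mem z e)
theorem c_ze (hq : q ∈ Q) (e : ZMod 2) : c (q * ze z e) = c q := by
  rw [h.mul hq (h.ze_Q e), (h.zero (h.ze_Q e)).2 (ze_mem z e), add_zero]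
theorem pel_ze (hy : y ∈ 𝐂[z]) (e : ZMod 2) : pel π (y * ze z e) = pel π y := by
  rw [pel_mul _ hy (h.le_C (h.ze_Q e)), h.pel_eq_one (h.ze_Q e), mul_one]
theorem pel_z (hy : y ∈ 𝐂[z]) : pel π (y * z) = pel π y := by simpa using h.pel_ze hy 1
theorem pel_Q (hq : q ∈ Q) (hy : y ∈ 𝐂[z]) : pel π (q * y) = pel π y := by
  rw [pel_mul _ (h.le_C hq) hy, h.pel_eq_one hq, one_mul]
theorem exists_ze (ha : a ∈ Q) (hb : b ∈ Q) (e : c a = c b) : ∃ e, b = a * ze z e :=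
  ((h.c_eq_iff ha hb).1 e).elim (fun f => ⟨0, by simpa⟩) fun f => ⟨1, by simpa⟩
theorem exists_ze' (hq : q ∈ zpowers z) : ∃ e, q = ze z e :=
  (h.ez.mem_zp.1 hq).elim (fun f => ⟨0, by simpa⟩) fun f => ⟨1, by simpa⟩
theorem conj_Q (ha : a ∈ Q) (hb : b ∈ Q) : a * b * a⁻¹ = b * ze z (t2 (h6 (c a) (c b))) := by
  rcases z2_cases (t2 (h6 (c a) (c b))) with e | e
  · rw [e, ze_zero, mul_one, (h.comm ha hb).2 (bv_eq_zero.2 e), mul_inv_cancel_right]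
  · rw [e, ze_one]
    exact (h.ez.comm_or ha hb).resolve_left fun f => absurd (e.symm.trans (bv_eq_zero.1 ((h.comm ha hb).1 f)))
      (by decide)
theorem pel_Hs (y : G) : pel π y ∈ Hs := h.range_eq ▸ pel_range y
theorem lift (hk : k ∈ Hs) : ∃ y ∈ 𝐂[z], pel π y = k := exists_lift (h.range_eq ▸ hk)
theorem mul_inv_mem (hy : y ∈ 𝐂[z]) (hn : n ∈ 𝐂[z]) (e : pel π y = pel π n) : y * n⁻¹ ∈ Q :=
  h.mem_of_pel (mul_mem hy (inv_mem hn)) (by rw [pel_mul _ hy (inv_mem hn), pel_inv _ hn, e, mul_inv_cancel])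

theorem exists_x : ∃ x ∈ 𝐂[z], pel π x = sc 1 ∧ x ^ 3 = 1 := by
  obtain ⟨y, hy, e⟩ := h.lift (K0_Hs (sc_K0 1))
  have a1 : y ^ 3 ∈ Q := h.mem_of_pel (pow_mem hy 3) (by rw [pel_pow _ hy, e, sc1_pow])
  refine ⟨y ^ 4, pow_mem hy 4, by rw [pel_pow _ hy, e, pow_succ, sc1_pow, one_mul], ?_⟩
  obtain ⟨f, hf⟩ := h.exists_ze' (h.ez.sq_mem a1)
  rw [← pow_mul, show 4 * 3 = 3 + 3 + (3 + 3) from rfl, pow_add, pow_add, hf, ze_sq h.zz]

theorem fs_of (hx : x ∈ 𝐂[z]) (e : pel π x = sc 1) (h3 : x ^ 3 = 1) : ∃ σ, FS Q z π c x σ := by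
  choose s h1 h2 using h.sur
  refine ⟨fun v => s (w • v) * x * (s (w • v))⁻¹ * x⁻¹, h, hx, e, h3, fun q hq => ?_⟩
  obtain ⟨f, hf⟩ := h.exists_ze hq (h1 (w • w' • c q)) (by rw [h2, smul_comm, w_w'])
  rw [hf, mul_assoc q, ze_comm hx, mul_inv_rev, ← mul_assoc q, mul_assoc (q * x), mul_inv_cancel_left]

theorem exists_fs : ∃ x σ, FS Q z π c x σ := by
  obtain ⟨x, h1, h2, h3⟩ := h.exists_x
  exact ⟨x, h.fs_of h1 h2 h3⟩

end FT

namespace FS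
variable (h : FS Q z π c x σ)
include h

theorem exists_q (v : V6) : ∃ q ∈ Q, c q = w • v ∧ σ v = q * x * q⁻¹ * x⁻¹ := by
  obtain ⟨q, hq, e⟩ := h.sur (w • v)
  exact ⟨q, hq, e, by rw [← h.sg q hq, e, w_w']⟩
theorem mem (v : V6) : σ v ∈ Q := by
  obtain ⟨q, hq, -, e⟩ := h.exists_q v
  rw [e, mul_assoc, mul_assoc, ← mul_assoc x]
  exact mul_mem hq (h.conj_mem h.xm (inv_mem hq))
theorem memC (v : V6) : σ v ∈ 𝐂[z] := h.le_C (h.mem v)
theorem c_s (v : V6) : c (σ v) = v := by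
  obtain ⟨q, hq, e', e⟩ := h.exists_q v
  rw [e, mul_assoc, mul_assoc, ← mul_assoc x, h.mul hq (h.conj_mem h.xm (inv_mem hq)), h.equi h.xm (inv_mem hq),
    h.c_inv hq, h.xp, sc1, add_w, e', w_w']
theorem pel_s (v : V6) : pel π (σ v) = 1 := h.pel_eq_one (h.mem v)
theorem s_zero : σ 0 = 1 := by simpa [h.c_one] using h.sg 1 (one_mem _)
theorem exists_s (hq : q ∈ Q) : ∃ e, q = σ (c q) * ze z e := h.exists_ze (h.mem _) hq (h.c_s _)
theorem s_mul (u v : V6) : σ u * σ v = σ (u + v) * ze z (be u v) := by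
  obtain ⟨a, ha, e1, e2⟩ := h.exists_q v
  obtain ⟨b, hb, e3, e4⟩ := h.exists_q u
  have a1 := h.sg _ (mul_mem ha hb)
  rw [h.mul ha hb, e1, e3, ← smul_add, w_w', add_comm] at a1
  have a2 := h.conj_Q ha (h.mem u)
  rw [e1, h.c_s, h_smul_left, ← t2_star, star_mul, h_star, mul_comm] at a2
  change _ = _ * ze z (be u v) at a2
  rw [a1, show a * b * x * (a * b)⁻¹ * x⁻¹ = a * σ u * a⁻¹ * σ v by rw [e2, e4]; group, a2, mul_assoc (σ u),
    ze_comm (h.memC v), mul_assoc, mul_assoc, ze_sq h.zz, mul_one]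
theorem s_inv (v : V6) : (σ v)⁻¹ = σ v * ze z (nq v) := by
  rw [inv_eq_iff_mul_eq_one, ← mul_assoc, h.s_mul, vadd_self, h.s_zero, one_mul, nq, ze_sq h.zz]
theorem s_inv0 (e : h6 v v = 0) : (σ v)⁻¹ = σ v := by rw [h.s_inv, nq_eq_zero.2 e, ze_zero, mul_one]
theorem s_sq (e : h6 v v = 0) : σ v * σ v = 1 := eq_inv_iff_mul_eq_one.1 (h.s_inv0 e).symm
theorem s_add (e : h6 u v = 0) : σ (u + v) = σ u * σ v := by rw [h.s_mul, be_of_h e, ze_zero, mul_one]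
theorem s_conj (u v : V6) : σ u * σ v * (σ u)⁻¹ = σ v * ze z (t2 (h6 u v)) := by
  rw [h.conj_Q (h.mem u) (h.mem v), h.c_s, h.c_s]
theorem s_inj {e f : ZMod 2} (H : σ u * ze z e = σ v * ze z f) : u = v ∧ e = f := by
  have := congrArg c H
  rw [h.c_ze (h.mem _), h.c_ze (h.mem _), h.c_s, h.c_s] at this
  subst this
  exact ⟨rfl, ze_inj h.ez.ne_one (mul_left_cancel H)⟩

theorem pel_K0 (hn : n ∈ 𝐂[z] ⊓ 𝐂[x]) : pel π n ∈ K0 :=
  K0_of_sc (h.pel_Hs n) (by rw [← h.xp, ← pel_conj _ hn.1 h.xm, conj_eq_iff_mem_cent1.2 hn.2])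
theorem pel_not_K0 (hn : n ∈ 𝐂[z]) (e : n * x * n⁻¹ = x⁻¹) : pel π n ∉ K0 := fun f =>
  sc1_ne_inv ((K0_sc f).symm.trans (by rw [← h.xp, ← pel_conj _ hn h.xm, e, pel_inv _ h.xm]))

theorem conj_c (hn : n ∈ 𝐂[z] ⊓ 𝐂[x]) (v : V6) : n * σ v * n⁻¹ = σ (pel π n v) := by
  obtain ⟨q, hq, e1, e2⟩ := h.exists_q v
  have := h.sg _ (h.conj_mem hn.1 hq)
  rw [h.equi hn.1 hq, e1, GU.smul (K0_GU (h.pel_K0 hn)), w_w'] at this
  rw [this, e2]
  conv_rhs => rw [← conj_eq_iff_mem_cent1.2 hn.2]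
  group
theorem x_mem : x ∈ 𝐂[z] ⊓ 𝐂[x] := ⟨h.xm, self_mem_cent1 x⟩
theorem z_mem : z ∈ 𝐂[z] ⊓ 𝐂[x] := ⟨h.zm, mem_cent1_comm.1 h.xm⟩
theorem ze_mem' (e : ZMod 2) : ze z e ∈ 𝐂[z] ⊓ 𝐂[x] := pow_mem h.z_mem _
theorem conj_x (v : V6) : x * σ v * x⁻¹ = σ (w • v) := by rw [h.conj_c h.x_mem, h.xp, sc1]
theorem conj_i (hn : n ∈ 𝐂[z]) (e : n * x * n⁻¹ = x⁻¹) (v : V6) : n * σ v * n⁻¹ = (σ (pel π n v))⁻¹ := by
  obtain ⟨q, hq, e1, e2⟩ := h.exists_q v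
  have := h.sg _ (h.conj_mem hn hq)
  rw [h.equi hn hq, e1, Hs_smul (h.pel_Hs n) (h.pel_not_K0 hn e), smul_smul, show w' * star w = w by decide,
    ← h.conj_x] at this
  rw [e2, show σ (pel π n v) = x⁻¹ * (x * σ (pel π n v) * x⁻¹) * x by group, this,
    show n * (q * x * q⁻¹ * x⁻¹) * n⁻¹ = n * q * n⁻¹ * (n * x * n⁻¹) * (n * q * n⁻¹)⁻¹ * (n * x * n⁻¹)⁻¹ by group, e]
  group

theorem exists_conj (hy : y ∈ 𝐂[z]) (e : pel π y = sc 1) (h3 : y ^ 3 = 1) : ∃ q ∈ Q, q * x * q⁻¹ = y := by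
  have a1 := h.mul_inv_mem hy h.xm (e.trans h.xp.symm)
  obtain ⟨f, hf⟩ := h.exists_s a1
  obtain ⟨q, hq, -, e2⟩ := h.exists_q (c (y * x⁻¹))
  have a2 := mul_mem (mul_mem (h.le_C hq) h.xm) (inv_mem (h.le_C hq))
  rw [e2, mul_assoc _ x⁻¹, ← ze_comm (inv_mem h.xm), ← mul_assoc, mul_left_inj] at hf
  rw [hf, (show Commute _ _ from (ze_comm a2 f).symm).mul_pow, conj_pow, h.x3, pow_succ, pow_two, ze_sq h.zz] at h3
  exact ⟨q, hq, by rw [hf, show ze z f = 1 by simpa using h3, mul_one]⟩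

theorem lift0 (hk : k ∈ K0) : ∃ n ∈ 𝐂[z] ⊓ 𝐂[x], pel π n = k := by
  obtain ⟨y, hy, rfl⟩ := h.lift (K0_Hs hk)
  obtain ⟨q, hq, e⟩ := h.exists_conj (mul_mem (mul_mem hy h.xm) (inv_mem hy))
    (by rw [pel_conj _ hy h.xm, h.xp, K0_sc hk]) (by rw [conj_pow, h.x3]; simp)
  refine ⟨q⁻¹ * y, ⟨mul_mem (h.le_C (inv_mem hq)) hy, conj_eq_iff_mem_cent1.1 ?_⟩, h.pel_Q (inv_mem hq) hy⟩
  rw [show q⁻¹ * y * x * (q⁻¹ * y)⁻¹ = q⁻¹ * (y * x * y⁻¹) * q by group, ← e]; group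

theorem lift1 (hk : k ∈ Hs) (hk' : k ∉ K0) : ∃ n ∈ 𝐂[z], n * x * n⁻¹ = x⁻¹ ∧ pel π n = k := by
  obtain ⟨y, hy, rfl⟩ := h.lift hk
  obtain ⟨q, hq, e⟩ := h.exists_conj (mul_mem (mul_mem hy (inv_mem h.xm)) (inv_mem hy))
    (by rw [pel_conj _ hy (inv_mem h.xm), pel_inv _ h.xm, h.xp, ← conj_inv, Hs_sc hk hk', inv_inv])
    (by rw [conj_pow, inv_pow, h.x3]; simp)
  refine ⟨q⁻¹ * y, mul_mem (h.le_C (inv_mem hq)) hy, ?_, h.pel_Q (inv_mem hq) hy⟩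
  rw [show q⁻¹ * y * x * (q⁻¹ * y)⁻¹ = q⁻¹ * (y * x⁻¹ * y⁻¹)⁻¹ * q by group, ← e]; group

theorem mem_zp (hq : q ∈ Q) (hx : q ∈ 𝐂[x]) : q ∈ zpowers z := by
  have := h.sg q hq
  rw [conj_eq_iff_mem_cent1.2 hx, mul_inv_cancel] at this
  have := (h.c_s _).symm.trans ((congrArg c this).trans h.c_one)
  exact (h.zero hq).1 ((smul_eq_zero.1 this).resolve_left (by decide))

theorem eq_of_pel (hn : n ∈ 𝐂[z]) (hn' : n' ∈ 𝐂[z]) (e : n * x * n⁻¹ = n' * x * n'⁻¹) (e' : pel π n = pel π n') :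
    ∃ f, n' = n * ze z f := by
  obtain ⟨f, hf⟩ := h.exists_ze' (h.mem_zp (h.mul_inv_mem (inv_mem hn) (inv_mem hn')
    (by rw [pel_inv _ hn, pel_inv _ hn', e'])) (conj_eq_iff_mem_cent1.1 (by
      rw [show n⁻¹ * n'⁻¹⁻¹ * x * (n⁻¹ * n'⁻¹⁻¹)⁻¹ = n⁻¹ * (n' * x * n'⁻¹) * n by group, ← e]; group)))
  exact ⟨f, by rw [← hf]; group⟩

theorem eq_of_pel0 (hn : n ∈ 𝐂[z] ⊓ 𝐂[x]) (hn' : n' ∈ 𝐂[z] ⊓ 𝐂[x]) (e' : pel π n = pel π n') :
    ∃ f, n' = n * ze z f :=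
  h.eq_of_pel hn.1 hn'.1 ((conj_eq_iff_mem_cent1.2 hn.2).trans (conj_eq_iff_mem_cent1.2 hn'.2).symm) e'

/-- decomposition of the elements over `K0` -/
theorem decomp (hy : y ∈ 𝐂[z]) (hn : n ∈ 𝐂[z]) (e : pel π y = pel π n) : ∃ v f, y = σ v * ze z f * n := by
  obtain ⟨f, hf⟩ := h.exists_s (h.mul_inv_mem hy hn e)
  exact ⟨_, f, by rw [← hf]; group⟩

end FS
end CA.F24
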