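/-
The hyperoval in the totally isotropic plane `U` and its stabiliser.
-/
import Cfsg.Agent.Lib.F24.Sec

set_option autoImplicit false
set_option linter.unusedSectionVars false
set_option linter.unusedVariables false

namespace CA.F24

open Cfsg Equiv Subgroup CA CA.Fi CA.Unit CA.Fi.F4

variable {g k : Perm V6} {u v : V6} {i j l : Fin 6}

theorem Hs_conj_tr (hg : g ∈ Hs) (hv : h6 v v = 0) : g * tr v * g⁻¹ = tr (g v) := by
  by_cases e : g ∈ K0
  · exact conj_tr (K0_GU e) v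
  · refine Equiv.ext fun u => ?_
    rw [tr_apply (by rw [Hs_h hg e, hv, star_zero]), Perm.mul_apply, Perm.mul_apply, tr_apply hv, (Hs_OV hg).1,
      Hs_smul hg e, ← Hs_h hg e]
    simp

theorem mul_K0_iff (hg : g ∈ Hs) (hk : k ∈ Hs) : g * k ∈ K0 ↔ (g ∈ K0 ↔ k ∈ K0) :=
  mul_mem_iff_of_index_two (a := (⟨g, hg⟩ : Hs)) (b := ⟨k, hk⟩) relIndex_Hs

/-- codes of the hyperoval -/
def aC : Fin 6 → ℕ := ![5, 80, 1280, 1365, 4005, 2805]
/-- the hyperoval -/
def av (i : Fin 6) : V6 := dec (aC i)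
/-- the six transvections -/
noncomputable def Ta (i : Fin 6) : Perm V6 := tr (av i)
/-- their matrices -/
def TaM : Fin 6 → ℕ := ![0x800400200100080040020010002001008004, 0x800400200100020010080040008004002001,
  0x200100800400080040020010008004002001, 0x2aa1558aa455a2a515a8a545aa2551aa8554,
  0x25f1fa85f4faf25a1ff85a4f5f2fa15f8fa4, 0x2f51af8f54af52ff1a58ff4af52af1f58af4]
/-- the plane `U` -/
def InU (v : V6) : Prop := v 0 = v 1 ∧ v 2 = v 3 ∧ v 4 = v 5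
instance (v : V6) : Decidable (InU v) := inferInstanceAs (Decidable (_ ∧ _))

theorem rt_av : ∀ i, Rt (av i) := by decide
theorem iso_av (i : Fin 6) : Iso (av i) := (rt_av i).iso
theorem inU_av : ∀ i, InU (av i) := by decide
theorem av_zero : av 0 = r0 := dec_r0
theorem inU_zero : InU 0 := by decide
theorem InU.add (h : InU u) (h' : InU v) : InU (u + v) := by
  simp only [InU, Pi.add_apply, h.1, h.2.1, h.2.2, h'.1, h'.2.1, h'.2.2, and_self]
theorem InU.smul (h : InU u) (a : F4) : InU (a • u) := by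
  simp only [InU, Pi.smul_apply, h.1, h.2.1, h.2.2, and_self]
theorem InU.eq (h : InU u) : u = u 0 • av 0 + u 2 • av 1 + u 4 • av 2 := by
  have : ∀ a b c : F4, a • av 0 + b • av 1 + c • av 2 = ![a, a, b, b, c, c] := by decide +kernel
  rw [this]; funext j
  fin_cases j <;> simp [h.1, h.2.1, h.2.2]
theorem InU.h (h : InU u) (h' : InU v) : h6 u v = 0 := by
  change ∑ j, u j * star (v j) = 0
  simp only [Fin.sum_univ_six, h.1, h.2.1, h.2.2, h'.1, h'.2.1, h'.2.2, f4_add_self, zero_add]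
theorem inU_of_perp (h0 : h6 v (av 0) = 0) (h1 : h6 v (av 1) = 0) (h2 : h6 v (av 2) = 0) : InU v := by
  have : allV (fun c => decide (h6 (dec c) (av 0) = 0 → h6 (dec c) (av 1) = 0 → h6 (dec c) (av 2) = 0 →
    InU (dec c))) = true := by decide +kernel
  obtain ⟨c, hc, rfl⟩ := exists_dec v
  exact of_decide_eq_true (allV_iff.1 this c hc) h0 h1 h2
theorem av_span (h1 : i ≠ j) (h2 : i ≠ l) (h3 : j ≠ l) (hu : InU u) :
    ∃ a b c : F4, u = a • av i + b • av j + c • av l := by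
  have : ∀ i j l : Fin 6, i ≠ j → i ≠ l → j ≠ l → ∀ m : Fin 6, m < 3 →
    ∃ a b c : F4, av m = a • av i + b • av j + c • av l := by decide +kernel
  obtain ⟨a0, b0, c0, e0⟩ := this i j l h1 h2 h3 0 (by decide)
  obtain ⟨a1, b1, c1, e1⟩ := this i j l h1 h2 h3 1 (by decide)
  obtain ⟨a2, b2, c2, e2⟩ := this i j l h1 h2 h3 2 (by decide)
  refine ⟨u 0 * a0 + u 2 * a1 + u 4 * a2, u 0 * b0 + u 2 * b1 + u 4 * b2, u 0 * c0 + u 2 * c1 + u 4 * c2,
    hu.eq.trans ?_⟩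
  rw [e0, e1, e2]; module
theorem inU_of_three (h1 : i ≠ j) (h2 : i ≠ l) (h3 : j ≠ l) (e1 : h6 v (av i) = 0) (e2 : h6 v (av j) = 0)
    (e3 : h6 v (av l) = 0) : InU v := by
  have : ∀ m, h6 v (av m) = 0 := fun m => by
    obtain ⟨a, b, c, e⟩ := av_span h1 h2 h3 (inU_av m)
    rw [e]; hsimp; rw [e1, e2, e3]; ring
  exact inU_of_perp (this _) (this _) (this _)
theorem av_li : ∀ {i j : Fin 6}, i ≠ j → ∀ {a b : F4}, a • av i + b • av j = 0 → a = 0 ∧ b = 0 := by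
  decide +kernel

theorem rep_Ta (i : Fin 6) : Rep (Ta i) (TaM i) :=
  (by revert i; decide +kernel : trM (aC i) = TaM i) ▸ rep_trM (iso_av i).1
theorem Ta_apply (i : Fin 6) (v : V6) : Ta i v = v + h6 v (av i) • av i := tr_apply (iso_av i).1 v
theorem Ta_sq (i : Fin 6) : Ta i * Ta i = 1 := tr_sq (iso_av i).1
theorem Ta_U (i : Fin 6) (h : InU u) : Ta i u = u := by rw [Ta_apply, h.h (inU_av i), zero_smul, add_zero]
theorem Ta_inj : Function.Injective Ta := fun i j e => by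
  obtain ⟨a, ha, e⟩ := (tr_eq_iff (iso_av i) (iso_av j)).1 e
  by_contra f
  exact one_ne_zero (av_li f (a := a) (b := 1) (by rw [one_smul, ← e, vadd_self])).2
theorem Ta_comm (i j : Fin 6) : Ta i * Ta j = Ta j * Ta i := by
  rw [← mul_inv_eq_iff_eq_mul, Ta, Ta, conj_tr (tr_GU _)]
  exact congrArg tr (Ta_U i (inU_av j))
theorem TT_apply (i j : Fin 6) (v : V6) : (Ta i * Ta j) v = v + (h6 v (av i) • av i + h6 v (av j) • av j) := by
  rw [Perm.mul_apply, Ta_apply, Ta_apply, h_add_left, ((inU_av j).smul _).h (inU_av i), add_zero]; abel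
theorem TT_fix (h : i ≠ j) : (Ta i * Ta j) v = v ↔ h6 v (av i) = 0 ∧ h6 v (av j) = 0 := by
  rw [TT_apply, add_eq_left]
  exact ⟨av_li h, fun e => by simp [e.1, e.2]⟩
theorem TT_K0 (i j : Fin 6) : Ta i * Ta j ∈ K0 := (rt_av i).mem0 (rt_av j)

/-- the stabiliser of the hyperoval -/
noncomputable def SU : Subgroup (Perm V6) := Hs ⊓ Nrm Ta
/-- the action on the hyperoval -/
noncomputable abbrev phU := phN Ta_inj

theorem exists_SU (s : Perm (Fin 6)) :
    ∃ g ∈ Hs, (g ∈ K0 ↔ Perm.sign s = 1) ∧ ∀ k, g * Ta k * g⁻¹ = Ta (s k) := by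
  let L : Fin 5 → List ℕ := ![[6, 0, 5, 1, 2, 0, 1, 5], [1, 5, 3, 5, 1, 2, 0, 1, 5], [3, 4, 2, 3, 1, 2, 0, 1, 5],
    [5, 1, 2, 6, 1, 5], []]
  let L' : Fin 5 → List ℕ := ![[6, 1, 0, 2, 1, 6, 0, 5], [6, 1, 0, 2, 1, 6, 3, 6, 1], [6, 1, 0, 2, 1, 3, 2, 4, 3],
    [6, 1, 5, 2, 1, 6], []]
  have chk : ∀ i : Fin 5, mm (wd gK (L i)) (wd gK (L' i)) = idM ∧
      fc (mm (mm (wd gK (L i)) (mm SM TM)) (wd gK (L' i))) (fun M =>
        decide (∀ k, mm M (TaM k) = mm (TaM (swap i.castSucc i.succ k)) M)) = true := by decide +kernel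
  have hs : s ∈ Submonoid.closure _ := (Perm.mclosure_swap_castSucc_succ 5).ge (Submonoid.mem_top s)
  induction hs using Submonoid.closure_induction with
  | mem s hs =>
    obtain ⟨i, rfl⟩ := hs
    have a1 := (chk i).2
    rw [fc_eq, decide_eq_true_eq] at a1
    have a2 := f0_conj_mul (rk_wd rk_gK (L i)).mat_mem
    refine ⟨_, Or.inr a2, iff_of_false (fun e => f0_not_GU (K0_GU ((mul_mem_cancel_right e).1 a2))) ?_, fun k =>
      (rep_conj_f0 (chk i).1 rfl).conj (rep_Ta _) (rep_Ta _) (a1 k)⟩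
    rw [Perm.sign_swap i.castSucc_lt_succ.ne]; decide
  | one => exact ⟨1, one_mem _, by simp [one_mem], by simp⟩
  | mul s t _ _ hs ht =>
    obtain ⟨a, a1, a2, a3⟩ := hs
    obtain ⟨b, b1, b2, b3⟩ := ht
    refine ⟨a * b, mul_mem a1 b1, ?_, fun k => by rw [Perm.mul_apply, ← a3, ← b3]; group⟩
    rw [mul_K0_iff a1 b1, a2, b2, Perm.sign_mul]
    rcases Int.units_eq_one_or (Perm.sign s) with e | e <;> rcases Int.units_eq_one_or (Perm.sign t) with f | f <;>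
      simp [e, f]

theorem smul_of_conj (hg : g ∈ Hs) (e : g * Ta i * g⁻¹ = Ta j) : ∃ a : F4, a ≠ 0 ∧ g (av i) = a • av j := by
  rw [Ta, Hs_conj_tr hg (iso_av i).1] at e
  exact (tr_eq_iff (iso_av j) ((OV.iso (Hs_OV hg)).2 (iso_av i))).1 e.symm
theorem SU_av (hg : g ∈ SU) (i : Fin 6) : ∃ a : F4, a ≠ 0 ∧ g (av i) = a • av (pel phU g i) :=
  smul_of_conj hg.1 (phN_spec _ hg.2 i)
theorem Hs_smul' (hg : g ∈ Hs) (a : F4) (v : V6) : ∃ b : F4, g (a • v) = b • g v :=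
  (em (g ∈ K0)).elim (fun e => ⟨_, GU.smul (K0_GU e) a v⟩) fun e => ⟨_, Hs_smul hg e a v⟩
theorem SU_U (hg : g ∈ SU) (hu : InU u) : InU (g u) := by
  have : ∀ a i, InU (g (a • av i)) := fun a i => by
    obtain ⟨b, e⟩ := Hs_smul' hg.1 a (av i)
    obtain ⟨c, -, f⟩ := SU_av hg i
    rw [e, f]; exact ((inU_av _).smul _).smul _
  rw [hu.eq, (Hs_OV hg.1).1, (Hs_OV hg.1).1]
  exact ((this _ _).add (this _ _)).add (this _ _)

theorem K0_of_ker (hg : g ∈ Hs) (e : ∀ i, g * Ta i * g⁻¹ = Ta i) : g ∈ K0 := by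
  by_contra f
  choose a h1 h2 using fun i => smul_of_conj hg (e i)
  have e3 : av 3 = av 0 + av 1 + av 2 := by decide
  have e4 : av 4 = av 0 + w • av 1 + w' • av 2 := by decide
  have a3 := congrArg g e3
  have a4 := congrArg g e4
  simp only [(Hs_OV hg).1 _ _, Hs_smul hg f, h2] at a3 a4
  have := h1 0
  revert this a3 a4
  generalize a 0 = a0, a 1 = a1, a 2 = a2, a 3 = a3, a 4 = a4
  revert a0 a1 a2 a3 a4
  decide +kernel

theorem sign_phU (hg : g ∈ SU) : g ∈ K0 ↔ Perm.sign (pel phU g) = 1 := by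
  obtain ⟨k, k1, k2, k3⟩ := exists_SU (pel phU g)
  rw [← k2]
  have := (mul_K0_iff (inv_mem k1) hg.1).1 (K0_of_ker (mul_mem (inv_mem k1) hg.1) fun i => by
    rw [show k⁻¹ * g * Ta i * (k⁻¹ * g)⁻¹ = k⁻¹ * (g * Ta i * g⁻¹) * k by group, phN_spec Ta_inj hg.2, ← k3]; group)
  rw [← this, inv_mem_iff]

theorem phU_SU : pmap phU SU = ⊤ := eq_top_iff.2 fun s _ => by
  obtain ⟨k, k1, -, k3⟩ := exists_SU s
  exact phN_eq Ta_inj k3 ▸ pel_mem_pmap phU (X := SU) ⟨k1, s, k3⟩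
theorem phU_K0 : pmap phU (K0 ⊓ SU) = alternatingGroup (Fin 6) := by
  ext s
  rw [mem_pmap_of_le (X := K0 ⊓ SU) fun g hg => hg.2.2, Perm.mem_alternatingGroup]
  refine ⟨?_, fun e => ?_⟩
  · rintro ⟨g, hg, rfl⟩
    exact (sign_phU hg.2).1 hg.1
  · obtain ⟨k, k1, k2, k3⟩ := exists_SU s
    exact ⟨k, ⟨k2.2 e, k1, s, k3⟩, phN_eq Ta_inj k3⟩

/-- the pointwise stabiliser of `U` -/
def AU : Subgroup (Perm V6) where
  carrier := {g | g ∈ Hs ∧ ∀ u, InU u → g u = u}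
  one_mem' := ⟨one_mem _, fun _ _ => rfl⟩
  mul_mem' {a b} ha hb := ⟨mul_mem ha.1 hb.1, fun u hu => by rw [Perm.mul_apply, hb.2 u hu, ha.2 u hu]⟩
  inv_mem' {a} ha := ⟨inv_mem ha.1, fun u hu => by rw [Perm.inv_eq_iff_eq, ha.2 u hu]⟩

theorem AU_conj (hg : g ∈ AU) (i : Fin 6) : g * Ta i * g⁻¹ = Ta i := by
  rw [Ta, Hs_conj_tr hg.1 (iso_av i).1, hg.2 _ (inU_av i)]
theorem AU_K0 (hg : g ∈ AU) : g ∈ K0 := K0_of_ker hg.1 (AU_conj hg)
theorem AU_ker (hg : g ∈ AU) : g ∈ pker phU := (mem_pker_phN _).2 (AU_conj hg)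
theorem AU_SU : AU ≤ SU := fun _ hg => ⟨hg.1, 1, AU_conj hg⟩
theorem TT_AU (i j : Fin 6) : Ta i * Ta j ∈ AU :=
  ⟨K0_Hs (TT_K0 i j), fun u hu => by rw [Perm.mul_apply, Ta_U _ hu, Ta_U _ hu]⟩
theorem norms_of_conj {G : Type*} [Group G] {X A : Subgroup G} (h : ∀ g ∈ X, ∀ a ∈ A, g * a * g⁻¹ ∈ A) :
    X ≤ 𝐍(A) := closure_eq A ▸ norms_closure h
theorem SU_norm : SU ≤ 𝐍(AU) := norms_of_conj fun g hg a ha => ⟨mul_mem (mul_mem hg.1 ha.1) (inv_mem hg.1),
  fun u hu => by rw [Perm.mul_apply, Perm.mul_apply, ha.2 _ (SU_U (inv_mem hg) hu)]; simp⟩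
theorem AU_add (hg : g ∈ AU) (v : V6) : InU (g v + v) := by
  have : ∀ i, h6 (g v + v) (av i) = 0 := fun i => by
    rw [h_add_left, ← GU.h (K0_GU (AU_K0 hg)) v, hg.2 _ (inU_av i), f4_add_self]
  exact inU_of_perp (this _) (this _) (this _)
theorem AU_sq (hg : g ∈ AU) : g * g = 1 := Equiv.ext fun v => by
  have := hg.2 _ (AU_add hg v)
  rw [(Hs_OV hg.1).1, add_comm (g v) v] at this
  exact add_right_cancel this
theorem AU_of_invol (hg : g ∈ SU) (e : pel phU g = 1) (h2 : g * g = 1) : g ∈ AU := by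
  have a1 := K0_GU ((sign_phU hg).2 (by simp [e]))
  have : ∀ i, g (av i) = av i := fun i => by
    obtain ⟨a, ha, f⟩ := SU_av hg i
    rw [e, Perm.one_apply] at f
    have := congrArg (· (av i)) h2
    simp only [Perm.mul_apply, f, GU.smul a1, smul_smul, Perm.one_apply] at this
    have : a * a = 1 := smul_left_injective F4 (iso_av i).2 (this.trans (one_smul _ _).symm)
    rw [f, (by decide : ∀ a : F4, a * a = 1 → a = 1) a this, one_smul]
  refine ⟨hg.1, fun u hu => ?_⟩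
  rw [hu.eq]
  simp only [GU.add a1 _ _, GU.smul a1, this]

/-- generators of `AU` -/
noncomputable def gA : List ℕ := [mm (TaM 0) (TaM 1), mm (TaM 0) (TaM 2), mm (TaM 0) (TaM 3), mm (TaM 0) (TaM 4)]
theorem rep_TT (i j : Fin 6) : Rep (Ta i * Ta j) (mm (TaM i) (TaM j)) := (rep_Ta i).mul (rep_Ta j)
theorem rk_gA : ∀ M ∈ gA, RK AU M := by
  have := fun i => (rep_TT 0 i).rk (TT_AU 0 i)
  simp only [gA, List.forall_mem_cons, List.not_mem_nil, false_imp_iff, implies_true, and_true]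
  exact ⟨this 1, this 2, this 3, this 4⟩
theorem chk_A : bpChk gA 16 274 0x4b74ed1bd1e7e17e4db1db47ee2eb8be8bb2442418148112 = true := by decide +kernel

theorem pg_of_sq {G : Type*} [Group G] {K : Subgroup G} (h : ∀ g ∈ K, g * g = 1) : IsPGroup 2 K :=
  fun g => ⟨1, Subtype.ext (by simpa [pow_two] using h g g.2)⟩

theorem card_AU : Nat.card AU = 16 := by
  have a1 := card_pmap_mul phU (X := K0 ⊓ SU) fun g hg => hg.2.2
  have a2 := card_dvd_of_le' (B := pker phU ⊓ (K0 ⊓ SU)) fun g hg => ⟨AU_ker hg, AU_K0 hg, AU_SU hg⟩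
  have a3 := card_dvd_of_le' (inf_le_left : K0 ⊓ SU ≤ K0)
  have a4 := (bp_card rk_gA chk_A).1
  obtain ⟨n, hn⟩ := IsPGroup.iff_card.1 (pg_of_sq fun g => AU_sq)
  rw [phU_K0, card_A6] at a1
  have a5 := (Nat.mul_dvd_mul_right a2 360).trans (a1 ▸ a3)
  rw [hn, card_K0] at a5
  rw [hn] at a4
  rw [hn]
  have : n ≤ 4 := by
    by_contra f
    exact absurd ((Nat.mul_dvd_mul_right (pow_dvd_pow 2 (show 5 ≤ n by omega)) 360).trans a5) (by norm_num)
  exact le_antisymm (Nat.pow_le_pow_right (by norm_num) this) a4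

theorem AU_cases (hg : g ∈ AU) : g = 1 ∨ ∃ i j, i < j ∧ g = Ta i * Ta j := by
  obtain ⟨n, hn, r⟩ := (bp_card rk_gA chk_A).2 card_AU.le g hg
  have : allN (fun n => fc (bp gA n) fun M => decide (M = idM ∨ ∃ i j, i < j ∧ M = mm (TaM i) (TaM j))) 16 = true := by
    decide +kernel
  have := allN_iff.1 this n hn
  rw [fc_eq] at this
  generalize bp gA n = M at r this
  rcases of_decide_eq_true this with rfl | ⟨i, j, h, rfl⟩
  · exact Or.inl (r.eq rep_one)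
  · exact Or.inr ⟨i, j, h, r.eq (rep_TT i j)⟩

theorem sc_SU (a : ZMod 3) : ∀ i, sc a * Ta i * (sc a)⁻¹ = Ta i := fun i => by
  rw [← sc_comm (g := Ta i) (tr_GU _), mul_inv_cancel_right]

theorem card_SU : 34560 ≤ Nat.card SU ∧ 2 ^ 8 ∣ Nat.card SU := by
  have a1 := card_pmap_mul phU (X := SU) inf_le_right
  have a2 := card_dvd_of_le' (B := pker phU ⊓ SU) fun g hg => ⟨AU_ker hg, AU_SU hg⟩
  have a3 := orderOf_dvd_natCard (⟨sc 1, (mem_pker_phN _).2 (sc_SU 1), K0_Hs (sc_K0 1), 1, sc_SU 1⟩ : ↥(pker phU ⊓ SU))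
  rw [← orderOf_coe, orderOf_eq_prime sc1_pow fun e => absurd (sc_inj (e.trans sc_zero.symm)) (by decide)] at a3
  rw [phU_SU, card_top, Nat.card_perm, Nat.card_fin, show Nat.factorial 6 = 720 from rfl] at a1
  rw [card_AU] at a2
  obtain ⟨m, hm⟩ := Nat.Coprime.mul_dvd_of_dvd_of_dvd (by norm_num) a2 a3
  have := Nat.card_pos (α := ↥(pker phU ⊓ SU))
  rw [← a1, hm]
  exact ⟨by omega, 135 * m, by ring⟩

theorem TT_conj (hg : g ∈ SU) (i j : Fin 6) :
    g * (Ta i * Ta j) * g⁻¹ = Ta (pel phU g i) * Ta (pel phU g j) := by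
  rw [← phN_spec Ta_inj hg.2, ← phN_spec Ta_inj hg.2]; group

theorem TT_eq_iff : ∀ {i j k l : Fin 6}, i < j → Ta i * Ta j = Ta k * Ta l → (k = i ∧ l = j) ∨ (k = j ∧ l = i) := by
  intro i j k l h e
  have := congrArg (· (dec 274)) e
  simp only [(rep_TT _ _).app] at this
  exact (by decide +kernel : ∀ i j k l : Fin 6, i < j → app (mm (TaM i) (TaM j)) 274 = app (mm (TaM k) (TaM l)) 274 →
    (k = i ∧ l = j) ∨ (k = j ∧ l = i)) i j k l h (dec_inj (app_lt _ _) (app_lt _ _) this)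

end CA.F24
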