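/-
Groups of large Fischer type: the elementary abelian subgroup of order `2^11`.
-/
import Cfsg.Agent.Lib.F24.Hyp
import Cfsg.Agent.Lib.Extra2.Sing
import Cfsg.Agent.Lib.XS.Todd

set_option autoImplicit false
set_option linter.unusedSectionVars false
set_option linter.unusedVariables false

namespace CA.F24

open Cfsg Equiv Subgroup CA CA.Fi CA.Unit CA.Fi.F4 CA.Ex2

theorem ncard_dec {S : Set V6} {p : ℕ → Bool} (h : ∀ c < 4096, dec c ∈ S ↔ p c = true) :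
    S.ncard = Gol.countLt p 4096 := by
  rw [Gol.countLt_eq, ← Set.ncard_coe_finset]
  refine (Set.ncard_congr (fun c _ => dec c) (fun c hc => ?_) (fun a b ha hb e => ?_) fun v hv => ?_).symm
  · simp only [Finset.coe_filter, Finset.mem_range, Set.mem_ofPred_eq] at hc
    exact (h c hc.1).2 hc.2
  · simp only [Finset.coe_filter, Finset.mem_range, Set.mem_ofPred_eq] at ha hb
    exact dec_inj ha.1 hb.1 e
  · obtain ⟨c, hc, rfl⟩ := exists_dec v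
    exact ⟨c, by simpa using ⟨hc, (h c hc).1 hv⟩, rfl⟩

theorem ncard_fix {k : Perm V6} (hk : k ∈ AU) (h1 : k ≠ 1) : {v | k v = v}.ncard = 256 := by
  obtain ⟨i, j, h, rfl⟩ := (AU_cases hk).resolve_left h1
  rw [ncard_dec (p := fc (mm (TaM i) (TaM j)) fun M c => Nat.beq (app M c) c) fun c hc => by
    rw [fc_eq, beq_iff, Set.mem_ofPred_eq, (rep_TT i j).app]
    exact ⟨dec_inj (app_lt _ _) hc, congrArg dec⟩]
  clear hk h1
  revert i j; decide +kernel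

theorem card_le_four {N : Subgroup (Perm (Fin 6))} (h : N ≤ alternatingGroup (Fin 6)) (h2 : ∀ s ∈ N, s * s = 1) :
    Nat.card N ≤ 4 := by
  obtain ⟨n, hn⟩ := IsPGroup.iff_card.1 (pg_of_sq h2)
  have a1 := card_mul_relIndex h
  rw [card_A6, hn] at a1
  by_contra f
  have a2 : n = 3 := by
    have : n ≤ 3 := by
      by_contra f
      exact absurd ((pow_dvd_pow 2 (show 4 ≤ n by omega)).trans (Dvd.intro _ a1)) (by norm_num)
    rw [hn] at f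
    interval_cases n <;> simp at f ⊢
  subst a2
  let g : Perm (Fin 6) := swap 0 1 * swap 1 2 * swap 2 3 * swap 4 5
  obtain ⟨k, -, e⟩ := (sylowIn_mk Nat.prime_two h (pg_of_sq h2) (by omega)).exists_cj_le (Q := zpowers g)
    ((IsPGroup.of_card (n := 2) (by
      rw [Nat.card_zpowers]
      exact orderOf_eq_prime_pow (by decide) (by decide))).piGrp Nat.prime_two)
    (zpowers_le.2 (by rw [Perm.mem_alternatingGroup]; decide))
  have := h2 _ (e (conj_mem_cj.2 (mem_zpowers g)))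
  rw [conj_mul, conj_eq_one_iff] at this
  exact absurd this (by decide)

theorem fix_duads : ∀ s : Perm (Fin 6), s * s = 1 → Perm.sign s = 1 → s ≠ 1 →
    (Finset.univ.filter fun p : Fin 6 × Fin 6 =>
      p.1 < p.2 ∧ ((s p.1 = p.1 ∧ s p.2 = p.2) ∨ (s p.1 = p.2 ∧ s p.2 = p.1))).card ≤ 3 := by decide +kernel

theorem exists_perm45 : ∀ i j : Fin 6, i ≠ j → ∃ s : Perm (Fin 6), s 4 = i ∧ s 5 = j := fun i j h =>
  ⟨swap 4 i * swap 5 (swap 4 i j), by revert i j; decide⟩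

theorem elem_SU {B : Subgroup (Perm V6)} (hB : B ≤ K0 ⊓ SU) (h2 : ∀ g ∈ B, g * g = 1) :
    Nat.card B ≤ 4 * Nat.card ↥(B ⊓ AU) ∧ Nat.card B ≤ 16 := by
  have a1 := card_pmap_mul phU (X := B) fun g hg => (hB hg).2.2
  have a2 := card_le_four (phU_K0 ▸ pmap_mono phU hB) fun s hs => by
    obtain ⟨g, hg, rfl⟩ := (mem_pmap_of_le fun g hg => (hB hg).2.2).1 hs
    rw [← pel_mul _ (hB hg).2.2 (hB hg).2.2, h2 g hg, pel_one]
  have a3 := card_le_of_le' (A := pker phU ⊓ B) (B := B ⊓ AU) fun g hg =>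
    ⟨hg.2, AU_of_invol (hB hg.2).2 (mem_pker.1 hg.1).2 (h2 g hg.2)⟩
  have a4 : Nat.card B ≤ 4 * Nat.card ↥(B ⊓ AU) := by rw [← a1, mul_comm]; exact Nat.mul_le_mul a2 a3
  refine ⟨a4, ?_⟩
  by_cases e : B ≤ AU
  · exact card_AU ▸ card_le_of_le' e
  obtain ⟨k, hk, hk'⟩ := SetLike.not_le_iff_exists.1 e
  have b1 := fix_duads (pel phU k) (by rw [← pel_mul _ (hB hk).2.2 (hB hk).2.2, h2 k hk, pel_one])
    ((sign_phU (hB hk).2).1 (hB hk).1) fun f => hk' (AU_of_invol (hB hk).2 f (h2 k hk))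
  classical
  have b2 := Set.ncard_le_ncard (s := ((B ⊓ AU : Subgroup _) : Set (Perm V6)))
    (t := ↑(insert 1 (Finset.image (fun p : Fin 6 × Fin 6 => Ta p.1 * Ta p.2) (Finset.univ.filter fun p =>
      p.1 < p.2 ∧ ((pel phU k p.1 = p.1 ∧ pel phU k p.2 = p.2) ∨ (pel phU k p.1 = p.2 ∧ pel phU k p.2 = p.1))))))
    fun g hg => by
      rcases AU_cases hg.2 with rfl | ⟨i, j, h, rfl⟩
      · simp
      · refine Finset.mem_coe.2 (Finset.mem_insert_of_mem (Finset.mem_image.2 ⟨(i, j), Finset.mem_filter.2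
          ⟨Finset.mem_univ _, h, TT_eq_iff h ?_⟩, rfl⟩))
        rw [← TT_conj (hB hk).2, abelian_iff'.1 (abelian_of_sq h2) k hk _ hg.1, mul_inv_cancel_right]
  rw [Set.ncard_coe_finset] at b2
  have b3 := b2.trans ((Finset.card_insert_le _ _).trans (Nat.succ_le_succ (Finset.card_image_le.trans b1)))
  change Nat.card ↥(B ⊓ AU) ≤ _ at b3
  omega

theorem inU_of_fix {B : Subgroup (Perm V6)} (hB : B ≤ AU) (h : 2 < Nat.card B) {v : V6} (hv : ∀ g ∈ B, g v = v) :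
    InU v := by
  obtain ⟨a, ha, a1⟩ := (bot_or_exists_ne_one B).resolve_left (one_lt_card_iff_ne_bot'.1 (by omega))
  obtain ⟨b, hb, b1⟩ := SetLike.not_le_iff_exists.1 (show ¬ B ≤ zpowers a from fun f => by
    have := card_le_of_le' f
    rw [card_zp2 (orderOf_eq_prime (by rw [pow_two, AU_sq (hB ha)]) a1)] at this
    omega)
  obtain ⟨i, j, h1, rfl⟩ := (AU_cases (hB ha)).resolve_left a1
  obtain ⟨k, l, h2, rfl⟩ := (AU_cases (hB hb)).resolve_left fun e => b1 (e ▸ one_mem _)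
  have c1 := (TT_fix h1.ne).1 (hv _ ha)
  have c2 := (TT_fix h2.ne).1 (hv _ hb)
  by_cases e : i ≠ k ∧ j ≠ k
  · exact inU_of_three h1.ne e.1 e.2 c1.1 c1.2 c2.1
  by_cases e' : i ≠ l ∧ j ≠ l
  · exact inU_of_three h1.ne e'.1 e'.2 c1.1 c1.2 c2.2
  obtain ⟨rfl, rfl⟩ : i = k ∧ j = l := by omega
  exact absurd (mem_zpowers _) b1

variable {G : Type*} [Group G]

/-- the elementary abelian subgroup of order `2^11` -/
def AA (Q : Subgroup G) (c : G → V6) : Subgroup G := centralizer {q | q ∈ Q ∧ InU (c q)}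

theorem mem_AA {Q : Subgroup G} {c : G → V6} {y : G} : y ∈ AA Q c ↔ ∀ q ∈ Q, InU (c q) → q * y = y * q :=
  ⟨fun h q h1 h2 => h q ⟨h1, h2⟩, fun h q hq => h q hq.1 hq.2⟩

theorem cj_mem {H : Subgroup G} {a b : G} (ha : a ∈ H) (hb : b ∈ H) : a * b * a⁻¹ ∈ H :=
  mul_mem (mul_mem ha hb) (inv_mem ha)

/-- normalising `⟨x⟩` -/
def NX (x n : G) : Prop := n * x * n⁻¹ = x ∨ n * x * n⁻¹ = x⁻¹

theorem NX.conj {x n y : G} (h : NX x n) (hy : y ∈ 𝐂[x]) : n * y * n⁻¹ ∈ 𝐂[x] := by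
  have := (cj_centralizer_singleton n x).le (conj_mem_cj.2 hy)
  rcases h with e | e <;> rw [e] at this
  · exact this
  · exact mem_cent1_comm.1 (inv_mem_iff.1 (mem_cent1_comm.1 this))

variable [Finite G] {Q B : Subgroup G} {z x : G} {π : ↥𝐂[z] →* Perm V6} {c : G → V6} {σ : V6 → G}
variable {a b q q' n n' y g : G} {k : Perm V6} {u v : V6} {i j : Fin 6}

namespace FT
variable (h : FT Q z π c)
include h

theorem AA_le : AA Q c ≤ 𝐂[z] := fun y hy =>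
  mem_cent1_iff.2 (mem_AA.1 hy z h.ez.mem (h.c_z ▸ inU_zero)).symm
theorem pel_AU (hy : y ∈ AA Q c) : pel π y ∈ AU := ⟨h.pel_Hs y, fun u hu => by
  obtain ⟨q, hq, rfl⟩ := h.sur u
  rw [← h.equi (h.AA_le hy) hq, ← mem_AA.1 hy q hq hu, mul_inv_cancel_right]⟩
theorem mem_AA_Q (hq : q ∈ Q) : q ∈ AA Q c ↔ InU (c q) := by
  refine ⟨fun H => ?_, fun H => mem_AA.2 fun p hp e => (h.comm hp hq).2 (bv_eq_zero.2 (by rw [e.h H, t2_zero]))⟩
  have : ∀ i, h6 (c q) (av i) = 0 := fun i => by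
    have : ∀ a : F4, t2 (h6 (c q) (a • av i)) = 0 := fun a => by
      obtain ⟨p, hp, e⟩ := h.sur (a • av i)
      rw [← bv_eq_zero, ← e, ← h.comm hq hp, mem_AA.1 H p hp (e ▸ (inU_av i).smul a)]
    simp only [h_smul_right] at this
    exact (by decide : ∀ b : F4, (∀ a, t2 (star a * b) = 0) → b = 0) _ this
  exact inU_of_perp (this _) (this _) (this _)
theorem z_AA : z ∈ AA Q c := (h.mem_AA_Q h.ez.mem).2 (h.c_z ▸ inU_zero)
theorem cent_QA : 𝐂(Q ⊓ AA Q c) = AA Q c :=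
  congrArg centralizer (Set.ext fun q => and_congr_right fun hq => h.mem_AA_Q hq)
theorem cent_AA : 𝐂(AA Q c) ≤ AA Q c := (centralizer_le inf_le_right).trans h.cent_QA.le
theorem card_QA : Nat.card ↥(Q ⊓ AA Q c) = 2 ^ 7 := by
  have := h.ez.card_mul_card_cent (U := Q ⊓ AA Q c) ⟨h.ez.mem, h.z_AA⟩ inf_le_left
  rw [h.cent_QA, h.card] at this
  exact Nat.mul_self_inj.1 this
theorem NA_norm : pcomap π SU ≤ 𝐍(AA Q c) := norms_of_conj fun n hn y hy => mem_AA.2 fun q hq e => by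
  obtain ⟨h1, h2⟩ := mem_pcomap.1 (inv_mem hn)
  have := mem_AA.1 hy _ (h.conj_mem h1 hq) (h.equi h1 hq ▸ SU_U h2 e)
  calc q * (n * y * n⁻¹) = n * (n⁻¹ * q * n⁻¹⁻¹ * y) * n⁻¹ := by group
    _ = _ := by rw [this]; group
theorem AA_NA : AA Q c ≤ pcomap π SU := fun y hy => mem_pcomap.2 ⟨h.AA_le hy, AU_SU (h.pel_AU hy)⟩
theorem Q_NA : Q ≤ pcomap π SU := h.ker ▸ pker_le_pcomap _ _
theorem card_NA : Nat.card (pcomap π SU) = 2 ^ 13 * Nat.card SU := by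
  rw [card_pcomap (h.range_eq ▸ inf_le_left), h.ker, h.card]
theorem card_C : Nat.card ↥𝐂[z] = 2 ^ 13 * 19595520 := by
  rw [← card_pmap_mul π le_rfl, h.ker, inf_eq_left.2 h.le_C, h.card, pmap_dom, h.card_range]
theorem card_le_ab (hB : B ≤ Q) (ha : IsMulCommutative B) : Nat.card B ≤ 2 ^ 7 :=
  (card_le_of_le' le_sup_left).trans (card_le_of_ab h.ez (mem_sup_right (mem_zpowers z)) (sup_le hB h.ez.zp_le)
    (abelian_sup ha (abelian_zpowers z) (cents_symm (zpowers_le.2 (centralizer_le hB h.ez.memC)))) h.card)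

theorem exists_sylow : ∃ T, SylowIn 2 T ⊤ ∧ T ≤ pcomap π SU ∧ Q ≤ T := by
  obtain ⟨T, h1, h2⟩ := exists_sylowIn_ge' Nat.prime_two h.ez.pg h.Q_NA
  refine ⟨T, (h1.of_not_dvd_relIndex (pcomap_le_dom _ _) Nat.prime_two fun e => ?_).of_norm_le_top
    (h.lq.norm_le_of_ge (h1.isPGroup Nat.prime_two) h2), h1.le, h2⟩
  have := card_mul_relIndex (pcomap_le_dom π SU)
  rw [h.card_NA, h.card_C, mul_assoc, Nat.mul_right_inj (by norm_num)] at this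
  exact absurd (this ▸ Nat.mul_dvd_mul card_SU.2 e) (by norm_num)

end FT

namespace FS
variable (h : FS Q z π c x σ)
include h

theorem liftN (hk : k ∈ Hs) : ∃ n ∈ 𝐂[z], NX x n ∧ pel π n = k := by
  by_cases e : k ∈ K0
  · obtain ⟨n, h1, h2⟩ := h.lift0 e
    exact ⟨n, h1.1, Or.inl (conj_eq_iff_mem_cent1.2 h1.2), h2⟩
  · obtain ⟨n, h1, h2, h3⟩ := h.lift1 hk e
    exact ⟨n, h1, Or.inr h2, h3⟩
omit h in
theorem conj_C0 (hn : n ∈ 𝐂[z]) (e : NX x n) (hy : y ∈ 𝐂[z] ⊓ 𝐂[x]) : n * y * n⁻¹ ∈ 𝐂[z] ⊓ 𝐂[x] :=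
  ⟨cj_mem hn hy.1, e.conj hy.2⟩
theorem conj_N (hn : n ∈ 𝐂[z]) (e : NX x n) (hv : h6 v v = 0) : n * σ v * n⁻¹ = σ (pel π n v) :=
  e.elim (fun e => h.conj_c ⟨hn, conj_eq_iff_mem_cent1.1 e⟩ v) fun e => by
    rw [h.conj_i hn e, h.s_inv0 (((h.pel_OV n).2 v).trans hv)]
theorem s_AA (hu : InU u) : σ u ∈ AA Q c := (h.mem_AA_Q (h.mem u)).2 (by rwa [h.c_s])
theorem ze_AA (e : ZMod 2) : ze z e ∈ AA Q c := pow_mem h.z_AA _
theorem lift_AA (hn : n ∈ 𝐂[z] ⊓ 𝐂[x]) (hk : pel π n ∈ AU) : n ∈ AA Q c := mem_AA.2 fun q hq e => by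
  obtain ⟨f, hf⟩ := h.exists_s hq
  have := h.conj_c hn (c q)
  rw [hk.2 _ e, mul_inv_eq_iff_eq_mul] at this
  rw [hf, mul_assoc, ze_comm hn.1, ← mul_assoc, ← this, mul_assoc]
theorem decomp_AA (hy : y ∈ AA Q c) (hn : n ∈ AA Q c) (e : pel π y = pel π n) :
    ∃ u f, InU u ∧ y = σ u * ze z f * n := by
  obtain ⟨u, f, rfl⟩ := h.decomp (h.AA_le hy) (h.AA_le hn) e
  have := (h.mem_AA_Q (h.mem u)).1 ((mul_mem_cancel_right (h.ze_AA f)).1 ((mul_mem_cancel_right hn).1 hy))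
  exact ⟨u, f, h.c_s u ▸ this, rfl⟩

theorem exists_45 : ∃ n ∈ 𝐂[z] ⊓ 𝐂[x], pel π n = Ta 4 * Ta 5 ∧ n * n = 1 := by
  have r : ∀ c ∈ [5, 80, 3003, 3774], Rt (dec c) := by decide
  have r1 := r 5 (by simp)
  have r2 := r 80 (by simp)
  have r3 := r 3003 (by simp)
  have r4 := r 3774 (by simp)
  have rm := ((rep_trM r1.iso.1).mul (rep_trM r2.iso.1)).mul ((rep_trM r3.iso.1).mul (rep_trM r4.iso.1))
  rw [show mm (mm (trM 5) (trM 80)) (mm (trM 3003) (trM 3774)) = 0xa785e4a725e1525f1ff8fa4a27a1e587a4e5 by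
    decide +kernel] at rm
  obtain ⟨m, hm, em⟩ := h.lift0 (mul_mem (r1.mem0 r2) (r3.mem0 r4))
  rw [← em] at rm
  obtain ⟨k, hk, ek⟩ := h.lift0 (rk_wd rk_gK (FW 4)).mat_mem
  obtain ⟨n, hn, e1, e2⟩ := h.lift1 f0_Hs fun e => f0_not_GU (K0_GU e)
  have inv : ∀ {k}, k ∈ 𝐂[z] ⊓ 𝐂[x] → k * n * k⁻¹ * x * (k * n * k⁻¹)⁻¹ = x⁻¹ := fun {k} hk => by
    calc _ = k * (n * (k⁻¹ * x * k⁻¹⁻¹) * n⁻¹) * k⁻¹ := by group
      _ = _ := by rw [conj_eq_iff_mem_cent1.2 (inv_mem hk.2), e1, ← conj_inv, conj_eq_iff_mem_cent1.2 hk.2]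
  have mem : ∀ {k}, k ∈ 𝐂[z] → k * x * k⁻¹ = x⁻¹ → n * k ∈ 𝐂[z] ⊓ 𝐂[x] := fun {k} hk e =>
    ⟨mul_mem hn hk, conj_eq_iff_mem_cent1.1 (by
      rw [show n * k * x * (n * k)⁻¹ = n * (k * x * k⁻¹) * n⁻¹ by group, e, ← conj_inv, e1, inv_inv])⟩
  have c4 : k * n * k⁻¹ ∈ 𝐂[z] := cj_mem hk.1 hn
  have p4 : pel π (n * (k * n * k⁻¹)) = Fs 0 * Fs 4 := by rw [pel_mul _ hn c4, pel_conj _ hk.1 hn, e2, ek, Fs_zero]; rfl
  obtain ⟨a, ha⟩ := h.eq_of_pel hn (cj_mem hm.1 hn) (e1.trans (inv hm).symm) (by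
    rw [pel_conj _ hm.1 hn, e2, ← Fs_zero, rm.conj (rep_Fs 0) (rep_Fs 0) (by decide +kernel)])
  obtain ⟨b, hb⟩ := h.eq_of_pel0 (mul_mem hm hm) (mem c4 (inv hk)) (by
    rw [p4, pel_mul _ hm.1 hm.1]
    have := rm.mul rm
    rw [show mm _ _ = mm (FM 0) (FM 4) by decide +kernel] at this
    exact this.eq ((rep_Fs 0).mul (rep_Fs 4)))
  obtain ⟨d, hd⟩ := h.eq_of_pel0 (one_mem _) (mem hn e1) (by rw [pel_mul _ hn hn, e2, f0_sq, pel_one])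
  refine ⟨_, mem c4 (inv hk), p4.trans (((by decide +kernel : mm (FM 0) (FM 4) = mm (TaM 4) (TaM 5)) ▸
    (rep_Fs 0).mul (rep_Fs 4)).eq (rep_TT 4 5)), ?_⟩
  have c1 : m * m * n = n * (m * m) := by
    rw [← mul_inv_eq_iff_eq_mul, show m * m * n * (m * m)⁻¹ = m * (m * n * m⁻¹) * m⁻¹ by group, ha, ← conj_mul, ha,
      conj_ze hm.1, mul_assoc, ze_sq h.zz, mul_one]
  have c2 : k * n * k⁻¹ * n = n * (k * n * k⁻¹) := mul_left_cancel (a := n) (by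
    rw [← mul_assoc, hb, mul_assoc, ze_comm hn, ← mul_assoc, c1, mul_assoc])
  calc _ = n * (k * n * k⁻¹ * n) * (k * n * k⁻¹) := by group
    _ = n * n * (k * (n * n) * k⁻¹) := by rw [c2]; group
    _ = 1 := by rw [hd, one_mul, conj_ze hk.1, ze_sq h.zz]

theorem lift_sq (hn : n ∈ 𝐂[z] ⊓ 𝐂[x]) (hk : pel π n ∈ AU) : n * n = 1 := by
  suffices ∃ m ∈ 𝐂[z] ⊓ 𝐂[x], pel π m = pel π n ∧ m * m = 1 by
    obtain ⟨m, h1, h2, h3⟩ := this
    obtain ⟨f, rfl⟩ := h.eq_of_pel0 h1 hn h2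
    rw [mul_assoc, ← mul_assoc (ze z f), ze_comm h1.1, mul_assoc, ze_sq h.zz, mul_one, h3]
  rcases AU_cases hk with e | ⟨i, j, hij, e⟩
  · exact ⟨1, one_mem _, by rw [e, pel_one], one_mul _⟩
  obtain ⟨m, h1, h2, h3⟩ := h.exists_45
  obtain ⟨s, s1, s2⟩ := exists_perm45 i j hij.ne
  obtain ⟨g, g1, -, g2⟩ := exists_SU s
  obtain ⟨y, y1, y2, rfl⟩ := h.liftN g1
  exact ⟨_, conj_C0 y1 y2 h1, by rw [pel_conj _ y1 h1.1, h2, ← conj_mul, g2, g2, s1, s2, e],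
    by rw [conj_mul, h3]; simp⟩

theorem AA_sq (hy : y ∈ AA Q c) : y * y = 1 := by
  obtain ⟨n, hn, e⟩ := h.lift0 (AU_K0 (h.pel_AU hy))
  have h1 := h.lift_AA hn (e ▸ h.pel_AU hy)
  obtain ⟨u, f, hu, rfl⟩ := h.decomp_AA hy h1 e.symm
  have h2 := mul_mem (h.mem u) (h.ze_Q f)
  have h3 : InU (c (σ u * ze z f)) := by rwa [h.c_ze (h.mem u), h.c_s]
  rw [mul_assoc, ← mul_assoc n, ← mem_AA.1 h1 _ h2 h3, mul_assoc _ n, h.lift_sq hn (e ▸ h.pel_AU hy), mul_one,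
    (h.sq h2).2 (h3.h h3)]
theorem pmap_AA : pmap π (AA Q c) = AU := le_antisymm (pmap_le_of_le_pcomap fun y hy =>
  mem_pcomap.2 ⟨h.AA_le hy, h.pel_AU hy⟩) fun k hk => by
    obtain ⟨n, hn, rfl⟩ := h.lift0 (AU_K0 hk)
    exact pel_mem_pmap π (h.lift_AA hn hk)

end FS

namespace FT
variable (h : FT Q z π c)
include h

theorem AA_sq (hy : y ∈ AA Q c) : y * y = 1 := by
  obtain ⟨x, σ, h⟩ := h.exists_fs
  exact h.AA_sq hy
theorem pmap_AA : pmap π (AA Q c) = AU := by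
  obtain ⟨x, σ, h⟩ := h.exists_fs
  exact h.pmap_AA
theorem card_AA : Nat.card (AA Q c) = 2 ^ 11 := by
  rw [← card_pmap_mul π h.AA_le, h.ker, h.card_QA, h.pmap_AA, card_AU]; norm_num

theorem uniq (hB : B ≤ pcomap π SU) (h2 : ∀ b ∈ B, b * b = 1) (hc : 2 ^ 11 ≤ Nat.card B) : B = AA Q c := by
  have hC : B ≤ 𝐂[z] := hB.trans (pcomap_le_dom _ _)
  have ab := abelian_of_sq h2
  have a1 := card_pmap_mul π hC
  rw [h.ker] at a1
  have a2 := h.card_le_ab inf_le_left (abelian_of_le ab inf_le_right)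
  have p1 : pmap π B ≤ SU := pmap_le_of_le_pcomap hB
  have p2 : ∀ g ∈ pmap π B, g * g = 1 := fun g hg => by
    obtain ⟨b, hb, rfl⟩ := (mem_pmap_of_le hC).1 hg
    rw [← pel_mul _ (hC hb) (hC hb), h2 b hb, pel_one]
  have p3 : ∀ g ∈ pmap π B, ∀ q ∈ Q ⊓ B, g (c q) = c q := fun g hg q hq => by
    obtain ⟨b, hb, rfl⟩ := (mem_pmap_of_le hC).1 hg
    rw [← h.equi (hC hb) hq.1, abelian_iff'.1 ab b hb q hq.2, mul_inv_cancel_right]
  obtain ⟨a3, a4⟩ := elem_SU (B := K0 ⊓ pmap π B) (inf_le_inf_left _ p1) fun g hg => p2 g hg.2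
  have a5 := card_inf_mul_relIndex K0 (pmap π B)
  have a6 := relIndex_le_of_le_right (H := K0) (p1.trans inf_le_left) (by rw [relIndex_Hs]; norm_num)
  rw [relIndex_Hs] at a6
  by_cases e : pmap π B ≤ K0
  · rw [inf_eq_right.2 e] at a3 a4
    have b1 : Q ⊓ B = Q ⊓ AA Q c := eq_of_le_of_card_le (fun q hq => ⟨hq.1, (h.mem_AA_Q hq.1).2
      (inU_of_fix (B := pmap π B ⊓ AU) inf_le_right (by nlinarith) fun g hg => p3 g hg.1 q hq)⟩)
      (by rw [h.card_QA]; nlinarith)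
    exact eq_of_le_of_card_le (by rw [← h.cent_QA, ← b1]; exact cents_of_abelian ab inf_le_right le_rfl)
      (h.card_AA ▸ hc)
  obtain ⟨f, hf, hf'⟩ := SetLike.not_le_iff_exists.1 e
  obtain ⟨k, hk, k1⟩ := (bot_or_exists_ne_one _).resolve_left (one_lt_card_iff_ne_bot'.1
    (by nlinarith : 1 < Nat.card ↥(K0 ⊓ pmap π B ⊓ AU)))
  have b1 := h.card_le (U := Q ⊓ B) inf_le_left (S := c '' (Q ⊓ B : Subgroup G)) fun u hu => ⟨u, hu, rfl⟩
  have b2 := Set.ncard_le_ncard_of_injOn (s := (c '' (Q ⊓ B : Subgroup G)) ×ˢ (c '' (Q ⊓ B : Subgroup G)))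
    (t := {v | k v = v}) (fun p => p.1 + w • p.2) ?_ ?_
  · rw [ncard_fix hk.2 k1, Set.ncard_prod] at b2
    have b3 : (c '' (Q ⊓ B : Subgroup G)).ncard ≤ 16 := by nlinarith
    have b4 := Nat.mul_le_mul (b1.trans (Nat.mul_le_mul_left 2 b3)) (a5.ge.trans (Nat.mul_le_mul a4 a6))
    omega
  · rintro _ ⟨⟨a, ha, e1⟩, ⟨b, hb, e2⟩⟩
    have := K0_GU hk.1.1
    rw [Set.mem_ofPred_eq, GU.add this, GU.smul this, ← e1, ← e2, p3 k hk.1.2 a ha, p3 k hk.1.2 b hb]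
  · rintro ⟨_, _⟩ ⟨⟨a, ha, rfl⟩, ⟨b, hb, rfl⟩⟩ ⟨_, _⟩ ⟨⟨a', ha', rfl⟩, ⟨b', hb', rfl⟩⟩ e
    have e' := congrArg f e
    simp only [(Hs_OV (p1 hf).1).1 _ _, Hs_smul (p1 hf).1 hf', p3 f hf _ ha, p3 f hf _ hb, p3 f hf _ ha',
      p3 f hf _ hb'] at e e'
    have : c b = c b' := by
      funext j
      have := congrFun e j
      have := congrFun e' j
      simp only [Pi.add_apply, Pi.smul_apply, smul_eq_mul] at *
      exact (by decide : ∀ a b a' b' : F4, a + w * b = a' + w * b' → a + star w * b = a' + star w * b' → b = b')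
        _ _ _ _ ‹_› ‹_›
    rw [this, add_left_inj] at e
    rw [this, e]

theorem exists_cj {S : Subgroup G} (hS : IsPGroup 2 S) :
    ∃ g, ∀ B ≤ S, (∀ b ∈ B, b * b = 1) → 2 ^ 11 ≤ Nat.card B → B = cj g (AA Q c) := by
  obtain ⟨T, h1, h2, -⟩ := h.exists_sylow
  obtain ⟨g, -, e⟩ := h1.exists_cj_le (hS.piGrp Nat.prime_two) le_top
  refine ⟨g⁻¹, fun B hB h3 h4 => ?_⟩
  rw [← h.uniq (B := cj g B) ((cj_mono g hB).trans (e.trans h2)) (fun b hb => by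
    obtain ⟨a, ha, rfl⟩ := mem_cj'.1 hb
    rw [conj_mul, h3 a ha]; simp) (by rwa [card_cj]), cj_cj, inv_mul_cancel, cj_one]

theorem eq_of_pg {S B' : Subgroup G} (hS : IsPGroup 2 S) (h1 : B ≤ S) (h2 : ∀ b ∈ B, b * b = 1)
    (h3 : 2 ^ 11 ≤ Nat.card B) (h1' : B' ≤ S) (h2' : ∀ b ∈ B', b * b = 1) (h3' : 2 ^ 11 ≤ Nat.card B') : B = B' := by
  obtain ⟨g, hg⟩ := h.exists_cj hS
  rw [hg B h1 h2 h3, hg B' h1' h2' h3']

theorem cj_sq (hy : y ∈ cj g (AA Q c)) : y * y = 1 := by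
  obtain ⟨a, ha, rfl⟩ := mem_cj'.1 hy
  rw [conj_mul, h.AA_sq ha]; simp

/-- conjugates of `A` inside a subgroup are conjugate there -/
theorem conj_in {Y : Subgroup G} (h1 : AA Q c ≤ Y) (h2 : cj g (AA Q c) ≤ Y) :
    ∃ y ∈ Y, cj (y * g) (AA Q c) = AA Q c := by
  obtain ⟨P, p1, p2⟩ := exists_sylowIn_ge' Nat.prime_two (pg_of_sq fun _ => h.AA_sq) h1
  obtain ⟨y, hy, e⟩ := p1.exists_cj_le ((pg_of_sq fun _ => h.cj_sq).piGrp Nat.prime_two) h2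
  rw [cj_cj] at e
  exact ⟨y, hy, h.eq_of_pg (p1.isPGroup Nat.prime_two) e (fun _ => h.cj_sq) (by rw [card_cj, h.card_AA]) p2
    (fun _ => h.AA_sq) h.card_AA.ge⟩

theorem AA_ab : IsMulCommutative (AA Q c) := abelian_of_sq fun _ => h.AA_sq
theorem AA_comm (ha : a ∈ AA Q c) (hb : b ∈ AA Q c) : a * b = b * a := abelian_iff'.1 h.AA_ab a ha b hb

/-- the normaliser of `A` controls fusion in `A` -/
theorem fusion {Y : Subgroup G} (hY : AA Q c ≤ Y) (hg : g ∈ Y) (ha : a ∈ AA Q c) (hb : g * a * g⁻¹ ∈ AA Q c) :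
    ∃ m ∈ Y ⊓ 𝐍(AA Q c), m * a * m⁻¹ = g * a * g⁻¹ := by
  obtain ⟨y, hy, e⟩ := h.conj_in (g := g) (Y := Y ⊓ 𝐂[g * a * g⁻¹])
    (le_inf hY fun b hb' => mem_cent1_iff.2 (h.AA_comm hb' hb))
    (le_inf (cj_le_of_le hY hg) (by
      rw [← cj_centralizer_singleton]; exact cj_mono g fun b hb' => mem_cent1_iff.2 (h.AA_comm hb' ha)))
  refine ⟨y * g, ⟨mul_mem hy.1 hg, mem_normalizer_iff_cj.2 e⟩, ?_⟩
  rw [← conj_eq_iff_mem_cent1.2 hy.2]; group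

end FT
end CA.F24
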