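/-
Groups of large Fischer type: the conjugates of `z` in the elementary abelian subgroup of order `2^11`.
-/
import Cfsg.Agent.Lib.F24.AA
import Cfsg.Agent.Lib.Fi.St1

set_option autoImplicit false
set_option linter.unusedSectionVars false
set_option linter.unusedVariables false

namespace CA.F24

open Cfsg Equiv Subgroup CA CA.Fi CA.Unit CA.Fi.F4 CA.Ex2

/-- the norm, in `ZMod 2` -/
def nn (a : F4) : ZMod 2 := if a = 0 then 0 else 1

theorem dual1 : ∀ i j l : Fin 6, i ≠ j → i ≠ l → j ≠ l → ∃ a b c : F4,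
    h6 ![a, 0, b, 0, c, 0] (av i) = 1 ∧ h6 ![a, 0, b, 0, c, 0] (av j) = 0 ∧ h6 ![a, 0, b, 0, c, 0] (av l) = 0 := by
  decide +kernel

theorem dual3 {i j l : Fin 6} (h1 : i ≠ j) (h2 : i ≠ l) (h3 : j ≠ l) (a b c : F4) :
    ∃ v, h6 v (av i) = a ∧ h6 v (av j) = b ∧ h6 v (av l) = c := by
  obtain ⟨a1, a2, a3, e1, e2, e3⟩ := dual1 i j l h1 h2 h3
  obtain ⟨b1, b2, b3, f1, f2, f3⟩ := dual1 j i l h1.symm h3 h2
  obtain ⟨c1, c2, c3, g1, g2, g3⟩ := dual1 l i j h2.symm h3.symm h1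
  refine ⟨a • ![a1, 0, a2, 0, a3, 0] + b • ![b1, 0, b2, 0, b3, 0] + c • ![c1, 0, c2, 0, c3, 0], ?_, ?_, ?_⟩ <;>
    simp only [h_add_left, h_smul_left, e1, e2, e3, f1, f2, f3, g1, g2, g3, mul_one, mul_zero, add_zero, zero_add]

theorem exists_third6 : ∀ i j : Fin 6, ∃ l, i ≠ l ∧ j ≠ l := by decide

theorem av_li3 : ∀ a b c : F4, a • av 4 + b • av 5 + c • av 0 = 0 → a = 0 ∧ b = 0 ∧ c = 0 := by decide +kernel

theorem be_two (v : V6) (i j : Fin 6) :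
    be (h6 v (av i) • av i + h6 v (av j) • av j) v = nn (h6 v (av i)) + nn (h6 v (av j)) := by
  have : ∀ a : F4, t2 (w' * (a * star a)) = nn a := by decide
  rw [be_add_left, be, be, h_smul_left, h_smul_left, ← h_star v, ← h_star v, this, this]

theorem no_prime {G : Type*} [Group G] [Finite G] {A : Subgroup G} (hA : Nat.card A = 2 ^ 11) (hc : 𝐂(A) ≤ A) {p : ℕ}
    (hp : p.Prime) (h2 : ∀ k < 11, ¬ 2 ^ 11 ≡ 2 ^ k [MOD p]) : ¬ p ∣ Nat.card 𝐍(A) := fun h => by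
  have := Fact.mk hp
  obtain ⟨g, hg, e⟩ := exists_orderOf_eq_prime hp h
  have hP : IsPGroup p (zpowers g) := IsPGroup.of_card (n := 1) (by rw [Nat.card_zpowers, e, pow_one])
  have a1 := card_modEq_card_inf_cent hP (zpowers_le.2 hg)
  obtain ⟨k, hk, f⟩ := (Nat.dvd_prime_pow Nat.prime_two).1 (hA ▸ card_dvd_of_le (inf_le_left : A ⊓ 𝐂(zpowers g) ≤ A))
  rw [hA, f] at a1
  rcases hk.lt_or_eq with hk | rfl
  · exact h2 k hk a1
  have a2 : A ≤ 𝐂(zpowers g) := inf_eq_left.1 (eq_of_le_of_card_ge inf_le_left (hA.trans f.symm).le)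
  have a3 := orderOf_dvd_natCard (⟨g, hc (le_centralizer_iff.1 a2 (mem_zpowers g))⟩ : A)
  rw [← orderOf_coe, e, hA] at a3
  rw [(Nat.prime_dvd_prime_iff_eq hp Nat.prime_two).1 (hp.dvd_of_dvd_pow a3)] at h2
  exact h2 1 (by decide) (by decide)

variable {G : Type*} [Group G]

theorem isConj_conj (z y g : G) : IsConj z (g * y * g⁻¹) ↔ IsConj z y :=
  ⟨fun h => h.trans (isConj_iff.2 ⟨g, rfl⟩).symm, fun h => h.trans (isConj_iff.2 ⟨g, rfl⟩)⟩

variable [Finite G] {Q : Subgroup G} {z x : G} {π : ↥𝐂[z] →* Perm V6} {c : G → V6} {σ : V6 → G}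
variable {n y g : G} {u v : V6} {i j l : Fin 6}

namespace FS
variable (h : FS Q z π c x σ)
include h

theorem conj_d (hn : n ∈ 𝐂[z] ⊓ 𝐂[x]) (e : pel π n = Ta i * Ta j) (hu : InU u) (f : ZMod 2) (v : V6) :
    σ v * (σ u * ze z f * n) * (σ v)⁻¹ = σ (u + (h6 v (av i) • av i + h6 v (av j) • av j)) *
      ze z (f + t2 (h6 v u) + (nn (h6 v (av i)) + nn (h6 v (av j)))) * n := by
  have a1 := h.conj_c hn v
  rw [e, TT_apply] at a1
  rw [← be_two]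
  have hy : InU (h6 v (av i) • av i + h6 v (av j) • av j) := ((inU_av i).smul _).add ((inU_av j).smul _)
  generalize h6 v (av i) • av i + h6 v (av j) • av j = y at *
  have a2 : n * (σ v)⁻¹ * n⁻¹ = ze z (be v y) * σ y * (σ v)⁻¹ := by
    rw [← conj_inv, a1, ← h.s_inv0 (hy.h hy), ← ze_inv h.zz, ← mul_inv_rev, ← mul_inv_rev, ← mul_assoc, h.s_mul, mul_assoc,
      ze_sq h.zz, mul_one]
  calc _ = σ v * σ u * (σ v)⁻¹ * (σ v * (ze z f * (n * (σ v)⁻¹ * n⁻¹))) * n := by group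
    _ = σ u * ze z (t2 (h6 v u)) * (ze z f * ze z (be v y) * (σ v * σ y * (σ v)⁻¹)) * n := by
      rw [h.s_conj, a2, ← mul_assoc (ze z f), ← mul_assoc (ze z f), ← ze_add h.zz, ← mul_assoc (σ v),
        ← mul_assoc (σ v), ← ze_comm (h.memC v), mul_assoc (ze z _) (σ v), mul_assoc (ze z _)]
    _ = _ := by
      rw [h.s_conj, ← be_add_be v y, h.s_add (hu.h hy), ← ze_add h.zz, ← mul_assoc (ze z _), ze_comm (h.memC y),
        mul_assoc (σ y), ← ze_add h.zz, ← mul_assoc _ (σ y), mul_assoc (σ u), ze_comm (h.memC y), ← mul_assoc,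
        mul_assoc _ (ze z _) (ze z _), ← ze_add h.zz]
      congr 3
      generalize be v y = a; generalize be y v = b; generalize t2 (h6 v u) = d
      revert a b d f; decide

theorem conj_two (hn : n ∈ 𝐂[z] ⊓ 𝐂[x]) (e : pel π n = Ta i * Ta j) (hij : i ≠ j) (a b : F4) (f : ZMod 2) :
    ∃ q ∈ Q, q * (ze z f * n) * q⁻¹ = σ (a • av i + b • av j) * ze z (f + (nn a + nn b)) * n := by
  obtain ⟨l, h1, h2⟩ := exists_third6 i j
  obtain ⟨v, rfl, rfl, -⟩ := dual3 hij h1 h2 a b 0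
  have := h.conj_d hn e inU_zero f v
  rw [h.s_zero, one_mul, zero_add, h_zero_right, t2_zero, add_zero] at this
  exact ⟨_, h.mem v, this⟩

theorem conj_three (hn : n ∈ 𝐂[z] ⊓ 𝐂[x]) (e : pel π n = Ta i * Ta j) (h1 : i ≠ j) (h2 : i ≠ l) (h3 : j ≠ l)
    (a b : F4) {d : F4} (hd : d ≠ 0) (f : ZMod 2) :
    IsConj (σ (av l) * n) (σ (a • av i + b • av j + d • av l) * ze z f * n) := by
  have a1 : ∀ u, IsConj (σ u * n) (σ (w • u) * n) := fun u => isConj_iff.2 ⟨x, by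
    rw [← conj_mul, h.conj_x, conj_eq_iff_mem_cent1.2 (mem_cent1_comm.1 hn.2)]⟩
  have a2 : IsConj (σ (av l) * n) (σ (d • av l) * n) := by
    rcases (by decide : ∀ d : F4, d ≠ 0 → d = 1 ∨ d = w ∨ d = w * w) d hd with rfl | rfl | rfl
    · rw [one_smul]
    · exact a1 _
    · rw [mul_smul]; exact (a1 _).trans (a1 _)
  obtain ⟨k, hk⟩ := (by decide : ∀ d : F4, d ≠ 0 → ∀ f, ∃ k, t2 (star d * k) = f) d hd (f + (nn a + nn b))
  obtain ⟨v, rfl, rfl, rfl⟩ := dual3 h1 h2 h3 a b k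
  have := h.conj_d hn e ((inU_av l).smul d) 0 v
  rw [h_smul_right, hk, zero_add, add_assoc, z2_add_self, add_zero, ze_zero, mul_one, add_comm] at this
  exact a2.trans (isConj_iff.2 ⟨_, this⟩)

theorem ncard_fib (hn : n ∈ AA Q c) {P : G → Prop} {p : F4 × F4 × F4 × ZMod 2 → Prop} [DecidablePred p]
    (hp : ∀ a b d f, P (σ (a • av 4 + b • av 5 + d • av 0) * ze z f * n) ↔ p (a, b, d, f)) :
    {y | (y ∈ AA Q c ∧ P y) ∧ pel π y = pel π n}.ncard = (Finset.univ.filter p).card := by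
  rw [← Set.ncard_coe_finset]
  refine (Set.ncard_congr (fun t _ => σ (t.1 • av 4 + t.2.1 • av 5 + t.2.2.1 • av 0) * ze z t.2.2.2 * n)
    ?_ ?_ fun y hy => ?_).symm
  · rintro ⟨a, b, d, f⟩ ht
    exact ⟨⟨mul_mem (mul_mem (h.s_AA ((((inU_av 4).smul a).add ((inU_av 5).smul b)).add ((inU_av 0).smul d)))
      (h.ze_AA f)) hn, (hp a b d f).2 (by simpa using ht)⟩, h.pel_Q (mul_mem (h.mem _) (h.ze_Q f)) (h.AA_le hn)⟩
  · rintro ⟨a, b, d, f⟩ ⟨a', b', d', f'⟩ - - e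
    obtain ⟨e1, e2⟩ := h.s_inj (mul_right_cancel e)
    obtain ⟨g1, g2, g3⟩ := av_li3 (a - a') (b - b') (d - d') (by
      rw [sub_smul, sub_smul, sub_smul, ← sub_eq_zero.2 e1]; abel)
    simp only at e2
    rw [sub_eq_zero.1 g1, sub_eq_zero.1 g2, sub_eq_zero.1 g3, e2]
  · obtain ⟨u, f, hu, rfl⟩ := h.decomp_AA hy.1.1 hn hy.2
    obtain ⟨a, b, d, rfl⟩ := av_span (i := 4) (j := 5) (l := 0) (by decide) (by decide) (by decide) hu
    exact ⟨(a, b, d, f), by simpa using (hp a b d f).1 hy.1.2, rfl⟩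

theorem conj_s (hu : InU u) (f : ZMod 2) : IsConj z (σ u * ze z f) ↔ if u = 0 then f = 1 else ¬ Rt u := by
  have a1 : σ u * ze z f ∈ Q := mul_mem (h.mem u) (h.ze_Q f)
  have a2 : c (σ u * ze z f) = u := by rw [h.c_ze (h.mem u), h.c_s]
  split_ifs with e
  · rw [e, h.s_zero, one_mul]
    rcases z2_cases f with rfl | rfl
    · simpa using h.ez.ne_one
    · simp [-isConj_iff, IsConj.refl]
  · exact ⟨fun g r => h.not_conj_R a1 (a2.symm ▸ r) g, fun r => h.conj_of_S a1 (a2.symm ▸ ⟨⟨hu.h hu, e⟩, r⟩)⟩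

theorem ncard_fib1 : {y | (y ∈ AA Q c ∧ IsConj z y) ∧ pel π y = 1}.ncard = 91 := by
  rw [← pel_one π, h.ncard_fib (one_mem _) (p := fun t => if t.1 • av 4 + t.2.1 • av 5 + t.2.2.1 • av 0 = 0 then
    t.2.2.2 = 1 else ¬ Rt (t.1 • av 4 + t.2.1 • av 5 + t.2.2.1 • av 0)) fun a b d f => by
    rw [mul_one, h.conj_s ((((inU_av 4).smul a).add ((inU_av 5).smul b)).add ((inU_av 0).smul d))]]
  decide +kernel

open Classical in
theorem ncard_fib45 (hn : n ∈ 𝐂[z] ⊓ 𝐂[x]) (e : pel π n = Ta 4 * Ta 5) :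
    {y | (y ∈ AA Q c ∧ IsConj z y) ∧ pel π y = Ta 4 * Ta 5}.ncard = (if IsConj z n then 16 else 0) +
      (if IsConj z (z * n) then 16 else 0) + if IsConj z (σ (av 0) * n) then 96 else 0 := by
  obtain ⟨t1, e1⟩ : ∃ t : Bool, IsConj z n ↔ t = true := ⟨decide (IsConj z n), by simp⟩
  obtain ⟨t2, e2⟩ : ∃ t : Bool, IsConj z (z * n) ↔ t = true := ⟨decide (IsConj z (z * n)), by simp⟩
  obtain ⟨t3, e3⟩ : ∃ t : Bool, IsConj z (σ (av 0) * n) ↔ t = true := ⟨decide (IsConj z (σ (av 0) * n)), by simp⟩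
  rw [← e, h.ncard_fib (h.lift_AA hn (e ▸ TT_AU 4 5)) (p := fun t => (if t.2.2.1 = 0 then
    (if t.2.2.2 = nn t.1 + nn t.2.1 then t1 else t2) else t3) = true) fun a b d f => ?_]
  · simp only [e1, e2, e3]
    clear e1 e2 e3
    revert t1 t2 t3; decide +kernel
  by_cases hd : d = 0
  · obtain ⟨q, -, hq⟩ := h.conj_two hn e (by decide) a b (f + (nn a + nn b))
    rw [add_assoc, z2_add_self, add_zero] at hq
    rw [hd, zero_smul, add_zero, ← hq, isConj_conj, if_pos rfl]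
    generalize nn a + nn b = k
    rcases z2_cases f with rfl | rfl <;> rcases z2_cases k with rfl | rfl <;> simp [-isConj_iff, e1, e2, z2_add_self]
  · have := h.conj_three hn e (l := 0) (by decide) (by decide) (by decide) a b hd f
    rw [if_neg hd, ← e3]
    exact ⟨fun g => g.trans this.symm, fun g => g.trans this⟩

theorem ncard_fib_conj {P : G → Prop} (hP : ∀ g y, P (g * y * g⁻¹) ↔ P y) (hg : g ∈ pcomap π SU) (k : Perm V6) :
    {y | (y ∈ AA Q c ∧ P y) ∧ pel π y = pel π g * k * (pel π g)⁻¹}.ncard =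
      {y | (y ∈ AA Q c ∧ P y) ∧ pel π y = k}.ncard := by
  have a1 := h.NA_norm hg
  have a2 := (mem_pcomap.1 hg).1
  refine (Set.ncard_congr (fun y _ => g * y * g⁻¹) (fun y hy => ?_) (fun a b _ _ e => ?_) fun y hy => ?_).symm
  · exact ⟨⟨(mem_normalizer_iff.1 a1 y).1 hy.1.1, (hP g y).2 hy.1.2⟩, by rw [pel_conj _ a2 (h.AA_le hy.1.1), hy.2]⟩
  · simpa using e
  · refine ⟨g⁻¹ * y * g⁻¹⁻¹, ⟨⟨(mem_normalizer_iff.1 (inv_mem a1) y).1 hy.1.1, (hP _ y).2 hy.1.2⟩, ?_⟩, by group⟩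
    rw [pel_conj _ (inv_mem a2) (h.AA_le hy.1.1), hy.2, pel_inv _ a2]; group

theorem exists_NA (s : Perm (Fin 6)) : ∃ m ∈ pcomap π SU, NX x m ∧ pel phU (pel π m) = s := by
  obtain ⟨k, k1, k2⟩ := mem_pmap_of_le inf_le_right |>.1 (phU_SU.ge (mem_top s))
  obtain ⟨m, m1, m2, rfl⟩ := h.liftN k1.1
  exact ⟨m, mem_pcomap.2 ⟨m1, k1⟩, m2, k2⟩

theorem ncard_ZA' : {y | y ∈ AA Q c ∧ IsConj z y}.ncard =
    91 + 15 * {y | (y ∈ AA Q c ∧ IsConj z y) ∧ pel π y = Ta 4 * Ta 5}.ncard := by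
  classical
  have f1 := Set.toFinite {y | y ∈ AA Q c ∧ IsConj z y}
  have f2 := Set.toFinite (AU : Set (Perm V6))
  have a1 : f2.toFinset.card = 16 := by rw [← Set.ncard_eq_toFinset_card, ← card_AU]; rfl
  have a2 : 1 ∈ f2.toFinset := by simp
  have a3 : ∀ k, (f1.toFinset.filter fun y => pel π y = k).card =
      {y | (y ∈ AA Q c ∧ IsConj z y) ∧ pel π y = k}.ncard := fun k => by
    rw [← Set.ncard_coe_finset]; congr 1; ext; simp
  rw [Set.ncard_eq_toFinset_card _ f1, Finset.card_eq_sum_card_fiberwise (f := pel π) (t := f2.toFinset)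
    fun y hy => by simpa using h.pel_AU (by simpa using hy : _ ∧ _).1, ← Finset.add_sum_erase _ _ a2, a3,
    h.ncard_fib1, Finset.sum_congr rfl (g := fun _ => {y | (y ∈ AA Q c ∧ IsConj z y) ∧ pel π y = Ta 4 * Ta 5}.ncard)
    fun k hk => ?_, Finset.sum_const, Finset.card_erase_of_mem a2, a1, smul_eq_mul]
  obtain ⟨hk1, hk2⟩ := Finset.mem_erase.1 hk
  obtain ⟨i, j, hij, rfl⟩ := (AU_cases (by simpa using hk2)).resolve_left hk1
  obtain ⟨s, rfl, rfl⟩ := exists_perm45 i j hij.ne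
  obtain ⟨m, m1, -, rfl⟩ := h.exists_NA s
  rw [a3, ← TT_conj (mem_pcomap.1 m1).2, h.ncard_fib_conj (fun g y => isConj_conj z y g) m1]

theorem card_N : Nat.card 𝐍(AA Q c) = {y | y ∈ AA Q c ∧ IsConj z y}.ncard * Nat.card ↥(𝐍(AA Q c) ⊓ 𝐂[z]) := by
  rw [Fs.card_eq_orbit_mul _ z]
  congr 2
  ext y
  refine ⟨fun ⟨g, hg, e⟩ => e ▸ ⟨(mem_normalizer_iff.1 hg z).1 h.z_AA, isConj_iff.2 ⟨g, rfl⟩⟩, fun ⟨h1, h2⟩ => ?_⟩
  obtain ⟨g, rfl⟩ := isConj_iff.1 h2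
  obtain ⟨m, hm, e⟩ := h.fusion le_top (mem_top g) h.z_AA h1
  exact ⟨m, hm.2, e⟩

theorem ncard_ZA : {y | y ∈ AA Q c ∧ IsConj z y}.ncard = 1771 ∧ ∀ n ∈ 𝐂[z] ⊓ 𝐂[x], pel π n = Ta 4 * Ta 5 →
    (IsConj z n ↔ ¬ IsConj z (z * n)) ∧ IsConj z (σ (av 0) * n) := by
  suffices ∀ n ∈ 𝐂[z] ⊓ 𝐂[x], pel π n = Ta 4 * Ta 5 → {y | y ∈ AA Q c ∧ IsConj z y}.ncard = 1771 ∧
      (IsConj z n ↔ ¬ IsConj z (z * n)) ∧ IsConj z (σ (av 0) * n) by
    obtain ⟨n, h1, h2, -⟩ := h.exists_45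
    exact ⟨(this n h1 h2).1, fun n h1 h2 => (this n h1 h2).2⟩
  intro n h1 h2
  have a1 : ∀ p : ℕ, p.Prime → (∀ k < 11, ¬ 2 ^ 11 ≡ 2 ^ k [MOD p]) → ¬ p ∣ {y | y ∈ AA Q c ∧ IsConj z y}.ncard :=
    fun p hp e f => no_prime h.card_AA h.cent_AA hp e (h.card_N ▸ f.mul_right _)
  have a2 := h.ncard_ZA'
  rw [h.ncard_fib45 h1 h2] at a2
  rw [a2] at a1 ⊢
  split_ifs at a1 ⊢ with e1 e2 e3 e3 e2 e3 e3
  · exact absurd (by norm_num) (a1 2011 (by norm_num) (by decide))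
  · exact absurd (by norm_num) (a1 571 (by norm_num) (by decide))
  · simp [-isConj_iff, e1, e2, e3]
  · exact absurd (by norm_num) (a1 331 (by norm_num) (by decide))
  · simp [-isConj_iff, e1, e2, e3]
  · exact absurd (by norm_num) (a1 331 (by norm_num) (by decide))
  · exact absurd (by norm_num) (a1 1531 (by norm_num) (by decide))
  · exact absurd (by norm_num) (a1 13 (by norm_num) (by decide))

end FS

end CA.F24
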