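/-
Groups of large Fischer type: the elementary abelian subgroup of order `2^11` is the Todd module of `M24`.
-/
import Cfsg.Agent.Lib.F24.Cnt

set_option autoImplicit false
set_option linter.unusedSectionVars false
set_option linter.unusedVariables false

namespace CA.F24

open Cfsg Equiv Subgroup CA CA.Fi CA.Unit CA.Fi.F4 CA.Ex2

theorem perm3 : ∀ i j l : Fin 6, i ≠ j → i ≠ l → j ≠ l → ∃ s : Perm (Fin 6), s 4 = i ∧ s 5 = j ∧ s 0 = l := by
  have : ∀ i j l : Fin 6, i ≠ j → i ≠ l → j ≠ l →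
      (swap 4 i * swap 5 (swap 4 i j) * swap 0 ((swap 4 i * swap 5 (swap 4 i j))⁻¹ l)) 4 = i ∧
      (swap 4 i * swap 5 (swap 4 i j) * swap 0 ((swap 4 i * swap 5 (swap 4 i j))⁻¹ l)) 5 = j ∧
      (swap 4 i * swap 5 (swap 4 i j) * swap 0 ((swap 4 i * swap 5 (swap 4 i j))⁻¹ l)) 0 = l := by decide +kernel
  exact fun i j l a b c => ⟨_, this i j l a b c⟩

theorem Ta_tri (i j l : Fin 6) : Ta i * Ta j * (Ta i * Ta l) = Ta j * Ta l := by
  rw [Ta_comm i j, mul_assoc, ← mul_assoc (Ta i), Ta_sq, one_mul]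

theorem Ta_five : Ta 0 * Ta 1 * (Ta 0 * Ta 2 * (Ta 0 * Ta 3 * (Ta 0 * Ta 4))) = Ta 0 * Ta 5 := by
  have := (rep_TT 0 1).mul ((rep_TT 0 2).mul ((rep_TT 0 3).mul (rep_TT 0 4)))
  rw [show mm _ _ = mm (TaM 0) (TaM 5) by decide +kernel] at this
  exact this.eq (rep_TT 0 5)

/-- vector of the plane with a given code -/
def uu (m : ℕ) : V6 := dec (Gol.xorSel 0xa000005000000a000005000000a000005 m 6)
/-- code of a vector of the plane -/
def ucode (u : V6) : ℕ := vl (u 0) + 4 * vl (u 2) + 16 * vl (u 4)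

theorem uu_xor (m n : ℕ) : uu (m ^^^ n) = uu m + uu n := by rw [uu, Gol.xorSel_xor, dec_xor]; rfl

theorem xorSel_mod (T m k : ℕ) : ∀ j ≤ k, Gol.xorSel T (m % 2 ^ k) j = Gol.xorSel T m j
  | 0, _ => rfl
  | j + 1, h => by
    rw [Gol.xorSel, Gol.xorSel, xorSel_mod T m k j (by omega), Gol.tb_eq, Gol.tb_eq, Nat.testBit_mod_two_pow,
      decide_eq_true (by omega : j < k), Bool.true_and]

theorem uu_mod (m : ℕ) : uu (m % 64) = uu m := congrArg dec (xorSel_mod _ m 6 6 le_rfl)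

theorem inU_uu (m : ℕ) : InU (uu m) := by
  have : ∀ m < 64, InU (uu m) := by decide +kernel
  exact uu_mod m ▸ this _ (Nat.mod_lt _ (by decide))

theorem ucode_lt (u : V6) : ucode u < 64 := by
  have := vl_lt (u 0); have := vl_lt (u 2); have := vl_lt (u 4); unfold ucode; omega

theorem uu_ucode {u : V6} (h : InU u) : uu (ucode u) = u := by
  have : ∀ a b c : F4, uu (vl a + 4 * vl b + 16 * vl c) = a • av 0 + b • av 1 + c • av 2 := by decide +kernel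
  rw [ucode, this, ← h.eq]

/-- correction term -/
def ep (α : ZMod 2) (i j : Fin 6) : ZMod 2 := if i ≠ 0 ∧ j ≠ 0 ∧ i ≠ j then α else 0
/-- code of `d 0 i` -/
def dc (γ : ZMod 2) : Fin 6 → ℕ := ![0, 128, 256, 512, 1024, 1920 ^^^ 64 * γ.val]
/-- code of a point -/
def pc (γ : ZMod 2) (i : Fin 6) (a : F4) : ℕ := ucode (a • av i) ^^^ 64 * (nn a).val ^^^ dc γ i
/-- first coordinate of a point -/
def pI (n : ℕ) : Fin 6 := Fin.ofNat 6 (Gol.fld 4 0x234454255241313513210000 n)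
/-- second coordinate of a point -/
def pL (n : ℕ) : F4 := (Fin.ofNat 4 (Gol.fld 4 0x212133321101023032003210 n) : Fin 4)
/-- table of the codes of the points -/
def PT (γ : ZMod 2) : ℕ := if γ = 0 then
  0x16000025500045e0004790007db0004670001700007f60007ed0001500004000000c40002000000c800027f0007800000cc00026a000100000080000043000042000041000000
  else 0x16000025500045e00047900079b0004670001700007b60007ad0001500004000000c40002000000c800027f0007c00000cc00026a000100000080000043000042000041000000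
/-- code of a duad -/
def dcd (α γ : ZMod 2) (m n : ℕ) : ℕ := Gol.fld 24 (PT γ) m ^^^ Gol.fld 24 (PT γ) n ^^^ 64 * (ep α (pI m) (pI n)).val
/-- the set of duads -/
def DB (α γ : ZMod 2) : ℕ := Gol.orl (fun t => if t / 24 = t % 24 then 0 else 2 ^ dcd α γ (t / 24) (t % 24)) 576

theorem PT_pc : ∀ γ, ∀ n < 24, Gol.fld 24 (PT γ) n = pc γ (pI n) (pL n) := by decide +kernel
theorem pIL_inj : ∀ m < 24, ∀ n < 24, pI m = pI n → pL m = pL n → m = n := by decide +kernel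
theorem pIL_sur : ∀ i a, ∃ m < 24, pI m = i ∧ pL m = a := by decide +kernel
theorem cnt_DB : ∀ α γ, fc (DB α γ) (fun X => Gol.countLt (Gol.tb X) 2048) = 276 := by decide +kernel
theorem cmp_DB : ∀ α γ, fc (DB α γ) (fun X => Gol.countLt (fun m => Gol.tb X m && Gol.tb X (m ^^^ 64)) 2048) =
    fc (DB α γ) (fun X => Gol.countLt (fun m => Gol.tb X m && Gol.tb X (m ^^^ 192)) 2048) → α = 0 ∧ γ = 1 := by
  decide +kernel

theorem xs_two : ∀ m < 24, Gol.xorSel (PT 1) (Nat.pow 2 m) 24 = Gol.fld 24 (PT 1) m := by decide +kernel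
theorem xs_bas : ∀ j < 12, Gol.xorSel (PT 1) (Gol.fld 24 Gol.basT j) 24 = 0 := by decide +kernel
theorem xs_ker : Gol.allLt (fun j => imp (Nat.beq (Gol.xorSel (PT 1) (Nat.mul j 4096) 24) 0)
    (imp (Nat.beq (Gol.popc (Nat.mul j 4096) % 2) 0) (Nat.beq j 0))) 4096 = true := by decide +kernel
theorem xs_sur : Gol.allLt (fun m => fc (Gol.xorSel 0x200100080100002100001100000f02400082000000108000048000000a00000c m 11)
    fun k => Nat.beq (Gol.xorSel (PT 1) k 24) m && Nat.beq (Gol.popc k % 2) 0) 2048 = true := by decide +kernel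

theorem xor_lt11 {a b : ℕ} (ha : a < 2048) (hb : b < 2048) : a ^^^ b < 2048 := Nat.xor_lt_two_pow (n := 11) ha hb

theorem xs_lt (m : ℕ) : ∀ k ≤ 24, Gol.xorSel (PT 1) m k < 2048
  | 0, _ => by simp [Gol.xorSel]
  | k + 1, h => xor_lt11 (xs_lt m k (by omega)) (by
    cases Gol.tb m k
    · exact Nat.zero_lt_succ _
    · exact (by decide +kernel : ∀ k < 24, Gol.fld 24 (PT 1) k < 2048) k h)

variable {G : Type*} [Group G]

/-- product of the elements selected by a bit mask -/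
def gp : List G → ℕ → G
  | [], _ => 1
  | a :: l, m => (if m % 2 = 1 then a else 1) * gp l (m / 2)

theorem gp_mem {A : Subgroup G} : ∀ {l : List G}, (∀ a ∈ l, a ∈ A) → ∀ m, gp l m ∈ A
  | [], _, _ => one_mem _
  | a :: l, h, m => mul_mem (by split_ifs; exacts [h a (by simp), one_mem _])
    (gp_mem (fun b hb => h b (by simp [hb])) _)

theorem gp_xor {A : Subgroup G} (h2 : ∀ a ∈ A, a * a = 1) : ∀ {l : List G}, (∀ a ∈ l, a ∈ A) → ∀ m n,
    gp l (m ^^^ n) = gp l m * gp l n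
  | [], _, _, _ => (one_mul _).symm
  | a :: l, h, m, n => by
    have ha := h a (by simp)
    have hl : ∀ b ∈ l, b ∈ A := fun b hb => h b (by simp [hb])
    have cm : ∀ k, gp l k * a = a * gp l k := fun k => by
      have := (abelian_of_sq h2).is_comm.comm ⟨_, gp_mem hl k⟩ ⟨_, ha⟩
      exact congrArg Subtype.val this
    rw [gp, gp, gp, Nat.xor_div_two, gp_xor h2 hl]
    simp only [Nat.xor_mod_two_eq_one]
    by_cases e : m % 2 = 1 <;> by_cases f : n % 2 = 1 <;> simp only [e, f, iff_self, not_true, if_true, if_false,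
      one_mul, iff_false, not_false_iff, false_iff]
    · rw [mul_assoc, ← mul_assoc (gp l _), cm, ← mul_assoc, ← mul_assoc, h2 a ha, one_mul]
    · rw [mul_assoc]
    · rw [← mul_assoc, ← mul_assoc, cm]

/-- the element with a given code -/
def io (z : G) (σ : V6 → G) (d : Fin 6 → Fin 6 → G) (m : ℕ) : G :=
  σ (uu m) * gp [z, d 0 1, d 0 2, d 0 3, d 0 4] (m / 64)

/-- the lifts of the products of two transvections that are not conjugate to `z` -/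
structure FD (Q : Subgroup G) (z : G) (π : ↥𝐂[z] →* Perm V6) (c : G → V6) (x : G) (σ : V6 → G)
    (d : Fin 6 → Fin 6 → G) : Prop extends FS Q z π c x σ where
  dm : ∀ i j, d i j ∈ 𝐂[z] ⊓ 𝐂[x]
  dp : ∀ i j, pel π (d i j) = Ta i * Ta j
  d1 : ∀ i, d i i = 1
  dn : ∀ i j, ¬ IsConj z (d i j)

/-- the parametrisation by subsets of the 24 points -/
def nu (z : G) (σ : V6 → G) (d : Fin 6 → Fin 6 → G) (s : Finset GolayPt) : G :=
  io z σ d (Gol.xorSel (PT 1) (Gol.mask s) 24)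

/-- `A` is the Todd module for its normaliser -/
structure Big (z : G) (A : Subgroup G) (ν : Finset GolayPt → G) : Prop extends XS.Todd A ν where
  cent : 𝐂(A) ≤ A
  two : ∀ s, s.card = 2 → ¬ IsConj z (ν s)
  four : ∀ s, s.card = 4 → IsConj z (ν s)
  onto : ∀ g ∈ M24, ∃ m ∈ 𝐍(A), XS.Acts ν m g
  fus : ∀ {Y : Subgroup G} {g a : G}, A ≤ Y → g ∈ Y → a ∈ A → g * a * g⁻¹ ∈ A →
    ∃ m ∈ Y ⊓ 𝐍(A), m * a * m⁻¹ = g * a * g⁻¹
  uq : ∀ {S B : Subgroup G}, IsPGroup 2 S → A ≤ S → B ≤ S → (∀ b ∈ B, b * b = 1) → 2 ^ 11 ≤ Nat.card B → B = A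

theorem exists_acts {z m : G} {A : Subgroup G} {ν : Finset GolayPt → G} (h : XS.Todd A ν)
    (h2 : ∀ s, s.card = 2 → ¬ IsConj z (ν s)) (h4 : ∀ s, s.card = 4 → IsConj z (ν s)) (hm : m ∈ 𝐍(A)) :
    ∃ g, XS.Acts ν m g := h.exists_acts fun a b hab => by
  have e := Finset.card_pair hab
  rcases h.small_rep ((mem_normalizer_iff.1 hm _).1 (h.nu_mem (XS.even_pair hab))) with f | ⟨s, hs, f⟩ | ⟨s, hs, f⟩
  · exact absurd (by simpa using f) (h.ne_one (XS.even_pair hab) (by omega) (by omega))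
  · obtain ⟨c, d, k, rfl⟩ := Finset.card_eq_two.1 hs
    exact ⟨c, d, k, f.symm⟩
  · exact absurd ((isConj_conj _ _ _).1 (f ▸ h4 s hs)) (h2 _ e)

variable [Finite G] {Q : Subgroup G} {z x : G} {π : ↥𝐂[z] →* Perm V6} {c : G → V6} {σ : V6 → G}
variable {n y g : G} {u v : V6} {i j l : Fin 6} {d : Fin 6 → Fin 6 → G} {α γ : ZMod 2}

theorem FS.conj_iff (h : FS Q z π c x σ) (hn : n ∈ 𝐂[z] ⊓ 𝐂[x]) (e : pel π n = Ta i * Ta j) (hij : i ≠ j) :
    IsConj z n ↔ ¬ IsConj z (z * n) := by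
  obtain ⟨s, rfl, rfl⟩ := exists_perm45 i j hij
  obtain ⟨m, m1, m2, rfl⟩ := h.exists_NA s
  obtain ⟨k, k1, k2, -⟩ := h.exists_45
  have a1 := (mem_pcomap.1 m1).1
  obtain ⟨f, rfl⟩ := h.eq_of_pel0 (FS.conj_C0 a1 m2 k1) hn (by rw [e, pel_conj _ a1 k1.1, k2, TT_conj (mem_pcomap.1 m1).2])
  have := (h.ncard_ZA.2 (k * ze z f) (mul_mem k1 (h.ze_mem' f)) (by rw [h.pel_ze k1.1, k2])).1
  rwa [← isConj_conj z _ m, ← isConj_conj z (z * _) m, ← conj_mul (a := z), ← conj_mul,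
    conj_ze a1, conj_eq_iff_mem_cent1.2 a1] at this

theorem FS.exists_fd (h : FS Q z π c x σ) : ∃ d, FD Q z π c x σ d := by
  have : ∀ i j : Fin 6, ∃ n ∈ 𝐂[z] ⊓ 𝐂[x], pel π n = Ta i * Ta j ∧ (i = j → n = 1) ∧ ¬ IsConj z n := fun i j => by
    by_cases e : i = j
    · exact ⟨1, one_mem _, by rw [e, Ta_sq, pel_one], fun _ => rfl, by simpa using h.ez.ne_one⟩
    obtain ⟨n, h1, h2⟩ := h.lift0 (TT_K0 i j)
    by_cases f : IsConj z n
    · exact ⟨z * n, mul_mem h.z_mem h1, by rw [h.pel_Q h.ez.mem h1.1, h2], fun g => absurd g e,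
        (h.conj_iff h1 h2 e).1 f⟩
    · exact ⟨n, h1, h2, fun g => absurd g e, f⟩
  choose d h1 h2 h3 h4 using this
  exact ⟨d, h, h1, h2, fun i => h3 i i rfl, h4⟩

namespace FD
variable (h : FD Q z π c x σ d)
include h

theorem dA (i j : Fin 6) : d i j ∈ AA Q c := h.lift_AA (h.dm i j) (h.dp i j ▸ TT_AU i j)

theorem dz (hij : i ≠ j) : IsConj z (z * d i j) := by
  by_contra e; exact h.dn i j ((h.conj_iff (h.dm i j) (h.dp i j) hij).2 e)

theorem uniq_d (hij : i ≠ j) (hn : n ∈ 𝐂[z] ⊓ 𝐂[x]) (e : pel π n = Ta i * Ta j) (hc : ¬ IsConj z n) : n = d i j := by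
  obtain ⟨f, rfl⟩ := h.eq_of_pel0 (h.dm i j) hn (by rw [e, h.dp])
  rcases z2_cases f with rfl | rfl
  · simp
  · rw [← ze_comm (h.dm i j).1, ze_one] at hc; exact absurd (h.dz hij) hc

theorem symm (i j : Fin 6) : d i j = d j i := by
  by_cases e : j = i
  · rw [e]
  · exact h.uniq_d e (h.dm i j) (by rw [h.dp, Ta_comm]) (h.dn i j)

theorem conj_dd (hg : g ∈ pcomap π SU) (e : NX x g) (i j : Fin 6) :
    g * d i j * g⁻¹ = d (pel phU (pel π g) i) (pel phU (pel π g) j) := by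
  by_cases f : i = j
  · rw [f, h.d1, h.d1]; simp
  have a1 := (mem_pcomap.1 hg).1
  exact h.uniq_d (fun k => f ((pel phU (pel π g)).injective k)) (FS.conj_C0 a1 e (h.dm i j))
    (by rw [pel_conj _ a1 (h.dm i j).1, h.dp, TT_conj (mem_pcomap.1 hg).2]) (by rw [isConj_conj]; exact h.dn i j)

theorem exists_al : ∃ α, ∀ i j l, i ≠ j → i ≠ l → j ≠ l → d i j * d i l = d j l * ze z α := by
  obtain ⟨f, e⟩ := h.eq_of_pel0 (h.dm 5 0) (mul_mem (h.dm 4 5) (h.dm 4 0)) (by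
    rw [pel_mul _ (h.dm _ _).1 (h.dm _ _).1, h.dp, h.dp, h.dp, Ta_tri])
  refine ⟨f, fun i j l a b c => ?_⟩
  obtain ⟨s, rfl, rfl, rfl⟩ := perm3 i j l a b c
  obtain ⟨m, m1, m2, rfl⟩ := h.exists_NA s
  rw [← h.conj_dd m1 m2, ← h.conj_dd m1 m2, ← h.conj_dd m1 m2, conj_mul, e, ← conj_mul, conj_ze (mem_pcomap.1 m1).1]

theorem exists_ga : ∃ γ, d 0 1 * (d 0 2 * (d 0 3 * d 0 4)) = d 0 5 * ze z γ :=
  h.eq_of_pel0 (h.dm 0 5) (mul_mem (h.dm 0 1) (mul_mem (h.dm 0 2) (mul_mem (h.dm 0 3) (h.dm 0 4)))) (by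
    rw [pel_mul _ (h.dm _ _).1 (mul_mem (h.dm 0 2) (mul_mem (h.dm 0 3) (h.dm 0 4))).1,
      pel_mul _ (h.dm _ _).1 (mul_mem (h.dm 0 3) (h.dm 0 4)).1, pel_mul _ (h.dm _ _).1 (h.dm _ _).1]
    simp only [h.dp, Ta_five])

theorem lA : ∀ a ∈ [z, d 0 1, d 0 2, d 0 3, d 0 4], a ∈ AA Q c := by simp [h.z_AA, h.dA]

theorem io_mem (m : ℕ) : io z σ d m ∈ AA Q c := mul_mem (h.s_AA (inU_uu m)) (gp_mem h.lA _)

theorem io_xor (m n : ℕ) : io z σ d (m ^^^ n) = io z σ d m * io z σ d n := by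
  rw [io, io, io, uu_xor, h.s_add ((inU_uu m).h (inU_uu n)), show 64 = 2 ^ 6 from rfl, Nat.xor_div_two_pow,
    gp_xor (fun a => h.toFT.AA_sq) h.lA, mul_assoc, mul_assoc, ← mul_assoc (σ (uu n)),
    h.AA_comm (h.s_AA (inU_uu n)) (gp_mem h.lA _), mul_assoc]

theorem io_u (hu : InU u) : io z σ d (ucode u) = σ u := by
  rw [io, uu_ucode hu, Nat.div_eq_of_lt (ucode_lt u)]; simp [gp]

theorem io_hi (k : ℕ) : io z σ d (64 * k) = gp [z, d 0 1, d 0 2, d 0 3, d 0 4] k := by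
  rw [io, ← uu_mod, Nat.mul_mod_right, show uu 0 = 0 by decide, h.s_zero, one_mul, Nat.mul_div_cancel_left _ (by decide)]

theorem io_ze (e : ZMod 2) : io z σ d (64 * e.val) = ze z e := by
  rw [h.io_hi]; rcases z2_cases e with rfl | rfl
  · simp [gp]
  · simp [gp, show (1 : ZMod 2).val = 1 from rfl]

theorem io_dc (hγ : d 0 1 * (d 0 2 * (d 0 3 * d 0 4)) = d 0 5 * ze z γ) (i : Fin 6) : io z σ d (dc γ i) = d 0 i := by
  fin_cases i
  · exact (h.io_hi 0).trans (by simp [gp, h.d1])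
  · exact (h.io_hi 2).trans (by simp [gp])
  · exact (h.io_hi 4).trans (by simp [gp])
  · exact (h.io_hi 8).trans (by simp [gp])
  · exact (h.io_hi 16).trans (by simp [gp])
  · refine (h.io_xor _ _).trans ?_
    rw [h.io_ze, show 1920 = 64 * 30 from rfl, h.io_hi]
    simp [gp, hγ, mul_assoc, ze_sq h.zz]

theorem d_eq (hα : ∀ i j l, i ≠ j → i ≠ l → j ≠ l → d i j * d i l = d j l * ze z α) (i j : Fin 6) :
    d 0 i * d 0 j * ze z (ep α i j) = d i j := by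
  unfold ep
  split_ifs with e
  · rw [hα 0 i j e.1.symm e.2.1.symm e.2.2, mul_assoc, ze_sq h.zz, mul_one]
  by_cases e1 : i = 0
  · simp [e1, h.d1]
  by_cases e2 : j = 0
  · simp [e2, h.d1, h.symm 0 i]
  obtain rfl : i = j := by tauto
  simp [h.d1, h.toFT.AA_sq (h.dA 0 i)]

theorem io_pc (hγ : d 0 1 * (d 0 2 * (d 0 3 * d 0 4)) = d 0 5 * ze z γ) (i : Fin 6) (a : F4) :
    io z σ d (pc γ i a) = σ (a • av i) * ze z (nn a) * d 0 i := by
  rw [pc, h.io_xor, h.io_xor, h.io_u ((inU_av i).smul a), h.io_ze, h.io_dc hγ]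

theorem io_dcd (hα : ∀ i j l, i ≠ j → i ≠ l → j ≠ l → d i j * d i l = d j l * ze z α)
    (hγ : d 0 1 * (d 0 2 * (d 0 3 * d 0 4)) = d 0 5 * ze z γ) {m n : ℕ} (hm : m < 24) (hn : n < 24) :
    io z σ d (dcd α γ m n) =
      σ (pL m • av (pI m) + pL n • av (pI n)) * ze z (nn (pL m) + nn (pL n)) * d (pI m) (pI n) := by
  rw [dcd, h.io_xor, h.io_xor, PT_pc _ _ hm, PT_pc _ _ hn, h.io_pc hγ, h.io_pc hγ, h.io_ze, ← h.d_eq hα (pI m),
    h.s_add (((inU_av _).smul _).h ((inU_av _).smul _)), ze_add h.zz]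
  have a1 := h.s_AA ((inU_av (pI n)).smul (pL n))
  simp only [mul_assoc]
  rw [← mul_assoc (d 0 _), h.AA_comm (h.dA _ _) a1, mul_assoc, ← mul_assoc (d 0 _), ← ze_comm (h.dm _ _).1,
    ← mul_assoc (ze z _), ze_comm (h.memC _), mul_assoc, mul_assoc]

theorem not_conj {a b : F4} (e : ¬ (i = j ∧ a = b)) :
    σ (a • av i + b • av j) * ze z (nn a + nn b) * d i j ≠ 1 ∧
      ¬ IsConj z (σ (a • av i + b • av j) * ze z (nn a + nn b) * d i j) := by
  by_cases f : i = j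
  · subst f
    have a1 : Rt ((a + b) • av i) := (rt_av i).smul fun k => e ⟨rfl, (by decide : ∀ a b : F4, a + b = 0 → a = b) a b k⟩
    rw [← add_smul, h.d1, mul_one, h.conj_s ((inU_av i).smul _), if_neg a1.iso.2]
    refine ⟨fun k => a1.iso.2 (h.s_inj (e := nn a + nn b) (f := 0) (v := 0) ?_).1, fun k => k a1⟩
    rw [k, h.s_zero]; simp
  obtain ⟨q, -, hq⟩ := h.conj_two (h.dm i j) (h.dp i j) f a b 0
  rw [zero_add, ze_zero, one_mul] at hq
  rw [← hq, isConj_conj]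
  refine ⟨fun k => f (Ta_inj ?_), h.dn i j⟩
  have := h.dp i j
  rw [show d i j = 1 by simpa using k, pel_one] at this
  rw [eq_inv_of_mul_eq_one_left this.symm, inv_eq_of_mul_eq_one_left (Ta_sq j)]

theorem io_sur (hy : y ∈ AA Q c) : ∃ m < 2048, io z σ d m = y := by
  obtain ⟨α, hα⟩ := h.exists_al
  obtain ⟨γ, hγ⟩ := h.exists_ga
  obtain ⟨i, j, e⟩ : ∃ i j, pel π y = pel π (d i j) := by
    rcases AU_cases (h.pel_AU hy) with e | ⟨i, j, -, e⟩
    · exact ⟨0, 0, by rw [e, h.d1, pel_one]⟩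
    · exact ⟨i, j, by rw [e, h.dp]⟩
  obtain ⟨u, f, hu, rfl⟩ := h.decomp_AA hy (h.dA i j) e
  have a1 : ∀ f : ZMod 2, 64 * f.val < 2048 := by decide
  have a2 : ∀ γ i, dc γ i < 2048 := by decide
  exact ⟨ucode u ^^^ 64 * f.val ^^^ (dc γ i ^^^ dc γ j ^^^ 64 * (ep α i j).val), xor_lt11 (xor_lt11
    ((ucode_lt u).trans (by decide)) (a1 _)) (xor_lt11 (xor_lt11 (a2 _ _) (a2 _ _)) (a1 _)), by
    simp only [h.io_xor, h.io_u hu, h.io_ze, h.io_dc hγ, h.d_eq hα]⟩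

theorem io_inj {m n : ℕ} (hm : m < 2048) (hn : n < 2048) (e : io z σ d m = io z σ d n) : m = n := by
  have : Function.Bijective fun k : Fin 2048 => (⟨io z σ d k, h.io_mem k⟩ : AA Q c) :=
    (Nat.bijective_iff_surjective_and_card _).2 ⟨fun y => by
      obtain ⟨m, hm, e⟩ := h.io_sur y.2
      exact ⟨⟨m, hm⟩, Subtype.ext e⟩, by rw [h.card_AA]; simp⟩
  exact congrArg Fin.val (this.1 (a₁ := ⟨m, hm⟩) (a₂ := ⟨n, hn⟩) (Subtype.ext e))

theorem ncard_io (P : G → Prop) [DecidablePred fun m => P (io z σ d m)] :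
    {y | y ∈ AA Q c ∧ P y}.ncard = ((Finset.range 2048).filter fun m => P (io z σ d m)).card := by
  rw [← Set.ncard_coe_finset]
  refine (Set.ncard_congr (fun m _ => io z σ d m) (fun m hm => ?_) (fun a b ha hb e => ?_) fun y hy => ?_).symm
  · exact ⟨h.io_mem m, by simpa using (Finset.mem_filter.1 hm).2⟩
  · exact h.io_inj (by simpa using (Finset.mem_filter.1 ha).1) (by simpa using (Finset.mem_filter.1 hb).1) e
  · obtain ⟨m, hm, rfl⟩ := h.io_sur hy.1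
    exact ⟨m, by simpa using ⟨hm, hy.2⟩, rfl⟩

theorem ncard_D : {y | y ∈ AA Q c ∧ y ≠ 1 ∧ ¬ IsConj z y}.ncard = 276 := by
  have a1 : {y | y ∈ AA Q c ∧ y ≠ 1 ∧ ¬ IsConj z y} = (AA Q c : Set G) \ insert 1 {y | y ∈ AA Q c ∧ IsConj z y} := by
    ext y; simp only [Set.mem_ofPred_eq, Set.mem_sdiff, SetLike.mem_coe, Set.mem_insert_iff]; tauto
  rw [a1, Set.ncard_sdiff (Set.insert_subset (one_mem _) fun y hy => hy.1), Set.ncard_insert_of_notMem fun e =>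
    h.ez.ne_one (by simpa using e.2), h.ncard_ZA.1, show (AA Q c : Set G).ncard = 2 ^ 11 from h.card_AA]
  rfl

theorem tb_DB (hα : ∀ i j l, i ≠ j → i ≠ l → j ≠ l → d i j * d i l = d j l * ze z α)
    (hγ : d 0 1 * (d 0 2 * (d 0 3 * d 0 4)) = d 0 5 * ze z γ) {m : ℕ} (hm : m < 2048) :
    Gol.tb (DB α γ) m = true ↔ io z σ d m ≠ 1 ∧ ¬ IsConj z (io z σ d m) := by
  classical
  have a1 : ∀ m, Gol.tb (DB α γ) m = true → io z σ d m ≠ 1 ∧ ¬ IsConj z (io z σ d m) := fun m e => by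
    rw [Gol.tb_eq, DB, Gol.testBit_orl] at e
    obtain ⟨t, ht, e⟩ := e
    split_ifs at e with f
    · simp at e
    have b1 : t / 24 < 24 := by omega
    have b2 : t % 24 < 24 := by omega
    rw [← (by simpa [Nat.testBit_two_pow] using e : dcd α γ (t / 24) (t % 24) = m), h.io_dcd hα hγ b1 b2]
    exact h.not_conj fun k => f (pIL_inj _ b1 _ b2 k.1 k.2)
  have a2 := cnt_DB α γ
  rw [fc_eq, Gol.countLt_eq, ← h.ncard_D, h.ncard_io] at a2
  have := Finset.eq_of_subset_of_card_le (fun m e => Finset.mem_filter.2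
    ⟨(Finset.mem_filter.1 e).1, a1 m (Finset.mem_filter.1 e).2⟩) a2.ge
  exact ⟨a1 m, fun e => (Finset.mem_filter.1 (this.ge (Finset.mem_filter.2 ⟨Finset.mem_range.2 hm, e⟩))).2⟩

theorem al_ga : (∀ i j l, i ≠ j → i ≠ l → j ≠ l → d i j * d i l = d j l) ∧
    d 0 1 * (d 0 2 * (d 0 3 * d 0 4)) = d 0 5 * z := by
  classical
  obtain ⟨α, hα⟩ := h.exists_al
  obtain ⟨γ, hγ⟩ := h.exists_ga
  suffices α = 0 ∧ γ = 1 by obtain ⟨rfl, rfl⟩ := this; exact ⟨by simpa using hα, by simpa using hγ⟩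
  have a1 : ∀ k < 2048, Gol.countLt (fun m => Gol.tb (DB α γ) m && Gol.tb (DB α γ) (m ^^^ k)) 2048 =
      {y | y ∈ AA Q c ∧ (y ≠ 1 ∧ ¬ IsConj z y) ∧ y * io z σ d k ≠ 1 ∧ ¬ IsConj z (y * io z σ d k)}.ncard := fun k hk => by
    rw [Gol.countLt_eq, h.ncard_io]
    refine congrArg _ (Finset.filter_congr fun m hm => ?_)
    rw [Finset.mem_range] at hm
    rw [Bool.and_eq_true, h.tb_DB hα hγ hm, h.tb_DB hα hγ (xor_lt11 hm hk), h.io_xor]
  apply cmp_DB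
  rw [fc_eq, fc_eq, a1 _ (by decide), a1 _ (by decide), show io z σ d 64 = z from (h.io_ze 1).trans (ze_one z),
    show io z σ d 192 = z * d 0 1 from (h.io_hi 3).trans (by simp [gp])]
  obtain ⟨g, e⟩ := isConj_iff.1 (h.dz (i := 0) (j := 1) (by decide))
  obtain ⟨m, ⟨-, hm⟩, f⟩ := h.fusion le_top (mem_top g) h.z_AA (e ▸ mul_mem h.z_AA (h.dA 0 1))
  rw [← e, ← f]
  refine Set.ncard_congr (fun y _ => m * y * m⁻¹) (fun y hy => ?_) (fun a b _ _ e => by simpa using e) fun y hy => ?_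
  · refine ⟨(mem_normalizer_iff.1 hm y).1 hy.1, ?_⟩
    rw [conj_mul, isConj_conj, isConj_conj]
    simpa using hy.2
  · obtain ⟨y, rfl⟩ : ∃ y', y = m * y' * m⁻¹ := ⟨m⁻¹ * y * m, by group⟩
    refine ⟨y, ⟨(mem_normalizer_iff.1 hm y).2 hy.1, ?_⟩, rfl⟩
    have := hy.2
    rw [conj_mul, isConj_conj, isConj_conj] at this
    simpa using this

theorem nu_mul (s t : Finset GolayPt) : nu z σ d (symmDiff s t) = nu z σ d s * nu z σ d t := by
  rw [nu, Gol.mask_symmDiff, show ∀ a b, Nat.xor a b = a ^^^ b from fun _ _ => rfl, Gol.xorSel_xor, h.io_xor]; rfl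

theorem ga : d 0 1 * (d 0 2 * (d 0 3 * d 0 4)) = d 0 5 * ze z 1 := by rw [h.al_ga.2, ze_one]

theorem io_zero : io z σ d 0 = 1 := (h.io_ze 0).trans (ze_zero z)

theorem nu_fs {m : ℕ} (hm : m < 2 ^ 24) : nu z σ d (Gol.fs m) = io z σ d (Gol.xorSel (PT 1) m 24) := by
  rw [nu, Gol.mask_fs hm]

theorem nu_pt {m : ℕ} (hm : m < 24) :
    nu z σ d {Gol.pt m} = σ (pL m • av (pI m)) * ze z (nn (pL m)) * d 0 (pI m) := by
  rw [← Gol.fs_two_pow hm, h.nu_fs (m := Nat.pow 2 m) (Nat.pow_lt_pow_right (by decide) hm), xs_two m hm, PT_pc _ _ hm, h.io_pc h.ga]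

theorem nu_pair {m n : ℕ} (hm : m < 24) (hn : n < 24) (e : m ≠ n) : nu z σ d {Gol.pt m, Gol.pt n} =
    σ (pL m • av (pI m) + pL n • av (pI n)) * ze z (nn (pL m) + nn (pL n)) * d (pI m) (pI n) := by
  have : ({Gol.pt m, Gol.pt n} : Finset GolayPt) = symmDiff {Gol.pt m} {Gol.pt n} := by
    have : Gol.pt m ≠ Gol.pt n := fun k => e (Gol.pt_inj hm hn k)
    ext; simp only [Finset.mem_symmDiff, Finset.mem_insert, Finset.mem_singleton]; grind
  rw [this, h.nu_mul, ← Gol.fs_two_pow hm, h.nu_fs (m := Nat.pow 2 m) (Nat.pow_lt_pow_right (by decide) hm), xs_two m hm,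
    ← Gol.fs_two_pow hn, h.nu_fs (m := Nat.pow 2 n) (Nat.pow_lt_pow_right (by decide) hn), xs_two n hn, ← h.io_xor,
    ← h.io_dcd (α := 0) (by simpa using h.al_ga.1) h.ga hm hn, dcd, ep, ite_self, ZMod.val_zero, mul_zero,
    Nat.xor_zero]

theorem todd : XS.Todd (AA Q c) (nu z σ d) := by
  have a1 : ∀ s ∈ Gol.CW, nu z σ d s = 1 := fun s hs => Gol.CW_induction (P := fun s => nu z σ d s = 1)
    (by rw [← Gol.fs_zero, h.nu_fs (by decide)]; exact h.io_zero) (fun s t e f => by rw [h.nu_mul, e, f, one_mul])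
    (fun j hj => by rw [h.nu_fs (Gol.fld_lt _ _ _), xs_bas j hj, h.io_zero]) hs
  refine ⟨fun s t _ _ => h.nu_mul s t, fun s hs => ⟨fun e => ?_, a1 s⟩, fun v => ⟨fun hv => ?_, fun ⟨s, _, e⟩ =>
    e ▸ h.io_mem _⟩⟩
  · obtain ⟨j, hj, f⟩ := Gol.exists_high_rep s
    have a2 := a1 _ f
    have a3 := XS.even_symmDiff hs (XS.even_of_CW f)
    rw [symmDiff_symmDiff_cancel_left, Gol.card_fs, Nat.even_iff] at a3
    rw [h.nu_mul, e, one_mul, h.nu_fs (by simp only [Nat.mul_eq]; omega), ← h.io_zero] at a2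
    have := Gol.allLt_iff.1 xs_ker j hj
    simp only [imp_iff, Gol.beq_iff] at this
    rw [this (h.io_inj (xs_lt _ _ le_rfl) (by decide) a2) a3] at f
    rwa [show Nat.mul 0 4096 = 0 from rfl, Gol.fs_zero, ← Finset.bot_eq_empty, symmDiff_bot] at f
  · obtain ⟨m, hm, rfl⟩ := h.io_sur hv
    have := Gol.allLt_iff.1 xs_sur m hm
    simp only [fc_eq, Bool.and_eq_true, Gol.beq_iff] at this
    exact ⟨_, by rw [Gol.card_fs, Nat.even_iff]; exact this.2, by rw [h.nu_fs (Gol.xorSel_lt _ _ _), this.1]⟩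

theorem nu_two {s : Finset GolayPt} (hs : s.card = 2) : ¬ IsConj z (nu z σ d s) := by
  obtain ⟨a, b, e, rfl⟩ := Finset.card_eq_two.1 hs
  rw [← Gol.pt_ix a, ← Gol.pt_ix b, h.nu_pair (Gol.ix_lt a) (Gol.ix_lt b) fun k => e (Gol.ix_inj k)]
  exact (h.not_conj fun k => e (Gol.ix_inj (pIL_inj _ (Gol.ix_lt a) _ (Gol.ix_lt b) k.1 k.2))).2

theorem nu_four {s : Finset GolayPt} (hs : s.card = 4) : IsConj z (nu z σ d s) := by
  have a1 := Set.eq_of_subset_of_ncard_le (s := {v | ∃ s, s.card = 2 ∧ nu z σ d s = v})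
    (t := {y | y ∈ AA Q c ∧ y ≠ 1 ∧ ¬ IsConj z y}) (fun _ ⟨s, hs, e⟩ => e ▸ ⟨h.io_mem _,
      h.todd.ne_one (hs ▸ even_two) (by omega) (by omega), h.nu_two hs⟩) (by rw [h.ncard_D, h.todd.ncard_duads])
  by_contra e
  obtain ⟨t, ht, f⟩ := a1.ge ⟨h.io_mem _, h.todd.ne_one (s := s) (hs ▸ by decide) (by omega) (by omega), e⟩
  exact h.todd.duad_ne_tetrad ht hs f

theorem big : Big z (AA Q c) (nu z σ d) := by
  refine ⟨h.todd, h.cent_AA, fun s => h.nu_two, fun s => h.nu_four, fun g hg => ?_, h.fusion, fun hS h1 h2 h3 h4 =>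
    h.eq_of_pg hS h2 h3 h4 h1 (fun _ => h.toFT.AA_sq) h.card_AA.ge⟩
  obtain ⟨μ, h1, h2, h3⟩ := h.todd.exists_mu' (M := 𝐍(AA Q c)) fun m =>
    exists_acts h.todd (fun s => h.nu_two) fun s => h.nu_four
  have a1 : μ.range ≤ M24 := fun _ ⟨m, e⟩ => e ▸ h1 m
  have a2 : Nat.card μ.ker ≤ 2 ^ 11 := by
    rw [← h.card_AA]
    exact Nat.card_le_card_of_injective (fun m => (⟨m.1.1, h.cent_AA ((h3 _).1 m.2)⟩ : AA Q c)) fun a b e =>
      Subtype.ext (Subtype.ext (congrArg (fun y : AA Q c => y.1) e))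
  have a3 := μ.ker.card_mul_index
  have a4 := card_le_of_le' (le_inf h.NA_norm (pcomap_le_dom π SU))
  have a5 := card_SU.1
  rw [index_ker, h.card_N, h.ncard_ZA.1] at a3
  rw [h.card_NA] at a4
  obtain ⟨m, rfl⟩ := (eq_of_le_of_card_ge a1 (by rw [Gol.card_M24]; nlinarith)).ge hg
  exact ⟨m, m.2, h2 m⟩

end FD

theorem FT.exists_big (h : FT Q z π c) : ∃ ν, Big z (AA Q c) ν := by
  obtain ⟨x, σ, h⟩ := h.exists_fs
  obtain ⟨d, h⟩ := h.exists_fd
  exact ⟨_, h.big⟩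

namespace Big
variable {A : Subgroup G} {ν : Finset GolayPt → G} (h : Big z A ν) {a b m : G}
include h

theorem acts (hm : m ∈ 𝐍(A)) : ∃ g, XS.Acts ν m g := exists_acts h.toTodd h.two h.four hm

theorem cj (g : G) : Big z (cj g A) fun s => g * ν s * g⁻¹ := by
  refine ⟨⟨fun s t hs ht => by rw [h.mul s t hs ht, conj_mul], fun s hs => by simp [h.ker s hs], fun v => ?_⟩,
    by rw [← cj_centralizer]; exact cj_mono _ h.cent, fun s hs => by rw [isConj_conj]; exact h.two s hs,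
    fun s hs => by rw [isConj_conj]; exact h.four s hs, fun k hk => ?_, fun {Y k a} h1 h2 h3 h4 => ?_,
    fun {S B} h1 h2 h3 h4 h5 => ?_⟩
  · rw [mem_cj, h.mem]
    exact exists_congr fun s => and_congr_right fun _ => ⟨fun e => by rw [e]; group, fun e => by rw [← e]; group⟩
  · obtain ⟨m, hm, e⟩ := h.onto k hk
    exact ⟨g * m * g⁻¹, by rw [← cj_normalizer]; exact conj_mem_cj.2 hm, fun s hs => by simp only [← e s hs]; group⟩
  · obtain ⟨m, hm, e⟩ := h.fus (Y := CA.cj g⁻¹ Y) (g := g⁻¹ * k * g) (a := g⁻¹ * a * g) (cj_le_iff.1 h1)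
      (by rw [mem_cj]; simpa [mul_assoc] using h2) (mem_cj.1 h3) (by convert mem_cj.1 h4 using 1; group)
    refine ⟨g * m * g⁻¹, ⟨by simpa [mem_cj] using hm.1, by rw [← cj_normalizer]; exact conj_mem_cj.2 hm.2⟩, ?_⟩
    calc _ = g * (m * (g⁻¹ * a * g) * m⁻¹) * g⁻¹ := by group
      _ = _ := by rw [e]; group
  · rw [← h.uq (S := CA.cj g⁻¹ S) (B := CA.cj g⁻¹ B) (isPGroup_cj h1 _) (cj_le_iff.1 h2) (cj_mono _ h3) (fun b hb => by
      have := h4 _ (mem_cj.1 hb); rw [inv_inv, conj_mul] at this; simpa using this) (by rwa [card_cj]), cj_cj_inv]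

theorem exists_mu : ∃ μ : ↥𝐍(A) →* Perm GolayPt, μ.range = M24 ∧ pker μ = A ∧ ∀ m ∈ 𝐍(A), XS.Acts ν m (pel μ m) := by
  obtain ⟨μ, h1, h2, h3⟩ := h.exists_mu' (M := 𝐍(A)) fun m => h.acts
  refine ⟨μ, le_antisymm (fun _ ⟨m, e⟩ => e ▸ h1 m) fun g hg => ?_, le_antisymm (fun m hm => ?_) fun m hm => ?_,
    fun m hm => by rw [pel_of_mem _ hm]; exact h2 ⟨m, hm⟩⟩
  · obtain ⟨m, hm, e⟩ := h.onto g hg
    exact ⟨⟨m, hm⟩, h.acts_unique (h2 ⟨m, hm⟩) e⟩
  · obtain ⟨h4, h5⟩ := mem_pker.1 hm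
    exact h.cent ((h3 ⟨m, h4⟩).1 (pel_of_mem μ h4 ▸ h5))
  · exact mem_pker.2 ⟨le_normalizer hm, pel_of_mem μ (le_normalizer hm) ▸ (h3 _).2 (h.le_cent hm)⟩

theorem rep_Z (ha : a ∈ A) (h1 : a ≠ 1) (e : IsConj z a) : ∃ s, s.card = 4 ∧ ν s = a := by
  rcases h.small_rep ha with f | ⟨s, hs, rfl⟩ | f
  exacts [absurd f h1, absurd e (h.two s hs), f]

theorem rep_D (ha : a ∈ A) (h1 : a ≠ 1) (e : ¬ IsConj z a) : ∃ s, s.card = 2 ∧ ν s = a := by
  rcases h.small_rep ha with f | f | ⟨s, hs, rfl⟩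
  exacts [absurd f h1, f, absurd (h.four s hs) e]

theorem conj_nu {s t : Finset GolayPt} (hs : Even s.card) (h5 : s.card ≤ 5) (e : t.card = s.card) :
    ∃ m ∈ 𝐍(A), m * ν s * m⁻¹ = ν t :=
  (h.orbit_eq (fun m => h.acts) h.onto hs h5).ge ⟨t, e, rfl⟩

theorem orb (ha : a ∈ A) (hb : b ∈ A) (h1 : a ≠ 1) (h2 : b ≠ 1) (e : IsConj z a ↔ IsConj z b) :
    ∃ m ∈ 𝐍(A), m * a * m⁻¹ = b := by
  by_cases f : IsConj z a
  · obtain ⟨s, hs, rfl⟩ := h.rep_Z ha h1 f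
    obtain ⟨t, ht, rfl⟩ := h.rep_Z hb h2 (e.1 f)
    exact h.conj_nu (hs ▸ by decide) (by omega) (by omega)
  · obtain ⟨s, hs, rfl⟩ := h.rep_D ha h1 f
    obtain ⟨t, ht, rfl⟩ := h.rep_D hb h2 (mt e.2 f)
    exact h.conj_nu (hs ▸ by decide) (by omega) (by omega)

end Big

end CA.F24
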