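/-
Groups of large Fischer type: the quasisimple group `6 U4(3)`.
-/
import Cfsg.Agent.Lib.F24.Tod

set_option autoImplicit false
set_option linter.unusedSectionVars false
set_option linter.unusedVariables false

namespace CA.F24

open Cfsg Equiv Subgroup CA CA.Fi CA.Unit CA.Fi.F4 CA.Ex2
open scoped commutatorElement

theorem perfect_U43 : commutator U43 = ⊤ := by
  refine (IsSimpleGroup.eq_bot_or_eq_top_of_normal (commutator U43) inferInstance).resolve_left fun e => ?_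
  have := (commutator_eq_bot_iff_center_eq_top (G := U43)).1 e
  rw [center_U43] at this
  exact bot_ne_top this

theorem sc_mem_comm : sc 1 ∈ ⁅K0, K0⁆ := by
  have a1 : sc 1 = ⁅(pm (swap 0 1 * swap 1 2 * (swap 3 4 * swap 4 5)))⁻¹, dg ![0, 1, 2, 0, 1, 2]⁆ := by
    rw [commutatorElement_def, inv_inv, pm_dg, dg_inv, ← dg_add]
    exact congrArg dg (by decide)
  exact a1 ▸ commutator_mem_commutator (inv_mem (pm_K0 (by decide))) (dg_K0 (by decide))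

theorem perfect_K0 : ⁅K0, K0⁆ = K0 := by
  refine le_antisymm (commutator_le_self _) fun g hg => ?_
  have a1 : pmap phi ⁅K0, K0⁆ = ⊤ := by
    rw [pmap_commutator _ le_rfl le_rfl, pmap_dom, MonoidHom.range_eq_top.2 phi_surj, ← commutator_def, perfect_U43]
  obtain ⟨k, hk, e⟩ := (mem_pmap_of_le (commutator_le_self _)).1 (a1.ge (mem_top (pel phi g)))
  have hk' := commutator_le_self _ hk
  obtain ⟨c, f⟩ := (phi_eq_one (g := ⟨k⁻¹ * g, mul_mem (inv_mem hk') hg⟩)).1 (by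
    rw [← pel_of_mem, pel_mul _ (inv_mem hk') hg, pel_inv _ hk', e, inv_mul_cancel])
  rw [show g = k * sc c by rw [← f]; simp]
  refine mul_mem hk ?_
  rcases (by decide : ∀ c : ZMod 3, c = 0 ∨ c = 1 ∨ c = 1 + 1) c with rfl | rfl | rfl
  · simp
  · exact sc_mem_comm
  · exact sc_add 1 1 ▸ mul_mem sc_mem_comm sc_mem_comm

theorem sc_of_normal {g : Perm V6} (hg : g ∈ Hs) (h3 : g ^ 3 = 1) (h1 : g ≠ 1) (hn : Hs ≤ 𝐍(zpowers g)) :
    g = sc 1 ∨ g⁻¹ = sc 1 := by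
  have hk : g ∈ K0 := by
    by_contra e
    have := (mul_K0_iff hg (mul_mem hg hg)).1 (by rw [← pow_two, ← pow_succ', h3]; exact one_mem _)
    exact e (this.2 ((mul_K0_iff hg hg).2 Iff.rfl))
  have a1 : (zpowers (pel phi g)).Normal := by
    rw [← normalizer_eq_top_iff, eq_top_iff, ← MonoidHom.range_eq_top.2 phi_surj, ← pmap_dom, ← pmap_zpowers _ hk]
    exact pmap_norms _ (K0_Hs.trans hn)
  rcases a1.eq_bot_or_eq_top with e | e
  · obtain ⟨c, f⟩ := (phi_eq_one (g := ⟨g, hk⟩)).1 (pel_of_mem phi hk ▸ zpowers_eq_bot.1 e)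
    simp only at f
    subst f
    rcases (by decide : ∀ c : ZMod 3, c = 0 ∨ c = 1 ∨ c + 1 = 0) c with rfl | rfl | f
    · simp at h1
    · exact .inl rfl
    · exact .inr (inv_eq_of_mul_eq_one_right (by rw [← sc_add, f, sc_zero]))
  · have := congrArg (fun H : Subgroup U43 => Nat.card H) e
    simp only [Nat.card_zpowers, card_top, card_U43] at this
    have := this ▸ orderOf_dvd_of_pow_eq_one (by rw [← pel_pow _ hk, h3, pel_one] : pel phi g ^ 3 = 1)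
    omega

variable {G : Type*} [Group G]
variable [Finite G] {Q : Subgroup G} {z x : G} {π : ↥𝐂[z] →* Perm V6} {c : G → V6} {σ : V6 → G}
variable {n y g : G} {u v : V6} {i j l : Fin 6} {d : Fin 6 → Fin 6 → G}

theorem FS.exists_NA0 (h : FS Q z π c x σ) {s : Perm (Fin 6)} (hs : Perm.sign s = 1) :
    ∃ m ∈ pcomap π SU, m ∈ 𝐂[x] ∧ pel phU (pel π m) = s := by
  obtain ⟨k, k1, k2⟩ := mem_pmap_of_le (inf_le_right.trans inf_le_right) |>.1 (phU_K0.ge (Perm.mem_alternatingGroup.2 hs))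
  obtain ⟨m, m1, rfl⟩ := h.lift0 k1.1
  exact ⟨m, mem_pcomap.2 ⟨m1.1, k1.2⟩, m1.2, k2⟩

theorem FS.pmap_C0 (h : FS Q z π c x σ) : pmap π (𝐂[z] ⊓ 𝐂[x]) = K0 :=
  le_antisymm (fun _ hk => by obtain ⟨n, hn, rfl⟩ := (mem_pmap_of_le inf_le_left).1 hk; exact h.pel_K0 hn)
    fun _ hk => (mem_pmap_of_le inf_le_left).2 (h.lift0 hk)

theorem FS.card_C0 (h : FS Q z π c x σ) : Nat.card ↥(𝐂[z] ⊓ 𝐂[x]) = 19595520 := by
  have := card_pmap_mul π (inf_le_left : 𝐂[z] ⊓ 𝐂[x] ≤ _)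
  rw [h.pmap_C0, h.ker, show Q ⊓ (𝐂[z] ⊓ 𝐂[x]) = zpowers z from le_antisymm (fun q hq => h.mem_zp hq.1 hq.2.2)
    (zpowers_le.2 ⟨h.ez.mem, h.z_mem⟩), Nat.card_zpowers, orderOf_eq_prime (p := 2) (by rw [pow_two, h.zz]) h.ez.ne_one,
    card_K0] at this
  omega

namespace FD
variable (h : FD Q z π c x σ d)
include h

theorem d_conj (hij : i ≠ j) : ∃ m ∈ 𝐂[z] ⊓ 𝐂[x], m * d 4 5 * m⁻¹ = d i j := by
  obtain ⟨s, rfl, rfl⟩ := exists_perm45 i j hij
  obtain ⟨t, ht, e4, e5⟩ : ∃ t : Perm (Fin 6), Perm.sign t = 1 ∧ t 4 = s 4 ∧ t 5 = s 5 := by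
    rcases Int.units_eq_one_or (Perm.sign s) with e | e
    · exact ⟨s, e, rfl, rfl⟩
    · exact ⟨s * swap 0 1, by simp [e], rfl, rfl⟩
  obtain ⟨m, m1, m2, rfl⟩ := h.exists_NA0 ht
  exact ⟨m, ⟨(mem_pcomap.1 m1).1, m2⟩, by rw [h.conj_dd m1 (.inl (conj_eq_iff_mem_cent1.2 m2)), e4, e5]⟩

theorem perfect_C0 : ⁅𝐂[z] ⊓ 𝐂[x], 𝐂[z] ⊓ 𝐂[x]⁆ = 𝐂[z] ⊓ 𝐂[x] := by
  have a0 := commutator_le_self (𝐂[z] ⊓ 𝐂[x])
  have a1 : ∀ i j, i ≠ j → d i j * (d 4 5)⁻¹ ∈ ⁅𝐂[z] ⊓ 𝐂[x], 𝐂[z] ⊓ 𝐂[x]⁆ := fun i j e => by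
    obtain ⟨m, hm, f⟩ := h.d_conj e
    exact f ▸ commutator_mem_commutator hm (h.dm 4 5)
  have a2 : d 4 5 ∈ ⁅𝐂[z] ⊓ 𝐂[x], 𝐂[z] ⊓ 𝐂[x]⁆ := by
    have := mul_mem (inv_mem (a1 4 0 (by decide))) (a1 5 0 (by decide))
    rwa [← h.al_ga.1 4 5 0 (by decide) (by decide) (by decide), h.AA_comm (h.dA 4 5) (h.dA 4 0), mul_inv_rev, inv_inv,
      mul_inv_cancel_right, inv_mul_cancel_right] at this
  have a3 : ∀ j, 0 ≠ j → d 0 j ∈ ⁅𝐂[z] ⊓ 𝐂[x], 𝐂[z] ⊓ 𝐂[x]⁆ := fun j e => by simpa using mul_mem (a1 0 j e) a2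
  have a4 := mul_mem (inv_mem (a3 5 (by decide))) (mul_mem (a3 1 (by decide)) (mul_mem (a3 2 (by decide))
    (mul_mem (a3 3 (by decide)) (a3 4 (by decide)))))
  rw [h.al_ga.2, inv_mul_cancel_left] at a4
  refine le_antisymm a0 fun g hg => ?_
  have a5 := pmap_commutator π (inf_le_left : 𝐂[z] ⊓ 𝐂[x] ≤ _) (inf_le_left : 𝐂[z] ⊓ 𝐂[x] ≤ _)
  rw [h.pmap_C0, perfect_K0] at a5
  obtain ⟨k, hk, e⟩ := (mem_pmap_of_le (a0.trans inf_le_left)).1 (a5.ge (h.pel_K0 hg))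
  obtain ⟨f, rfl⟩ := h.eq_of_pel0 (a0 hk) hg e
  exact mul_mem hk (zpowers_le.2 a4 (ze_mem z f))

theorem c0 {L : Type*} [Group L] (ι : L →* G) (hι : Function.Injective ι) (hr : ι.range = 𝐂[z] ⊓ 𝐂[x]) :
    IsQuasisimple L ∧ IsCyclic (center L) ∧ Nat.card (center L) = 6 ∧ Nonempty (L ⧸ center L ≃* U43) := by
  have a0 : ∀ l, ι l ∈ 𝐂[z] ⊓ 𝐂[x] := fun l => hr.le ⟨l, rfl⟩
  let ψ : L →* U43 := phi.comp ((π.comp (ι.codRestrict _ fun l => (a0 l).1)).codRestrict K0 fun l =>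
    pel_of_mem π (a0 l).1 ▸ h.pel_K0 (a0 l))
  have a1 : Function.Surjective ψ := fun y => by
    obtain ⟨k, rfl⟩ := phi_surj y
    obtain ⟨n, hn, e⟩ := h.lift0 k.2
    obtain ⟨l, rfl⟩ := hr.ge hn
    exact ⟨l, congrArg phi (Subtype.ext ((pel_of_mem π hn.1).symm.trans e))⟩
  have a2 : center L = ψ.ker := by
    refine le_antisymm (fun l hl => ?_) fun l hl => mem_center_iff.2 fun k => hι ?_
    · refine mem_bot.1 (center_U43.le (mem_center_iff.2 fun y => ?_))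
      obtain ⟨k, rfl⟩ := a1 y
      rw [← map_mul, mem_center_iff.1 hl, map_mul]
    obtain ⟨a, e⟩ := phi_eq_one.1 hl
    have e' : pel π (x ^ a.val) = pel π (ι l) := by
      rw [pel_pow _ h.xm, h.xp, pel_of_mem _ (a0 l).1]
      refine Eq.trans ?_ e.symm
      rcases (by decide : ∀ c : ZMod 3, c = 0 ∨ c = 1 ∨ c = 1 + 1) a with rfl | rfl | rfl
      · simp
      · exact pow_one _
      · exact (pow_two _).trans (sc_add 1 1).symm
    obtain ⟨f, g⟩ := h.eq_of_pel0 (pow_mem h.x_mem _) (a0 l) e'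
    rw [map_mul, map_mul, g, mul_assoc, ze_comm (a0 k).1, ← mul_assoc, ← mul_assoc]
    exact congrArg (· * _) ((show Commute (ι k) x from mem_centralizer_singleton_iff.1 (a0 k).2).pow_right _).eq
  have a3 : Nonempty (L ⧸ center L ≃* U43) :=
    ⟨(QuotientGroup.quotientMulEquivOfEq a2).trans (QuotientGroup.quotientKerEquivOfSurjective ψ a1)⟩
  have a4 : Nat.card (center L) = 6 := by
    have := ψ.ker.card_mul_index
    rw [index_ker, MonoidHom.range_eq_top.2 a1, card_top, card_U43, Nat.card_congr (MonoidHom.ofInjective hι).toEquiv,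
      hr, h.card_C0, ← a2] at this
    omega
  refine ⟨⟨⟨map_injective hι ?_⟩, a3.some.isSimpleGroup⟩, ?_, a4, a3⟩
  · rw [commutator_def, map_commutator, ← MonoidHom.range_eq_map, hr, h.perfect_C0]
  · have : Finite (center L) := Nat.finite_of_card_ne_zero (by omega)
    obtain ⟨a, ha⟩ := exists_prime_orderOf_dvd_card' (G := center L) 2 (a4 ▸ by decide)
    obtain ⟨b, hb⟩ := exists_prime_orderOf_dvd_card' (G := center L) 3 (a4 ▸ by decide)
    exact isCyclic_of_orderOf_eq_card (a * b) (by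
      rw [(show Commute a b from Subtype.ext (mem_center_iff.1 b.2 a)).orderOf_mul_eq_mul_orderOf_of_coprime (by rw [ha, hb]; decide), ha, hb, a4])

end FD

end CA.F24
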