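/-
Groups of large Fischer type: the conjugates of `z` in the centraliser of the four-group `E`, local study.
-/
import Cfsg.Agent.Lib.F24.Dc

set_option autoImplicit false
set_option linter.unusedSectionVars false
set_option linter.unusedVariables false

namespace CA.F24

open Cfsg Equiv Subgroup CA CA.Fi CA.Unit CA.Fi.F4 CA.Ex2

theorem Ta0_comm {r : V6} (hr : Iso r) (h0 : h6 r (av 0) = 0) : Commute (Ta 0) (tr r) :=
  (tr_comm_iff (iso_av 0) hr).2 (h_eq_zero_comm h0)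

theorem Ta0_tr {r v : V6} (hr : Iso r) (h0 : h6 r (av 0) = 0) (hv : h6 v (av 0) = 0) :
    (Ta 0 * tr r) v = v + h6 v r • r := by
  rw [Perm.mul_apply, tr_apply hr.1, Ta_apply, h_add_left, h_smul_left, h0, hv, mul_zero, add_zero, zero_smul,
    add_zero]

theorem inU_of_fix2 {a b : Perm V6} (ha : a ∈ AU) (hb : b ∈ AU) (a1 : a ≠ 1) (b1 : b ≠ 1) (e : a ≠ b) {v : V6}
    (h1 : a v = v) (h2 : b v = v) : InU v := by
  obtain ⟨i, j, k1, rfl⟩ := (AU_cases ha).resolve_left a1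
  obtain ⟨k, l, k2, rfl⟩ := (AU_cases hb).resolve_left b1
  have c1 := (TT_fix k1.ne).1 h1
  have c2 := (TT_fix k2.ne).1 h2
  by_cases f : i ≠ k ∧ j ≠ k
  · exact inU_of_three k1.ne f.1 f.2 c1.1 c1.2 c2.1
  by_cases f' : i ≠ l ∧ j ≠ l
  · exact inU_of_three k1.ne f'.1 f'.2 c1.1 c1.2 c2.2
  obtain ⟨rfl, rfl⟩ : i = k ∧ j = l := by omega
  exact absurd rfl e

variable {G : Type*} [Group G]

theorem comm_cj (g : G) {a b : G} : Commute (g * a * g⁻¹) (g * b * g⁻¹) ↔ Commute a b := by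
  rw [Commute, SemiconjBy, conj_mul, conj_mul]
  simp [Commute, SemiconjBy]

theorem cj_ne (g : G) {a b : G} : g * a * g⁻¹ ≠ g * b * g⁻¹ ↔ a ≠ b := by simp

/-- the centraliser of the four-group -/
def YY (σ : V6 → G) : Subgroup G := 𝐂[σ (av 0)] ⊓ 𝐂[σ (w • av 0)]
/-- the conjugates of `z` in it -/
def DL (z : G) (σ : V6 → G) : Set G := {y | ∃ g ∈ YY σ, g * z * g⁻¹ = y}
/-- the points of the plane -/
noncomputable def Pk (z : G) (σ : V6 → G) (d : Fin 6 → Fin 6 → G) (k : Fin 21) : G := io z σ d (dl k)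

/-- `δ` lies over the point `r` -/
structure Ov (Q : Subgroup G) {z : G} (π : ↥𝐂[z] →* Perm V6) (c : G → V6) (x δ : G) (r : V6) : Prop where
  rt : Rt r
  h0 : h6 r (av 0) = 0
  nm : ¬ ∃ a : F4, r = a • av 0
  ex : ∃ q ∈ Q, ∃ n ∈ 𝐂[z] ⊓ 𝐂[x], (∃ a : F4, c q = a • r) ∧ pel π n = Ta 0 * tr r ∧ δ = q * n

theorem DL.conj {z g y : G} {σ : V6 → G} (hy : y ∈ DL z σ) (hg : g ∈ YY σ) : g * y * g⁻¹ ∈ DL z σ := by
  obtain ⟨k, hk, rfl⟩ := hy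
  exact ⟨g * k, mul_mem hg hk, by group⟩
theorem DL.self (z : G) (σ : V6 → G) : z ∈ DL z σ := ⟨1, one_mem _, by group⟩
theorem DL.isConj {z y : G} {σ : V6 → G} (hy : y ∈ DL z σ) : IsConj z y := by
  obtain ⟨k, hk, rfl⟩ := hy
  exact isConj_iff.2 ⟨k, rfl⟩
theorem DL.back {z y : G} {σ : V6 → G} (hy : y ∈ DL z σ) : ∃ g ∈ YY σ, g * y * g⁻¹ = z := by
  obtain ⟨k, hk, rfl⟩ := hy
  exact ⟨k⁻¹, inv_mem hk, by group⟩

variable [Finite G] {Q : Subgroup G} {z x : G} {π : ↥𝐂[z] →* Perm V6} {c : G → V6} {σ : V6 → G}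
variable {a b q n y g δ : G} {k : Perm V6} {u v r s : V6} {d : Fin 6 → Fin 6 → G} {i j : Fin 6}

namespace FS
variable (h : FS Q z π c x σ)
include h

theorem Y_S0 (hy : y ∈ YY σ) (hz : y ∈ 𝐂[z]) : pel π y ∈ S0 := by
  have a1 : ∀ v, y ∈ 𝐂[σ v] → pel π y v = v := fun v e => by
    have := h.equi hz (h.mem v)
    rwa [mem_cent1_iff.1 e, mul_inv_cancel_right, h.c_s, eq_comm] at this
  refine ⟨by_contra fun e => ?_, a1 _ hy.1⟩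
  have := a1 _ hy.2
  rw [Hs_smul (h.pel_Hs y) e, a1 _ hy.1] at this
  revert this; decide +kernel

theorem S0_Y (hn : n ∈ 𝐂[z] ⊓ 𝐂[x]) (e : pel π n ∈ S0) : n ∈ YY σ :=
  ⟨mem_cent1_iff.2 (mul_inv_eq_iff_eq_mul.1 (by rw [h.conj_c hn, show pel π n (av 0) = av 0 from e.2])),
    mem_cent1_iff.2 (mul_inv_eq_iff_eq_mul.1 (by rw [h.conj_c hn, S0.smul e]))⟩

theorem Q_Y (hq : q ∈ Q) : q ∈ YY σ ↔ h6 (c q) (av 0) = 0 := by
  rw [YY, mem_inf, mem_cent1_iff, mem_cent1_iff, h.comm hq (h.mem _), h.comm hq (h.mem _), bv_eq_zero, bv_eq_zero,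
    h.c_s, h.c_s, h_smul_right]
  generalize h6 (c q) (av 0) = a
  revert a; decide

theorem liftS (hk : k ∈ S0) : ∃ n ∈ 𝐂[z] ⊓ 𝐂[x], n ∈ YY σ ∧ pel π n = k := by
  obtain ⟨n, hn, e⟩ := h.lift0 hk.1
  exact ⟨n, hn, h.S0_Y hn (e ▸ hk), e⟩

theorem decY (hy : y ∈ YY σ) (hz : y ∈ 𝐂[z]) : ∃ q ∈ Q, ∃ n ∈ 𝐂[z] ⊓ 𝐂[x], n ∈ YY σ ∧ h6 (c q) (av 0) = 0 ∧
    pel π n = pel π y ∧ y = q * n := by
  obtain ⟨n, hn, h1, e⟩ := h.liftS (h.Y_S0 hy hz)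
  have := h.mul_inv_mem hz hn.1 e.symm
  exact ⟨_, this, n, hn, h1, (h.Q_Y this).1 (mul_mem hy (inv_mem h1)), e, by group⟩

theorem AA_Y : AA Q c ≤ YY σ := fun y hy =>
  ⟨mem_cent1_iff.2 (h.AA_comm hy (h.s_AA (inU_av 0))), mem_cent1_iff.2 (h.AA_comm hy (h.s_AA ((inU_av 0).smul w)))⟩

theorem z_Y : z ∈ YY σ := h.AA_Y h.z_AA
theorem DL_Y (hy : y ∈ DL z σ) : y ∈ YY σ := by
  obtain ⟨k, hk, rfl⟩ := hy
  exact cj_mem hk h.z_Y
theorem DL_sq (hy : y ∈ DL z σ) : y * y = 1 := by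
  obtain ⟨k, hk, rfl⟩ := hy
  rw [conj_mul, h.zz]; group
theorem DL_inv (hy : y ∈ DL z σ) : y⁻¹ = y := inv_eq_of_mul_eq_one_right (h.DL_sq hy)
theorem DL_ne (hy : y ∈ DL z σ) : y ≠ 1 := fun e => h.ez.ne_one (by simpa [e] using DL.isConj hy)

theorem mem_AA_of (hq : q ∈ Q) (hn : n ∈ 𝐂[z] ⊓ 𝐂[x]) (h1 : InU (c q)) (h2 : pel π n ∈ AU) : q * n ∈ AA Q c :=
  mul_mem ((h.mem_AA_Q hq).2 h1) (h.lift_AA hn h2)

/-- involutions of `Y ∩ C(z)` are conjugate into `A` -/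
theorem invol_A (hy : y ∈ YY σ) (hz : y ∈ 𝐂[z]) (h2 : y * y = 1) :
    ∃ g ∈ YY σ, g ∈ 𝐂[z] ∧ g * y * g⁻¹ ∈ AA Q c := by
  have key : ∀ y ∈ YY σ, y ∈ 𝐂[z] → y * y = 1 → pel π y ∈ AU → ∃ g ∈ YY σ, g ∈ 𝐂[z] ∧ g * y * g⁻¹ ∈ AA Q c := by
    intro y hy hz h2 hA
    obtain ⟨q, hq, n, hn, h1, h0, e, rfl⟩ := h.decY hy hz
    rw [← e] at hA
    have a1 : q * (n * q * n⁻¹) = 1 := by
      rw [inv_eq_of_mul_eq_one_right (h.lift_sq hn hA), ← h2]; group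
    have a2 := congrArg c a1
    rw [h.mul hq (h.conj_mem hn.1 hq), h.equi hn.1 hq, h.c_one] at a2
    have a3 : pel π n (c q) = c q := by rw [← add_left_inj (c q), add_comm, a2, vadd_self]
    have a4 : q * q = 1 := by
      obtain ⟨f, e⟩ := h.exists_s hq
      rw [← a1, mul_right_inj, e, ← conj_mul, h.conj_c hn, conj_ze hn.1, a3]
    obtain ⟨k, hk, b1, b2⟩ := move_invol (h.Y_S0 h1 hn.1) (AU_sq hA) ((h.sq hq).1 a4) a3 h0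
    obtain ⟨m, hm, b3, rfl⟩ := h.liftS hk
    refine ⟨m, b3, hm.1, ?_⟩
    rw [← conj_mul]
    exact h.mem_AA_of (h.conj_mem hm.1 hq) (cj_mem hm hn) (h.equi hm.1 hq ▸ b2) (by rwa [pel_conj _ hm.1 hn.1])
  obtain ⟨k, hk, b1, -⟩ := move_invol (v := 0) (h.Y_S0 hy hz) (by rw [← pel_mul _ hz hz, h2, pel_one])
    (h_zero_left _) (h.pel_OV y).1.zero (h_zero_left _)
  obtain ⟨m, hm, b3, rfl⟩ := h.liftS hk
  obtain ⟨g, c1, c2, c3⟩ := key _ (cj_mem b3 hy) (cj_mem hm.1 hz) (by rw [conj_mul, h2]; group)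
    (by rwa [pel_conj _ hm.1 hz])
  exact ⟨g * m, mul_mem c1 b3, mul_mem c2 hm.1, by simpa [mul_assoc] using c3⟩

theorem ov_C (o : Ov Q π c x δ r) : δ ∈ 𝐂[z] := by
  obtain ⟨q, hq, n, hn, -, -, rfl⟩ := o.ex
  exact mul_mem (h.le_C hq) hn.1
theorem ov_pel (o : Ov Q π c x δ r) : pel π δ = Ta 0 * tr r := by
  obtain ⟨q, hq, n, hn, -, e, rfl⟩ := o.ex
  rw [h.pel_Q hq hn.1, e]

theorem ov_conj (o : Ov Q π c x δ r) (hg : g ∈ YY σ) (hz : g ∈ 𝐂[z]) :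
    Ov Q π c x (g * δ * g⁻¹) (pel π g r) := by
  have a0 := h.Y_S0 hg hz
  have a1 : h6 (pel π g r) (av 0) = 0 := (S0.h0 a0 r).trans o.h0
  have a2 := (StR.iff (K0_StR a0.1) r).2 o.rt
  refine ⟨a2, a1, fun ⟨a, e⟩ => o.nm ⟨a, (pel π g).injective (by rw [e, S0.smul a0])⟩, ?_⟩
  obtain ⟨q, hq, n, hn, ⟨a, e1⟩, e2, rfl⟩ := o.ex
  obtain ⟨p, hp, m, hm, -, h0, e3, rfl⟩ := h.decY hg hz
  have a3 := cj_mem hm hn
  have a4 : pel π (m * n * m⁻¹) = Ta 0 * tr (pel π (p * m) r) := by rw [pel_conj _ hm.1 hn.1, e2, e3, S0.conj a0]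
  have a5 := h.conj_mem hz hq
  have a6 := h.conj_mem a3.1 (inv_mem hp)
  refine ⟨_, mul_mem a5 (mul_mem hp a6), _, a3, ⟨a + h6 (c p) (pel π (p * m) r), ?_⟩, a4, by group⟩
  rw [h.mul a5 (mul_mem hp a6), h.mul hp a6, h.equi hz hq, h.equi a3.1 (inv_mem hp), h.c_inv hp, a4,
    Ta0_tr a2.iso a1 h0, e1, GU.smul (K0_GU a0.1), ← add_assoc (c p), vadd_self, zero_add, add_smul]

theorem ov_smul (o : Ov Q π c x δ r) {a : F4} (ha : a ≠ 0) : Ov Q π c x δ (a • r) := by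
  refine ⟨o.rt.smul ha, by rw [h_smul_left, o.h0, mul_zero], fun ⟨b, e⟩ => o.nm ⟨a⁻¹ * b, by
    rw [mul_smul, ← e, smul_smul, inv_mul_cancel₀ ha, one_smul]⟩, ?_⟩
  obtain ⟨q, hq, n, hn, ⟨b, e1⟩, e2, rfl⟩ := o.ex
  exact ⟨q, hq, n, hn, ⟨b * a⁻¹, by rw [e1, smul_smul, inv_mul_cancel_right₀ ha]⟩, by rwa [tr_smul o.rt.iso ha], rfl⟩

theorem ov_A (o : Ov Q π c x δ r) (hu : InU r) : δ ∈ AA Q c := by
  obtain ⟨q, hq, n, hn, ⟨b, e1⟩, e2, rfl⟩ := o.ex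
  obtain ⟨i, a, ha, rfl⟩ := rt_inU hu o.rt
  exact h.mem_AA_of hq hn (e1 ▸ hu.smul b) (by rw [e2, tr_smul (iso_av i) ha]; exact TT_AU 0 i)

theorem ov_sim {T : Set G} (h1 : ∀ a ∈ T, ∃ r, Ov Q π c x a r)
    (h2 : ∀ a ∈ T, ∀ b ∈ T, ∀ r s, Ov Q π c x a r → Ov Q π c x b s → h6 r s = 0) :
    ∃ g ∈ YY σ, g ∈ 𝐂[z] ∧ ∀ a ∈ T, g * a * g⁻¹ ∈ AA Q c := by
  obtain ⟨k, hk, e⟩ := move_set (W := {r | ∃ a ∈ T, Ov Q π c x a r})
    (fun r ⟨a, ha, o⟩ s ⟨b, hb, o'⟩ => h2 a ha b hb r s o o') fun r ⟨a, ha, o⟩ => o.h0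
  obtain ⟨m, hm, b3, rfl⟩ := h.liftS hk
  exact ⟨m, b3, hm.1, fun a ha => (h1 a ha).elim fun r o => h.ov_A (h.ov_conj o b3 hm.1) (e r ⟨a, ha, o⟩)⟩

theorem ov_perp (o : Ov Q π c x a r) (o' : Ov Q π c x b s) (e : Commute (pel π a) (pel π b)) : h6 r s = 0 := by
  rw [h.ov_pel o, h.ov_pel o'] at e
  have a1 := Ta0_comm o.rt.iso o.h0
  have a2 := Ta0_comm o'.rt.iso o'.h0
  rw [← tr_comm_iff o.rt.iso o'.rt.iso]
  have a3 := (((Commute.refl (Ta 0)).mul_right a2).mul_left e)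
  rw [← mul_assoc, Ta_sq, one_mul] at a3
  have a4 := a1.symm.mul_right a3
  rwa [← mul_assoc, Ta_sq, one_mul] at a4

theorem pel_comm' (ha : a ∈ 𝐂[z]) (hb : b ∈ 𝐂[z]) (e : Commute a b) : Commute (pel π a) (pel π b) := by
  rw [Commute, SemiconjBy, ← pel_mul _ ha hb, e.eq, pel_mul _ hb ha]

theorem ov_same (o : Ov Q π c x a r) (o' : Ov Q π c x b s) (e : pel π a = pel π b) (v : V6) :
    h6 v r = 0 ↔ h6 v s = 0 := by
  rw [h.ov_pel o, h.ov_pel o', mul_right_inj] at e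
  obtain ⟨t, ht, rfl⟩ := (tr_eq_iff o.rt.iso o'.rt.iso).1 e
  rw [h_smul_right, mul_eq_zero, star_eq_zero, or_iff_right ht]

theorem ov_comm (o : Ov Q π c x a r) (o' : Ov Q π c x b s) : Commute a b ↔ h6 r s = 0 := by
  refine ⟨fun e => h.ov_perp o o' (h.pel_comm' (h.ov_C o) (h.ov_C o') e), fun e => ?_⟩
  obtain ⟨g, -, -, f⟩ := h.ov_sim (T := {a, b}) (by rintro _ (rfl | rfl); exacts [⟨_, o⟩, ⟨_, o'⟩]) (by
    rintro _ (rfl | rfl) _ (rfl | rfl) r' s' p p'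
    · exact h.ov_perp p p' (Commute.refl _)
    · exact (h.ov_same o' p' rfl _).1 (h_eq_zero_comm ((h.ov_same o p rfl _).1 (h_eq_zero_comm e)))
    · exact (h.ov_same o p' rfl _).1 (h_eq_zero_comm ((h.ov_same o' p rfl _).1 e))
    · exact h.ov_perp p p' (Commute.refl _))
  exact (comm_cj g).1 (h.AA_comm (f a (by simp)) (f b (by simp)))

theorem ov_pow (o : Ov Q π c x a r) (o' : Ov Q π c x b s) (e : ¬ Commute a b) : (a * b) ^ 12 = 1 := by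
  have a1 := mul_mem (h.ov_C o) (h.ov_C o')
  have a2 : (a * b) ^ 3 ∈ Q := h.mem_of_pel (pow_mem a1 3) (by
    rw [pel_pow _ a1, pel_mul _ (h.ov_C o) (h.ov_C o'), h.ov_pel o, h.ov_pel o', mul_assoc, ← mul_assoc (tr r),
      ← (Ta0_comm o.rt.iso o.h0).eq, ← mul_assoc, ← mul_assoc, Ta_sq, one_mul]
    exact tr_braid o.rt.iso o'.rt.iso (mt (h.ov_comm o o').2 e))
  obtain ⟨f, e⟩ := h.exists_ze' ((h.zero (mul_mem a2 a2)).1 (by rw [h.mul a2 a2, vadd_self]))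
  rw [show 12 = (3 + 3) + (3 + 3) from rfl, pow_add, pow_add, e, ze_sq h.zz]

end FS

/-- the three special points -/
def T3 : Finset GolayPt := {Gol.pt 1, Gol.pt 2, Gol.pt 3}
theorem mem_T3 {m : ℕ} (hm : m < 24) : Gol.pt m ∈ T3 ↔ m = 1 ∨ m = 2 ∨ m = 3 := by
  revert m; decide +kernel
theorem card_T3 : T3.card = 3 := by decide +kernel
theorem pn_T3 (k : Fin 21) : Gol.pt (pn k) ∉ T3 := by
  rw [mem_T3 (pn_lt k)]; have := pn_ne k; tauto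
theorem exists_pn {p : GolayPt} (h : p ∉ T3) : ∃ k, Gol.pt (pn k) = p := by
  rw [← Gol.pt_ix p, mem_T3 (Gol.ix_lt p), not_or, not_or] at h
  obtain ⟨k, e⟩ := pn_sur _ (Gol.ix_lt p) h.1 h.2.1 h.2.2
  exact ⟨k, by rw [e, Gol.pt_ix]⟩
theorem symm_insert {p : GolayPt} {s : Finset GolayPt} (h : p ∉ s) : insert p s = symmDiff {p} s := by
  ext; simp only [Finset.mem_symmDiff, Finset.mem_insert, Finset.mem_singleton]; grind

namespace FD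
variable (h : FD Q z π c x σ d) {p p' : Fin 21} {m : G}
include h

theorem zb_iff {m : ℕ} (hm : m < 2048) : zb m = true ↔ IsConj z (io z σ d m) := by
  have := h.tb_DB (α := 0) (by simpa using h.al_ga.1) h.ga hm
  rw [DB1_eq] at this
  rw [zb, Bool.and_eq_true, Bool.not_eq_true', Bool.not_eq_true', ← Bool.not_eq_true, ← Bool.not_eq_true, this,
    Gol.beq_iff]
  refine ⟨fun e => by_contra fun f => e.2 ⟨fun k => e.1 (h.io_inj hm (by decide) (k.trans h.io_zero.symm)), f⟩,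
    fun e => ⟨fun f => h.ez.ne_one ?_, fun f => f.2 e⟩⟩
  simpa [f, h.io_zero] using e
theorem zb_false {m : ℕ} (hm : m < 2048) : zb m = false ↔ ¬ IsConj z (io z σ d m) := by
  rw [← h.zb_iff hm, Bool.not_eq_true]

theorem io_64 : io z σ d 64 = z := (h.io_ze 1).trans (ze_one z)
theorem io_1 : io z σ d 1 = σ (av 0) := h.io_u (inU_av 0)
theorem io_2 : io z σ d 2 = σ (w • av 0) := h.io_u ((inU_av 0).smul w)
theorem io_E {e : ℕ} (he : e < 4) (hy : y ∈ YY σ) : y * io z σ d e * y⁻¹ = io z σ d e := by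
  have a1 := mul_inv_eq_iff_eq_mul.2 (mem_cent1_iff.1 hy.1)
  have a2 := mul_inv_eq_iff_eq_mul.2 (mem_cent1_iff.1 hy.2)
  interval_cases e
  · rw [h.io_zero]; group
  · rwa [h.io_1]
  · rwa [h.io_2]
  · rw [show 3 = 1 ^^^ 2 from rfl, h.io_xor, ← conj_mul, h.io_1, h.io_2, a1, a2]
theorem comm_E {e : ℕ} (he : e < 4) (hy : y ∈ YY σ) : Commute y (io z σ d e) := comm_iff_conj.2 (h.io_E he hy)

theorem Pk_A (p : Fin 21) : Pk z σ d p ∈ AA Q c := h.io_mem _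
theorem Pk_zero : Pk z σ d 0 = z := by rw [Pk, dl_zero, h.io_64]
theorem Pk_inj (e : Pk z σ d p = Pk z σ d p') : p = p' := dl_inj (h.io_inj (dl_lt _) (dl_lt _) e)
theorem Pk_comm (p p' : Fin 21) : Commute (Pk z σ d p) (Pk z σ d p') := h.AA_comm (h.Pk_A p) (h.Pk_A p')

theorem nu_pt' {m : ℕ} (hm : m < 24) : nu z σ d {Gol.pt m} = io z σ d (Gol.fld 24 (PT 1) m) := by
  rw [← Gol.fs_two_pow hm, h.nu_fs (m := Nat.pow 2 m) (Nat.pow_lt_pow_right (by decide) hm), xs_two m hm]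
theorem nu_T3 : nu z σ d T3 = z := by
  rw [show T3 = Gol.fs 14 by decide +kernel, h.nu_fs (by decide)]; exact h.io_64
theorem nu_23 : nu z σ d {Gol.pt 2, Gol.pt 3} = σ (av 0) := by
  rw [show {Gol.pt 2, Gol.pt 3} = Gol.fs 12 by decide +kernel, h.nu_fs (by decide), ← h.io_1]; rfl
theorem nu_13 : nu z σ d {Gol.pt 1, Gol.pt 3} = σ (w • av 0) := by
  rw [show {Gol.pt 1, Gol.pt 3} = Gol.fs 10 by decide +kernel, h.nu_fs (by decide), ← h.io_2]; rfl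
theorem Pk_eq (p : Fin 21) : Pk z σ d p = z * nu z σ d {Gol.pt (pn p)} := by
  rw [Pk, dl_eq, h.io_xor, h.io_64, h.nu_pt' (pn_lt p)]
theorem Pk_nu (p : Fin 21) : Pk z σ d p = nu z σ d (insert (Gol.pt (pn p)) T3) := by
  rw [symm_insert (pn_T3 p), symmDiff_comm, h.nu_mul, h.nu_T3, h.Pk_eq]

theorem acts_Y {g : Perm GolayPt} (e : XS.Acts (nu z σ d) m g) : m ∈ YY σ ↔ ∀ p ∈ T3, g p = p := by
  have n1 : Gol.pt 2 ≠ Gol.pt 3 := by decide +kernel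
  have n2 : Gol.pt 1 ≠ Gol.pt 3 := by decide +kernel
  have n3 : Gol.pt 1 ≠ Gol.pt 2 := by decide +kernel
  rw [YY, mem_inf, mem_cent1_iff, mem_cent1_iff, ← mul_inv_eq_iff_eq_mul, ← mul_inv_eq_iff_eq_mul, ← h.nu_13,
    ← h.nu_23, e _ (XS.even_pair n1), e _ (XS.even_pair n2), XS.smul_pair, XS.smul_pair,
    h.todd.pair_eq_iff (g.injective.ne n1) n1, h.todd.pair_eq_iff (g.injective.ne n2) n2]
  simp only [T3, Finset.mem_insert, Finset.mem_singleton, forall_eq_or_imp, forall_eq]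
  refine ⟨fun ⟨a1, a2⟩ => ?_, fun ⟨a1, a2, a3⟩ => by rw [a1, a2, a3]; exact ⟨rfl, rfl⟩⟩
  have b1 := g.injective.ne n1
  have b2 := g.injective.ne n2
  simp only [Finset.ext_iff, Finset.mem_insert, Finset.mem_singleton] at a1 a2
  have c1 := a1 (g (Gol.pt 3))
  have c2 := a2 (g (Gol.pt 3))
  have c3 := a1 (g (Gol.pt 2))
  have c4 := a2 (g (Gol.pt 1))
  grind

theorem acts_Pk {g : Perm GolayPt} (e : XS.Acts (nu z σ d) m g) (hm : m ∈ YY σ)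
    (f : g (Gol.pt (pn p)) = Gol.pt (pn p')) : m * Pk z σ d p * m⁻¹ = Pk z σ d p' := by
  rw [h.Pk_nu, h.Pk_nu, e _ (by rw [Finset.card_insert_of_notMem (pn_T3 p), card_T3]; decide),
    Finset.smul_finset_insert, Perm.smul_def, f]
  congr 2
  refine Finset.eq_of_subset_of_card_le (fun a ha => ?_) (by rw [Finset.card_smul_finset])
  obtain ⟨b, hb, rfl⟩ := Finset.mem_smul_finset.1 ha
  rwa [Perm.smul_def, (h.acts_Y e).1 hm b hb]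

theorem N_Pk (hm : m ∈ YY σ) (hN : m ∈ 𝐍(AA Q c)) (p : Fin 21) : ∃ p', m * Pk z σ d p * m⁻¹ = Pk z σ d p' := by
  obtain ⟨g, e⟩ := h.big.acts hN
  obtain ⟨p', f⟩ := exists_pn (p := g (Gol.pt (pn p))) fun k =>
    pn_T3 p (g.injective ((h.acts_Y e).1 hm _ k) ▸ k)
  exact ⟨p', h.acts_Pk e hm f.symm⟩

theorem move_Pk (p p' : Fin 21) : ∃ m ∈ YY σ, m ∈ 𝐍(AA Q c) ∧ m * Pk z σ d p * m⁻¹ = Pk z σ d p' := by
  obtain ⟨g, hg, e1, e2⟩ := Gol.exists_fix_move (s := T3) (by rw [card_T3]; decide) (pn_T3 p) (pn_T3 p')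
  obtain ⟨m, hm, e⟩ := h.big.onto g hg
  exact ⟨m, (h.acts_Y e).2 e1, hm, h.acts_Pk e ((h.acts_Y e).2 e1) e2⟩

theorem Pk_DL (p : Fin 21) : Pk z σ d p ∈ DL z σ := by
  obtain ⟨m, hm, -, e⟩ := h.move_Pk 0 p
  exact ⟨m, hm, by rwa [h.Pk_zero] at e⟩

theorem DL_A (hδ : δ ∈ DL z σ) (hA : δ ∈ AA Q c) : ∃ p, Pk z σ d p = δ := by
  obtain ⟨g, hg, rfl⟩ := hδ
  obtain ⟨m, hm, e⟩ := h.fusion h.AA_Y hg h.z_AA hA
  obtain ⟨p, f⟩ := h.N_Pk hm.1 hm.2 0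
  exact ⟨p, by rw [← f, h.Pk_zero, e]⟩

theorem ov_Pk (hp : p ≠ 0) : Ov Q π c x (Pk z σ d p) (av (pk p)) := by
  have a1 := mul_mem (h.ze_Q 1) (mul_mem (h.mem (pL (pn p) • av (pk p))) (h.ze_Q (nn (pL (pn p)))))
  refine ⟨rt_av _, (inU_av _).h (inU_av _), fun ⟨a, e⟩ => ?_, _, a1, _, h.dm 0 (pk p), ⟨pL (pn p), ?_⟩, h.dp _ _, ?_⟩
  · exact one_ne_zero (av_li (pk_ne p hp) (a := 1) (b := a) (by rw [one_smul, e, vadd_self])).1
  · rw [ze_comm (h.le_C (mul_mem (h.mem _) (h.ze_Q _))), h.c_ze (mul_mem (h.mem _) (h.ze_Q _)), h.c_ze (h.mem _), h.c_s]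
  · rw [h.Pk_eq, h.nu_pt (pn_lt p), ze_one, ← mul_assoc]; rfl

theorem exists_ov (hδ : δ ∈ DL z σ) (hz : Commute δ z) (e : δ ≠ z) : ∃ r, Ov Q π c x δ r := by
  obtain ⟨g, g1, g2, g3⟩ := h.invol_A (h.DL_Y hδ) (mem_cent1_iff.2 hz) (h.DL_sq hδ)
  obtain ⟨p, f⟩ := h.DL_A (DL.conj hδ g1) g3
  have := h.ov_conj (h.ov_Pk (p := p) (by
    rintro rfl
    exact (cj_ne g).2 e (by rw [← f, h.Pk_zero, mem_cent1_iff.1 g2, mul_inv_cancel_right]))) (inv_mem g1) (inv_mem g2)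
  exact ⟨_, by simpa [f, mul_assoc] using this⟩

theorem exists_over (h1 : Rt r) (h0 : h6 r (av 0) = 0) (h2 : ¬ ∃ a : F4, r = a • av 0) :
    ∃ y ∈ DL z σ, Ov Q π c x y r := by
  obtain ⟨k, hk, e⟩ := move_one h1.iso.1 h0
  obtain ⟨m, hm, b3, rfl⟩ := h.liftS hk
  obtain ⟨i, a, ha, f⟩ := rt_inU e ((StR.iff (K0_StR hk.1) r).2 h1)
  obtain ⟨p, hp, rfl⟩ := pk_sur i (by
    rintro rfl
    exact h2 ⟨a, (pel π m).injective (by rw [f, S0.smul hk])⟩)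
  have := h.ov_conj (h.ov_smul (h.ov_Pk hp) ha) (inv_mem b3) (inv_mem hm.1)
  rw [← f, pel_inv _ hm.1, Perm.inv_def, symm_apply_apply] at this
  exact ⟨_, DL.conj (h.Pk_DL p) (inv_mem b3), this⟩

/-- simultaneous conjugation into the plane -/
theorem sim {T : Set G} (ha : a ∈ DL z σ) (hT : ∀ b ∈ T, b ∈ DL z σ ∧ Commute b a)
    (h2 : ∀ b ∈ T, ∀ b' ∈ T, Commute b b') :
    ∃ g ∈ YY σ, g * a * g⁻¹ = z ∧ ∀ b ∈ T, ∃ p, g * b * g⁻¹ = Pk z σ d p := by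
  obtain ⟨g, hg, e⟩ := DL.back ha
  obtain ⟨k, k1, k2, k3⟩ := h.ov_sim (T := {y | y ≠ z ∧ ∃ b ∈ T, g * b * g⁻¹ = y}) (by
    rintro _ ⟨f, b, hb, rfl⟩
    exact h.exists_ov (DL.conj (hT b hb).1 hg) (e ▸ (comm_cj g).2 (hT b hb).2) f) (by
    rintro _ ⟨-, b, hb, rfl⟩ _ ⟨-, b', hb', rfl⟩ r s o o'
    exact (h.ov_comm o o').1 ((comm_cj g).2 (h2 b hb b' hb')))
  have a1 : k * z * k⁻¹ = z := by rw [mem_cent1_iff.1 k2, mul_inv_cancel_right]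
  refine ⟨k * g, mul_mem k1 hg, by rw [← a1, ← e]; group, fun b hb => ?_⟩
  obtain ⟨p, f⟩ := h.DL_A (δ := k * (g * b * g⁻¹) * k⁻¹) (DL.conj (DL.conj (hT b hb).1 hg) k1) (by
    by_cases f : g * b * g⁻¹ = z
    · rw [f, a1]; exact h.z_AA
    · exact k3 _ ⟨f, b, hb, rfl⟩)
  exact ⟨p, by rw [f]; group⟩

end FD

end CA.F24
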