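/-
Groups of large Fischer type: the Thompson subgroup of a Sylow `2`-subgroup.
-/
import Cfsg.Agent.Lib.F24.Tod
import Cfsg.Agent.Lib.Loc.Repl

set_option autoImplicit false
set_option linter.unusedSectionVars false
set_option linter.unusedVariables false
set_option linter.style.haveILetI false

namespace CA.F24

open Cfsg Equiv Subgroup CA CA.Fi CA.Unit CA.Fi.F4 CA.Ex2
open scoped Pointwise

variable {G : Type*} [Group G]

theorem quot_pmap {G' : Type*} [Group G'] {D X A : Subgroup G} (f : D →* G') (hX : X ≤ D) (e : pker f = A) :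
    ∃ _ : (A.subgroupOf X).Normal, Nonempty (X ⧸ A.subgroupOf X ≃* pmap f X) := by
  subst e
  have := pmapHom_ker f hX
  haveI : ((pker f).subgroupOf X).Normal := this ▸ inferInstance
  exact ⟨inferInstance, ⟨(QuotientGroup.quotientMulEquivOfEq (pmapHom_ker f hX).symm).trans
    (QuotientGroup.quotientKerEquivOfSurjective _ (pmapHom_surjective f hX))⟩⟩

theorem cj_stab (g : Perm GolayPt) (hg : g ∈ M24) (s : Set GolayPt) :
    cj g (M24 ⊓ MulAction.stabilizer (Perm GolayPt) s) = M24 ⊓ MulAction.stabilizer (Perm GolayPt) (g • s) := by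
  rw [cj_inf, cj_eq_of_mem hg]
  congr 1
  ext k
  rw [mem_cj, MulAction.mem_stabilizer_iff, MulAction.mem_stabilizer_iff, mul_smul, mul_smul, inv_smul_eq_iff]

variable [Finite G] {z : G} {A : Subgroup G} {ν : Finset GolayPt → G}

theorem Big.thompson (h : Big z A ν) (T : Sylow 2 G) : ∃ g, thompsonSubgroupOf 2 (T : Subgroup G) = CA.cj g A := by
  obtain ⟨g, hg⟩ : ∃ g, CA.cj g A ≤ T := by
    obtain ⟨S, hS⟩ := (pg_of_sq fun a => h.mul_self).exists_le_sylow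
    obtain ⟨g, rfl⟩ := MulAction.exists_smul_eq G S T
    exact ⟨g, cj_mono g hS⟩
  have k := h.cj g
  have a1 : ∀ B ≤ (T : Subgroup G), IsElementaryAbelian 2 B → 2 ^ 11 ≤ Nat.card B → B = CA.cj g A := fun B h1 h2 =>
    k.uq T.isPGroup' hg h1 fun b hb => by rw [← pow_two, h2.2 b hb]
  refine ⟨g, (Loc.thompsonSubgroupOf_eq _).trans (le_antisymm (sSup_le fun B hB => ?_) (Loc.le_Je ?_))⟩
  · obtain ⟨h1, h2, h3⟩ := Loc.mem_AE_iff.1 hB
    exact (a1 B h1 h2 (k.card ▸ h3 _ hg k.elem)).le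
  · refine Loc.mem_AE_iff.2 ⟨hg, k.elem, fun B h1 h2 => ?_⟩
    by_contra e
    rw [a1 B h1 h2 (by rw [k.card] at e; omega)] at e
    exact e le_rfl

theorem big_J {Q : Subgroup ↥𝐂[z]} [Q.Normal] (hF : IsOfLargeFischerTypeAt z Q) (T : Sylow 2 G) :
    ∃ ν, Big z (thompsonSubgroupOf 2 (T : Subgroup G)) ν := by
  obtain ⟨π, c, h⟩ := ft_of hF
  obtain ⟨ν, k⟩ := h.exists_big
  obtain ⟨g, e⟩ := k.thompson T
  exact ⟨_, e ▸ k.cj g⟩

theorem Big.pmap_cent (h : Big z A ν) {μ : ↥𝐍(A) →* Perm GolayPt} (h1 : μ.range = M24)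
    (h2 : ∀ m ∈ 𝐍(A), XS.Acts ν m (pel μ m)) {s : Finset GolayPt} (hs : s.card = 2) :
    pmap μ (𝐍(A) ⊓ 𝐂[ν s]) = M24 ⊓ MulAction.stabilizer (Perm GolayPt) (s : Set GolayPt) := by
  have a1 : ∀ m ∈ 𝐍(A), m ∈ 𝐂[ν s] ↔ pel μ m ∈ MulAction.stabilizer (Perm GolayPt) (s : Set GolayPt) := fun m hm => by
    rw [← conj_eq_iff_mem_cent1, h2 m hm s (hs ▸ even_two), MulAction.mem_stabilizer_iff, ← Finset.coe_smul_finset,
      Finset.coe_inj]
    exact ⟨h.eq_of_small (by rw [Gol.card_smul, hs]; decide) (hs ▸ even_two) (by rw [Gol.card_smul]; omega),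
      congrArg ν⟩
  ext g
  rw [mem_pmap_of_le inf_le_left, ← h1]
  refine ⟨fun ⟨m, hm, e⟩ => e ▸ ⟨pel_of_mem μ hm.1 ▸ ⟨_, rfl⟩, (a1 m hm.1).1 hm.2⟩, fun ⟨⟨m, e⟩, hg⟩ => ?_⟩
  exact ⟨m, ⟨m.2, (a1 m m.2).2 (by rwa [pel_coe, e])⟩, by rw [pel_coe, e]⟩

end CA.F24
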