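/-
Groups of large Fischer type: the conjugates of `z` in the centraliser of `E` are 3-transpositions.
-/
import Cfsg.Agent.Lib.F24.Dl
import Cfsg.Agent.Lib.Fth.Unit3
import Cfsg.Agent.Lib.Fth.Ident
import Cfsg.Agent.Lib.FStar.Invol

set_option autoImplicit false
set_option linter.unusedSectionVars false
set_option linter.unusedVariables false

namespace CA.F24

open Cfsg Equiv Subgroup CA CA.Fi CA.Unit CA.Fi.F4 CA.Ex2

variable {G : Type*} [Group G]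

theorem cj3 (g a b e : G) : g * a * g⁻¹ * (g * b * g⁻¹) * (g * e * g⁻¹) = g * (a * b * e) * g⁻¹ := by group
theorem cj4 (g a b e f : G) : g * a * g⁻¹ * (g * b * g⁻¹) * (g * e * g⁻¹) * (g * f * g⁻¹) =
    g * (a * b * e * f) * g⁻¹ := by group
theorem comm_of_mul {a b y : G} (h1 : Commute y (a * b)) (h2 : Commute y b) : Commute y a := by
  simpa using h1.mul_right h2.inv_right
theorem comm_of_mul' {a b y : G} (h1 : Commute y (a * b)) (h2 : Commute y a) : Commute y b := by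
  simpa using h2.inv_right.mul_right h1
theorem comm_cj' {g a b : G} : Commute a (g * b * g⁻¹) ↔ Commute (g⁻¹ * a * g⁻¹⁻¹) b := by
  rw [← comm_cj g⁻¹]; simp [mul_assoc]

variable [Finite G] {Q : Subgroup G} {z x : G} {π : ↥𝐂[z] →* Perm V6} {c : G → V6} {σ : V6 → G}
variable {a b e f t y g δ γ : G} {r s : V6} {d : Fin 6 → Fin 6 → G} {i j : Fin 6}

namespace FD
variable (h : FD Q z π c x σ d) {p q : Fin 21} {m : ℕ}
include h

theorem sim1 (ha : a ∈ DL z σ) (hb : b ∈ DL z σ) (h1 : Commute b a) :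
    ∃ g ∈ YY σ, ∃ p, g * a * g⁻¹ = z ∧ g * b * g⁻¹ = Pk z σ d p := by
  obtain ⟨g, hg, e1, e2⟩ := h.sim (T := {b}) ha (by rintro _ rfl; exact ⟨hb, h1⟩) (by rintro _ rfl _ rfl; rfl)
  obtain ⟨p, e3⟩ := e2 b rfl
  exact ⟨g, hg, p, e1, e3⟩

theorem sim3 (ha : a ∈ DL z σ) (hb : b ∈ DL z σ) (he : e ∈ DL z σ) (hf : f ∈ DL z σ) (h1 : Commute b a)
    (h2 : Commute e a) (h3 : Commute f a) (h4 : Commute b e) (h5 : Commute b f) (h6 : Commute e f) :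
    ∃ g ∈ YY σ, ∃ p q s, g * a * g⁻¹ = z ∧ g * b * g⁻¹ = Pk z σ d p ∧ g * e * g⁻¹ = Pk z σ d q ∧
      g * f * g⁻¹ = Pk z σ d s := by
  obtain ⟨g, hg, e1, e2⟩ := h.sim (T := {b, e, f}) ha
    (by rintro _ (rfl | rfl | rfl); exacts [⟨hb, h1⟩, ⟨he, h2⟩, ⟨hf, h3⟩])
    (by rintro _ (rfl | rfl | rfl) _ (rfl | rfl | rfl)
        exacts [rfl, h4, h5, h4.symm, rfl, h6, h5.symm, h6.symm, rfl])
  obtain ⟨p, e3⟩ := e2 b (by simp)
  obtain ⟨q, e4⟩ := e2 e (by simp)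
  obtain ⟨s, e5⟩ := e2 f (by simp)
  exact ⟨g, hg, p, q, s, e1, e3, e4, e5⟩

theorem sim2 (ha : a ∈ DL z σ) (hb : b ∈ DL z σ) (he : e ∈ DL z σ) (h1 : Commute b a)
    (h2 : Commute e a) (h4 : Commute b e) :
    ∃ g ∈ YY σ, ∃ p q, g * a * g⁻¹ = z ∧ g * b * g⁻¹ = Pk z σ d p ∧ g * e * g⁻¹ = Pk z σ d q := by
  obtain ⟨g, hg, p, q, -, e1, e2, e3, -⟩ := h.sim3 ha hb he he h1 h2 h2 h4 h4 rfl
  exact ⟨g, hg, p, q, e1, e2, e3⟩

theorem zb3 (s p q : Fin 21) : zb (dl s ^^^ dl p ^^^ dl q) = false ↔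
    ¬ IsConj z (Pk z σ d s * Pk z σ d p * Pk z σ d q) := by
  rw [h.zb_false (xor_lt11 (xor_lt11 (dl_lt _) (dl_lt _)) (dl_lt _)), h.io_xor, h.io_xor]; rfl

theorem zb0 (p q : Fin 21) : zb (64 ^^^ dl p ^^^ dl q) = false ↔ ¬ IsConj z (z * Pk z σ d p * Pk z σ d q) := by
  rw [← dl_zero, h.zb3, h.Pk_zero]
theorem z_Pk (p : Fin 21) : Commute z (Pk z σ d p) := h.AA_comm h.z_AA (h.Pk_A p)
theorem io4 (p q s : Fin 21) : io z σ d (64 ^^^ dl p ^^^ dl q ^^^ dl s) = z * Pk z σ d p * Pk z σ d q * Pk z σ d s := by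
  rw [h.io_xor, h.io_xor, h.io_xor, h.io_64]; rfl

theorem comm_Pk (o : Ov Q π c x δ r) (hp : p ≠ 0) : Commute δ (Pk z σ d p) ↔ h6 r (av (pk p)) = 0 :=
  h.ov_comm o (h.ov_Pk hp)

/-- lines are closed -/
theorem lineC (ha : a ∈ DL z σ) (hb : b ∈ DL z σ) (he : e ∈ DL z σ) (hδ : δ ∈ DL z σ) (h1 : Commute b a)
    (h2 : Commute e a) (h3 : Commute b e) (hn : ¬ IsConj z (a * b * e)) (h4 : Commute δ a) (h5 : Commute δ b) :
    Commute δ e := by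
  obtain ⟨g, hg, p, q, e1, e2, e3⟩ := h.sim2 ha hb he h1 h2 h3
  rw [← isConj_conj _ _ g, ← cj3, e1, e2, e3] at hn
  rw [← comm_cj g] at h4 h5 ⊢
  rw [e1] at h4; rw [e2] at h5; rw [e3]
  by_cases k : g * δ * g⁻¹ = z
  · rw [k]; exact h.z_Pk _
  obtain ⟨r, o⟩ := h.exists_ov (DL.conj hδ hg) h4 k
  by_cases k1 : q = 0
  · rwa [k1, h.Pk_zero]
  by_cases k2 : p = q
  · rwa [← k2]
  have k3 : p ≠ 0 := by
    rintro rfl
    exact hn (by rw [h.Pk_zero, h.zz, one_mul]; exact DL.isConj (h.Pk_DL q))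
  rw [h.comm_Pk o k1, ← (pk_eq p q k3 k1 k2).2 ((h.zb0 _ _).2 hn)]
  exact (h.comm_Pk o k3).1 h5

theorem lemC (ha : a ∈ DL z σ) (hb : b ∈ DL z σ) (hγ : γ ∈ DL z σ) (hδ : δ ∈ DL z σ) (hab : a ≠ b)
    (h1 : Commute a γ) (h2 : Commute b γ) (h3 : Commute a b) (h4 : Commute δ γ) (h5 : Commute δ (a * b)) :
    Commute δ a := by
  obtain ⟨g, hg, p, q, e1, e2, e3⟩ := h.sim2 hγ ha hb h1 h2 h3
  rw [← cj_ne g, e2, e3] at hab
  rw [← comm_cj g] at h4 h5 ⊢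
  rw [e1] at h4; rw [← conj_mul, e2, e3] at h5; rw [e2]
  by_cases k : g * δ * g⁻¹ = z
  · rw [k]; exact h.z_Pk _
  obtain ⟨r, o⟩ := h.exists_ov (DL.conj hδ hg) h4 k
  by_cases k1 : p = 0
  · rwa [k1, h.Pk_zero]
  by_cases k2 : q = 0
  · exact comm_of_mul h5 (by rwa [k2, h.Pk_zero])
  have k3 : p ≠ q := mt (congrArg _) hab
  have a1 := h.ov_C (h.ov_Pk k1)
  have a2 := h.ov_C (h.ov_Pk k2)
  rw [h.comm_Pk o k1]
  by_cases k4 : pk p = pk q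
  · have a3 : Pk z σ d p * Pk z σ d q = σ ((pL (pn p) + pL (pn q)) • av (pk p)) * ze z (nn (pL (pn p)) + nn (pL (pn q))) := by
      have := h.nu_pair (pn_lt p) (pn_lt q) (pn_inj.ne k3)
      rw [symm_insert (by simpa using fun k => pn_inj.ne k3 (Gol.pt_inj (pn_lt p) (pn_lt q) k)), h.nu_mul,
        show pI (pn q) = pk p from k4.symm, show pI (pn p) = pk p from rfl, h.d1, mul_one, ← add_smul] at this
      rw [h.Pk_eq, h.Pk_eq, mul_assoc, ← mul_assoc _ z, h.AA_comm (a := nu z σ d _) (h.io_mem _) h.z_AA, ← mul_assoc,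
        ← mul_assoc, h.zz, one_mul, ← this]
    have a4 := h.equi (h.ov_C o) (mul_mem (h.mem ((pL (pn p) + pL (pn q)) • av (pk p))) (h.ze_Q (nn (pL (pn p)) + nn (pL (pn q)))))
    rw [← a3, comm_iff_conj.1 h5, a3, h.c_ze (h.mem _), h.c_s, h.ov_pel o,
      Ta0_tr o.rt.iso o.h0 (((inU_av _).smul _).h (inU_av 0)), left_eq_add, smul_eq_zero, or_iff_left o.rt.iso.2,
      h_smul_left, mul_eq_zero, or_iff_right (pL_ne p q k3 k4)] at a4
    exact h_eq_zero_comm a4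
  · have a3 := h.pel_comm' (h.ov_C o) (mul_mem a1 a2) h5
    rw [pel_mul _ a1 a2, h.ov_pel o, h.ov_pel (h.ov_Pk k1), h.ov_pel (h.ov_Pk k2)] at a3
    change Commute _ (Ta 0 * Ta _ * (Ta 0 * Ta _)) at a3
    rw [Ta_tri] at a3
    exact perp_of_comm o.rt.iso k4 (comm_of_mul' a3.symm (Commute.mul_left (Ta_comm _ _) (Ta_comm _ _)))

theorem fixP (hy : y ∈ YY σ) (hN : y ∈ 𝐍(AA Q c)) (h2 : y * y = 1) : ∃ p, Commute y (Pk z σ d p) := by
  choose f hf using h.N_Pk hy hN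
  by_contra k
  have := Fth.even_of_invol (A := Set.univ) Set.finite_univ f (fun _ _ => trivial) (fun p _ => h.Pk_inj (by
    rw [← hf, ← hf, ← mul_assoc, ← mul_assoc, h2, mul_assoc, ← mul_inv_rev, h2]; group)) fun p _ e =>
      k ⟨p, comm_iff_conj.2 (by rw [hf, e])⟩
  revert this; simp only [Set.ncard_univ, Nat.card_eq_fintype_card, Fintype.card_fin]; decide

theorem pel_ne (he : e ∈ AA Q c) (h1 : e ≠ 1) (h2 : ¬ IsConj z e) (h3 : IsConj z (e * z)) : pel π e ≠ 1 := by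
  intro k
  have hq := h.mem_of_pel (h.AA_le he) k
  obtain ⟨f, e1⟩ := h.exists_s hq
  have hu := (h.mem_AA_Q hq).1 he
  rw [e1, mul_assoc, show ze z f * z = ze z (f + 1) by rw [ze_add h.zz, ze_one], h.conj_s hu] at h3
  rw [e1, h.conj_s hu] at h2
  split_ifs at h2 h3 with k1
  · rw [k1, h.s_zero, (z2_cases f).resolve_right h2, ze_zero, one_mul] at e1
    exact h1 e1
  · exact h2 h3

theorem lemP (hm : m < 2048) (hp : pty m = true) (hy : y ∈ YY σ) (hc : Commute y (io z σ d m)) :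
    y ∈ 𝐍(AA Q c) := by
  simp only [pty, Bool.and_eq_true] at hp
  obtain ⟨⟨⟨p0, p1⟩, p2⟩, p3⟩ := hp
  have z0 := (h.zb_iff hm).1 p0
  obtain ⟨g, hg, e⟩ := h.big.orb (h.io_mem m) h.z_AA (fun k => h.ez.ne_one (by simpa [k] using z0)) h.ez.ne_one
    (iff_of_true z0 (IsConj.refl z))
  have a0 : ∀ k, g * io z σ d k * g⁻¹ ∈ AA Q c := fun k => (mem_normalizer_iff.1 hg _).1 (h.io_mem k)
  have a1 : ∀ k < 4, k ≠ 0 → zb (m ^^^ k) = true → pel π (g * io z σ d k * g⁻¹) ≠ 1 := fun k hk k0 f =>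
    h.pel_ne (a0 k) (fun l => k0 (h.io_inj (by omega) (by decide) (by simpa [h.io_zero] using l)))
      (by rw [isConj_conj, ← h.zb_false (by omega)]; interval_cases k <;> first | contradiction | decide +kernel)
      (by
        rw [h.zb_iff (xor_lt11 hm (by omega)), Nat.xor_comm, h.io_xor, ← isConj_conj _ _ g, ← conj_mul, e] at f
        exact f)
  have a2 : g * y * g⁻¹ ∈ 𝐂[z] := mem_cent1_iff.2 (e ▸ (comm_cj g).2 hc)
  have a3 : zpowers (g * y * g⁻¹) ≤ 𝐍(Q ⊓ AA Q c) := norms_of_conj fun u hu q hq => by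
    have hu' : u ∈ 𝐂[z] := (zpowers_le.2 a2) hu
    have b1 := h.conj_mem hu' hq.1
    have b2 : ∀ k < 4, pel π (g * io z σ d k * g⁻¹) (c (u * q * u⁻¹)) = c (u * q * u⁻¹) := fun k hk => by
      rw [← h.equi (h.AA_le (a0 k)) b1, comm_iff_conj.1 (comm_cj'.2 ?_)]
      obtain ⟨n, rfl⟩ := hu
      rw [inv_inv, ← ((comm_cj g).2 (h.comm_E hk hy)).zpow_left n |>.inv_left.eq.symm, inv_mul_cancel_right]
      exact h.AA_comm (a0 k) hq.2
    refine ⟨b1, (h.mem_AA_Q b1).2 (inU_of_fix2 (h.pel_AU (a0 1)) (h.pel_AU (a0 2)) (a1 1 (by decide) (by decide) p1)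
      (a1 2 (by decide) (by decide) p2) (fun k => a1 3 (by decide) (by decide) p3 ?_) (b2 1 (by decide))
      (b2 2 (by decide)))⟩
    rw [show 3 = 1 ^^^ 2 from rfl, h.io_xor, ← conj_mul, pel_mul _ (h.AA_le (a0 1)) (h.AA_le (a0 2)), k,
      AU_sq (h.pel_AU (a0 2))]
  have a4 : g * y * g⁻¹ ∈ 𝐍(AA Q c) := h.cent_QA ▸ normalizer_le_normalizer_centralizer _ (a3 (mem_zpowers _))
  simpa [mul_assoc] using cj_mem (inv_mem hg) a4

theorem lemK (ha : a ∈ DL z σ) (hb : b ∈ DL z σ) (he : e ∈ DL z σ) (hf : f ∈ DL z σ) (hδ : δ ∈ DL z σ)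
    (hab : a ≠ b) (hef : f ≠ e) (h1 : Commute a e) (h2 : Commute b e) (h3 : Commute f e) (h4 : Commute a b)
    (h5 : Commute a f) (h6 : Commute b f) (hn : ¬ IsConj z (e * a * b)) (h7 : Commute δ (a * b))
    (h8 : Commute δ (e * f * a * b)) : f = a ∨ f = b ∨ Commute δ a := by
  obtain ⟨g, hg, p, q, s, e1, e2, e3, e4⟩ := h.sim3 he ha hb hf h1 h2 h3 h4 h5 h6
  have key : ∀ k, Commute (g * δ * g⁻¹) (Pk z σ d k) → Commute δ a := fun k hk =>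
    h.lemC ha hb (DL.conj (h.Pk_DL k) (inv_mem hg)) hδ hab (comm_cj'.2 (by rw [inv_inv, e2]; exact h.Pk_comm _ _))
      (comm_cj'.2 (by rw [inv_inv, e3]; exact h.Pk_comm _ _)) h4 (comm_cj'.2 (by rwa [inv_inv])) h7
  rw [← isConj_conj _ _ g, ← cj3, e1, e2, e3, ← h.zb0] at hn
  rw [← comm_cj g, ← cj4, e1, e2, e3, e4, ← h.io4] at h8
  rcases ck1 p q (fun k => (cj_ne g).2 hab (by rw [e2, e3, k])) hn s
    (fun k => (cj_ne g).2 hef (by rw [e1, e4, k, h.Pk_zero])) with k | k | k | ⟨l, k⟩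
  · exact Or.inl (by simpa [← e2, k] using e4)
  · exact Or.inr (Or.inl (by simpa [← e3, k] using e4))
  · obtain ⟨l, hl⟩ := h.fixP (h.DL_Y (DL.conj hδ hg)) (h.lemP (xor_lt11 (xor_lt11 (xor_lt11 (by decide) (dl_lt _))
      (dl_lt _)) (dl_lt _)) k (h.DL_Y (DL.conj hδ hg)) h8) (h.DL_sq (DL.conj hδ hg))
    exact Or.inr (Or.inr (key l hl))
  · exact Or.inr (Or.inr (key l (by rwa [Pk, k])))

theorem exists_line (ha : a ∈ DL z σ) (hb : b ∈ DL z σ) (hab : a ≠ b) (h1 : Commute a b) :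
    ∃ e ∈ DL z σ, ∃ f ∈ DL z σ, e ≠ f ∧ (Commute e a ∧ Commute e b) ∧ (Commute f a ∧ Commute f b) ∧ Commute e f ∧
      ¬ IsConj z (e * a * b) ∧ ¬ IsConj z (f * a * b) ∧ a * b * e * f ∈ DL z σ := by
  obtain ⟨g, hg, p, e1, e2⟩ := h.sim1 ha hb h1.symm
  obtain ⟨q, s, k1, k2, k3, l, k4⟩ := ck3 p (by rintro rfl; exact (cj_ne g).2 hab (by rw [e1, e2, h.Pk_zero]))
  rw [← dl_zero, h.zb3, h.Pk_zero] at k2 k3
  obtain rfl : a = g⁻¹ * z * g⁻¹⁻¹ := by rw [← e1]; group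
  obtain rfl : b = g⁻¹ * Pk z σ d p * g⁻¹⁻¹ := by rw [← e2]; group
  refine ⟨_, DL.conj (h.Pk_DL q) (inv_mem hg), _, DL.conj (h.Pk_DL s) (inv_mem hg), (cj_ne _).2 (mt h.Pk_inj k1),
    ⟨(comm_cj _).2 (h.z_Pk _).symm, (comm_cj _).2 (h.Pk_comm _ _)⟩,
    ⟨(comm_cj _).2 (h.z_Pk _).symm, (comm_cj _).2 (h.Pk_comm _ _)⟩, (comm_cj _).2 (h.Pk_comm _ _),
    by rwa [cj3, isConj_conj], by rwa [cj3, isConj_conj], ?_⟩
  rw [cj4, ← h.io4, ← k4]
  exact DL.conj (h.Pk_DL l) (inv_mem hg)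

theorem odd_conj (ha : a ∈ DL z σ) (hb : b * b = 1) (h1 : Commute a t) (h2 : Commute b t)
    (ho : Odd (orderOf (a * b))) : IsConj z (a * t) ↔ IsConj z (b * t) := by
  obtain ⟨k, e⟩ := Inv.conj_of_odd (h.DL_sq ha) hb ho
  rw [← e, ← isConj_conj z (a * t) ((a * b) ^ k), ← conj_mul, comm_iff_conj.1 ((h1.mul_left h2).zpow_left k)]

theorem even_cent (ha : a ∈ DL z σ) (hb : b ∈ DL z σ) (ho : ¬ Odd (orderOf (a * b))) :
    ∃ e ∈ DL z σ, e ≠ b ∧ Commute e b ∧ Commute a (b * e) ∧ IsConj z (a * b * e) ∧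
      ∀ t, Commute a t → Commute b t → Commute e t := by
  obtain ⟨j, ⟨n, e1, -⟩, e2, e3, e4, e5, e6, e7⟩ := Inv.exists_central_of_even (h.DL_sq ha) (h.DL_sq hb) ho
  have a0 : ∀ k : ℤ, (a * b) ^ k ∈ YY σ := fun k => zpow_mem (mul_mem (h.DL_Y ha) (h.DL_Y hb)) k
  have a1 : b * (j * b) = j := by rw [← e5.eq, ← mul_assoc, h.DL_sq hb, one_mul]
  refine ⟨j * b, e7.elim (fun ⟨k, f⟩ => f ▸ DL.conj ha (a0 k)) fun ⟨k, f⟩ => f ▸ DL.conj hb (a0 k), by simpa,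
    e5.symm.mul_left rfl, by rwa [a1], ?_, fun t h1 h2 => (e1 ▸ (h1.mul_left h2).pow_left n).mul_left h2⟩
  rw [mul_assoc, a1, e4.eq]
  exact DL.isConj (e6.elim (fun ⟨k, f⟩ => f ▸ DL.conj ha (a0 k)) fun ⟨k, f⟩ => f ▸ DL.conj hb (a0 k))

theorem core (ha : a ∈ DL z σ) (hb : b ∈ DL z σ) (he : e ∈ DL z σ) (hδ : δ ∈ DL z σ) (hab : a ≠ b)
    (h1 : Commute e a) (h2 : Commute e b) (h4 : Commute a b) (hn : ¬ IsConj z (e * a * b)) (h7 : Commute δ (a * b))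
    (hz : IsConj z (δ * a * b)) : Commute δ a ∨ Commute δ (e * a) := by
  obtain ⟨f, hf, k1, k2, k3, -, k4⟩ := h.even_cent hδ he fun ho => hn (by
    rw [mul_assoc] at hz ⊢
    exact (h.odd_conj hδ (h.DL_sq he) h7 (h1.mul_right h2) ho).1 hz)
  have a1 := k4 _ h7 (h1.mul_right h2)
  have a2 := h.lemC ha hb he hf hab h1.symm h2.symm h4 k2 a1
  rcases h.lemK ha hb he hf hδ hab k1 h1.symm h2.symm k2 h4 a2.symm (comm_of_mul' a1 a2).symm hn h7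
    (by rw [mul_assoc]; exact k3.mul_right h7) with rfl | rfl | k
  · exact Or.inr k3
  · refine Or.inr ?_
    have := k3.mul_right (h4.eq ▸ h7)
    rwa [mul_assoc, ← mul_assoc f, h.DL_sq hf, one_mul] at this
  · exact Or.inl k

theorem case1 (ha : a ∈ DL z σ) (hb : b ∈ DL z σ) (hδ : δ ∈ DL z σ) (hab : a ≠ b) (h4 : Commute a b)
    (h7 : Commute δ (a * b)) (hz : IsConj z (δ * a * b)) : Commute δ a := by
  obtain ⟨e, he, f, hf, -, k1, k2, k3, k4, k5, k6⟩ := h.exists_line ha hb hab h4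
  refine (h.core ha hb he hδ hab k1.1 k1.2 h4 k4 h7 hz).elim id fun l1 =>
    (h.core ha hb hf hδ hab k2.1 k2.2 h4 k5 h7 hz).elim id fun l2 => ?_
  refine h.lemC ha hb k6 hδ hab ((((Commute.refl a).mul_right h4).mul_right k1.1.symm).mul_right k2.1.symm)
    (((h4.symm.mul_right rfl).mul_right k1.2.symm).mul_right k2.2.symm) h4 ?_ h7
  have := l1.mul_right (k2.1.eq ▸ l2)
  rw [mul_assoc, ← mul_assoc a, h.DL_sq ha, one_mul] at this
  rw [mul_assoc]; exact h7.mul_right this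

theorem comm_of_even (ha : a ∈ DL z σ) (hb : b ∈ DL z σ) (ho : ¬ Odd (orderOf (a * b))) : Commute a b := by
  obtain ⟨f, hf, k1, k2, k3, k4, -⟩ := h.even_cent ha hb ho
  exact h.case1 hb hf ha k1.symm k2.symm k3 k4

theorem lemOdd (ha : a ∈ DL z σ) (hb : b ∈ DL z σ) (hδ : δ ∈ DL z σ) (hab : a ≠ b) (h4 : Commute a b)
    (h7 : Commute δ (a * b)) : Commute δ a := by
  by_cases hz : IsConj z (δ * a * b)
  · exact h.case1 ha hb hδ hab h4 h7 hz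
  refine h.comm_of_even hδ ha fun ho => hz ?_
  rw [mul_assoc, h.odd_conj hδ (h.DL_sq ha) h7 ((Commute.refl a).mul_right h4) ho, ← mul_assoc, h.DL_sq ha, one_mul]
  exact DL.isConj hb

theorem three (ha : a ∈ DL z σ) (hb : b ∈ DL z σ) (hγ : γ ∈ DL z σ) (h1 : Commute a γ) (h2 : Commute b γ)
    (hn : ¬ Commute a b) : (a * b) ^ 3 = 1 := by
  obtain ⟨g, hg, e⟩ := DL.back hγ
  have a1 : ∀ a ∈ DL z σ, ∀ b, Commute a γ → Commute b γ → ¬ Commute a b → ∃ r, Ov Q π c x (g * a * g⁻¹) r :=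
    fun a ha b h1 h2 hn => h.exists_ov (DL.conj ha hg) (e ▸ (comm_cj g).2 h1) fun k =>
      hn (by rw [show a = γ by simpa [← e] using k]; exact h2.symm)
  obtain ⟨r, o⟩ := a1 a ha b h1 h2 hn
  obtain ⟨s, o'⟩ := a1 b hb a h2 h1 (fun k => hn k.symm)
  have a2 := h.ov_pow o o' (mt (comm_cj g).1 hn)
  rw [conj_mul, conj_pow, conj_eq_one_iff] at a2
  have a3 : Odd (orderOf (a * b)) := by_contra fun k => hn (h.comm_of_even ha hb k)
  exact orderOf_dvd_iff_pow_eq_one.1 (Nat.Coprime.dvd_of_dvd_mul_left ((Nat.coprime_two_right.2 a3).pow_right 2)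
    (orderOf_dvd_of_pow_eq_one a2))

theorem exists_other (ha : a ∈ DL z σ) (h1 : Commute a (Pk z σ d p)) : ∃ q, q ≠ p ∧ Commute a (Pk z σ d q) := by
  obtain ⟨g, hg, hN, e⟩ := h.move_Pk p 0
  obtain ⟨q, hq, k⟩ : ∃ q, q ≠ 0 ∧ Commute (g * a * g⁻¹) (Pk z σ d q) := by
    by_cases k : g * a * g⁻¹ = z
    · exact ⟨1, by decide, k ▸ h.z_Pk 1⟩
    obtain ⟨r, o⟩ := h.exists_ov (DL.conj ha hg) (by rw [← h.Pk_zero, ← e, comm_cj]; exact h1) k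
    obtain ⟨i, hi, f⟩ := exists_perp o.h0
    obtain ⟨q, hq, rfl⟩ := pk_sur i hi
    exact ⟨q, hq, (h.comm_Pk o hq).2 f⟩
  obtain ⟨s, f⟩ := h.N_Pk (inv_mem hg) (inv_mem hN) q
  refine ⟨s, fun l => hq (h.Pk_inj ?_), f ▸ comm_cj'.2 (by rwa [inv_inv])⟩
  rw [← e, ← l, ← f]; group

theorem comm_onL {s : Fin 21} (ha : a ∈ DL z σ) (h1 : Commute a (Pk z σ d p)) (h2 : Commute a (Pk z σ d q))
    (o : onL s p q) : Commute a (Pk z σ d s) := by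
  rcases o with rfl | rfl | o
  exacts [h1, h2, h.lineC (h.Pk_DL p) (h.Pk_DL q) (h.Pk_DL s) ha (h.Pk_comm _ _) (h.Pk_comm _ _) (h.Pk_comm _ _)
    (by rw [← h.zb3, Nat.xor_comm, ← Nat.xor_assoc]; exact o) h1 h2]

theorem step (ha : a ∈ DL z σ) (he : e ∈ DL z σ) (hf : f ∈ DL z σ) (hb : b ∈ DL z σ) (h1 : Commute a e)
    (h2 : Commute e f) (h3 : Commute f b) : ∃ γ ∈ DL z σ, Commute a γ ∧ Commute b γ := by
  obtain ⟨g, hg, p, e1, e2⟩ := h.sim1 he hf h2.symm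
  have a1 : Commute (g * a * g⁻¹) (Pk z σ d 0) := by rw [h.Pk_zero, ← e1, comm_cj]; exact h1
  have a2 : Commute (g * b * g⁻¹) (Pk z σ d p) := by rw [← e2, comm_cj]; exact h3.symm
  obtain ⟨q, k1, k2⟩ := h.exists_other (DL.conj ha hg) a1
  obtain ⟨q', k3, k4⟩ := h.exists_other (DL.conj hb hg) a2
  obtain ⟨s, k5, k6⟩ := ck5 q p q' k1 k3.symm
  exact ⟨_, DL.conj (h.Pk_DL s) (inv_mem hg), comm_cj'.2 (by rw [inv_inv]; exact h.comm_onL (DL.conj ha hg) a1 k2 k5),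
    comm_cj'.2 (by rw [inv_inv]; exact h.comm_onL (DL.conj hb hg) a2 k4 k6)⟩

theorem lemJ (hy : y ∈ YY σ) (h2 : y * y = 1) (hE : ∀ e < 4, y ≠ io z σ d e) (ha : a ∈ DL z σ) (hb : b ∈ DL z σ)
    (h3 : Commute a y) (h4 : Commute b y) : ∃ γ ∈ DL z σ, Commute a γ ∧ Commute b γ := by
  obtain ⟨g, hg, e⟩ := DL.back ha
  obtain ⟨k, k1, k2, k3⟩ := h.invol_A (cj_mem hg hy) (mem_cent1_iff.2 (e ▸ (comm_cj g).2 h3.symm))
    (by rw [conj_mul, h2]; group)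
  obtain ⟨m, hm, e1⟩ := h.io_sur k3
  have a0 := mul_mem k1 hg
  have a1 := DL.conj hb a0
  have a2 : Commute (k * g * b * (k * g)⁻¹) (io z σ d m) := by
    rw [e1, show k * (g * y * g⁻¹) * k⁻¹ = k * g * y * (k * g)⁻¹ by group, comm_cj]; exact h4
  have a3 : ∀ n, m ^^^ n < 4 → Commute (k * g * b * (k * g)⁻¹) (io z σ d n) := fun n hn =>
    comm_of_mul' (h.io_xor m n ▸ h.comm_E hn (h.DL_Y a1)) a2
  obtain ⟨p, l⟩ : ∃ p, Commute (k * g * b * (k * g)⁻¹) (Pk z σ d p) := by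
    rcases ck6 m hm with l | l | ⟨p, l⟩ | ⟨p, q, l1, l⟩
    · exact h.fixP (h.DL_Y a1) (h.lemP hm l (h.DL_Y a1) a2) (h.DL_sq a1)
    · refine absurd ?_ (hE m l)
      rw [← h.io_E l (inv_mem a0), e1]; group
    · exact ⟨p, a3 _ l⟩
    · exact ⟨p, h.lemOdd (h.Pk_DL p) (h.Pk_DL q) a1 (mt h.Pk_inj l1) (h.Pk_comm _ _) (h.io_xor _ _ ▸ a3 _ l)⟩
  refine ⟨_, DL.conj (h.Pk_DL p) (inv_mem a0), comm_cj'.2 ?_, comm_cj'.2 (by rwa [inv_inv])⟩
  rw [inv_inv, show k * g * a * (k * g)⁻¹ = k * (g * a * g⁻¹) * k⁻¹ by group, e, mem_cent1_iff.1 k2,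
    mul_inv_cancel_right]
  exact h.z_Pk p

theorem not_conj_E (ha : a ∈ DL z σ) {e : ℕ} (he : e < 4) (h0 : e ≠ 0) : ¬ IsConj z (a * io z σ d e) := by
  obtain ⟨g, hg, f⟩ := DL.back ha
  rw [← isConj_conj _ _ g, ← conj_mul, f, h.io_E he hg, ← congrArg (· * _) h.io_64, ← h.io_xor,
    ← h.zb_false (xor_lt11 (by decide) (by omega)), ← dl_zero]
  exact ck8 0 e he h0

theorem dist0 (hb : b ∈ DL z σ) : ∃ γ ∈ DL z σ, Commute z γ ∧ Commute b γ := by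
  have a1 := h.io_mem 144
  have a2 := h.toFT.AA_sq a1
  have a3 := ck9.1
  simp only [pty, Bool.and_eq_true] at a3
  obtain ⟨j, ⟨n, e1, -⟩, e2, e3, e4, e5, e6, -⟩ := Inv.exists_central_of_even (h.DL_sq hb) a2 fun ho =>
    h.not_conj_E hb (e := 1) (by decide) (by decide) (by
      rw [h.odd_conj hb a2 (h.comm_E (by decide) (h.DL_Y hb)) (h.comm_E (by decide) (h.AA_Y a1)) ho, ← h.io_xor,
        ← h.zb_iff (by decide)]
      exact a3.1.1.2)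
  have a4 : j ∈ YY σ := e1 ▸ pow_mem (mul_mem (h.DL_Y hb) (h.AA_Y a1)) n
  obtain ⟨p, l⟩ := h.fixP a4 (h.lemP (by decide) ck9.1 a4 e5.symm) e2
  obtain ⟨γ, hγ, l1, l2⟩ := h.lemJ a4 e2 (fun e he k => h.not_conj_E hb he (fun l => e3 (by rw [k, l, h.io_zero])) (by
    rw [← k, e4.eq]
    rcases e6 with ⟨k, f⟩ | ⟨k, f⟩ <;> rw [← f, isConj_conj]
    exacts [DL.isConj hb, (h.zb_iff (by decide)).1 a3.1.1.1])) (h.Pk_DL p) hb l.symm e4
  exact h.step (DL.self z σ) (h.Pk_DL p) hγ hb (h.z_Pk p) l1 l2.symm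

theorem dist (ha : a ∈ DL z σ) (hb : b ∈ DL z σ) : ∃ γ ∈ DL z σ, Commute a γ ∧ Commute b γ := by
  obtain ⟨g, hg, e⟩ := DL.back ha
  obtain ⟨γ, hγ, l1, l2⟩ := h.dist0 (DL.conj hb hg)
  exact ⟨_, DL.conj hγ (inv_mem hg), comm_cj'.2 (by rwa [inv_inv, e]), comm_cj'.2 (by rwa [inv_inv])⟩

theorem closed : Closed (DL z σ) := by
  refine ⟨⟨fun a ha => orderOf_eq_prime (by rw [pow_two, h.DL_sq ha]) (h.DL_ne ha), fun a ha b hb => ?_⟩,
    fun a ha b hb => by simpa [h.DL_inv ha] using DL.conj hb (h.DL_Y ha)⟩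
  by_cases k : Commute a b
  · exact Or.inl (by rw [k.mul_pow, pow_two, pow_two, h.DL_sq ha, h.DL_sq hb, one_mul])
  obtain ⟨γ, hγ, l1, l2⟩ := h.dist ha hb
  exact Or.inr (h.three ha hb hγ l1 l2 k)

end FD

end CA.F24
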