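/-
Groups of large Fischer type: the centraliser of the four-group `E` is `2^2.U6(2)`.
-/
import Cfsg.Agent.Lib.F24.Odd

set_option autoImplicit false
set_option linter.unusedSectionVars false
set_option linter.unusedVariables false

namespace CA.F24

open Cfsg Equiv Subgroup CA CA.Fi CA.Unit CA.Fi.F4 CA.Ex2 CA.Fth

variable {G : Type*} [Group G]

theorem um_comm {S : Set G} {V : Type*} [AddCommGroup V] [Module F4 V] {h : Herm F4 V} {t : V → G} (k : UM S h t)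
    (hS : Closed S) {u v : V} (hu : h u u = 0) (u0 : u ≠ 0) (hv : h v v = 0) (v0 : v ≠ 0) :
    Commute (t u) (t v) ↔ h u v = 0 := by
  rw [hS.commute_iff_third (k.mem u hu u0), k.conj u v hu u0 hv v0]
  refine ⟨fun e => h_eq_zero_comm (by_contra fun f => ?_), fun e => by rw [h_eq_zero_comm e, zero_smul, add_zero]⟩
  have a1 : h (v + h v u • u) u = h v u := by rw [h_add_left, h_smul_left, hu, mul_zero, add_zero]
  obtain ⟨a, -, e1⟩ := (k.eq_iff v _ hv v0 (by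
    simp only [h_add_left, h_add_right, h_smul_left, h_smul_right, hu, hv, mul_zero, add_zero, zero_add]
    rw [← h_star v u, mul_comm, f4_add_self]) fun l => f (by rw [← a1, l, h_zero_left])).1 e.symm
  rw [e1, h_smul_left] at a1
  rw [mul_right_cancel₀ f (a1.trans (one_mul _).symm), one_smul, add_eq_left] at e1
  exact smul_ne_zero f u0 e1

theorem un_six {S : Set G} (hS : Closed S) {n : ℕ} (k : IsUn S n) {a b e y : G} (ha : a ∈ S) (hb : b ∈ S)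
    (he : e ∈ S) (hy : y ∈ S) (h1 : a ≠ b) (h2 : Commute a b) (h3 : Commute a e) (h4 : Commute b e)
    (h5 : Commute a y) (h6 : Commute b y) (h7 : ¬ Commute e y)
    (h8 : ∀ a ∈ S, ∀ b ∈ S, a ≠ b → Commute a b → ∀ y : Fin 4 → G,
      (∀ m, y m ∈ S ∧ Commute (y m) a ∧ Commute (y m) b) → ∃ m n, m ≠ n ∧ Commute (y m) (y n)) : n = 6 := by
  obtain ⟨t, k⟩ := k
  refine le_antisymm (by_contra fun hn => ?_) ?_
  · obtain ⟨b, hb⟩ := exists_orthonormal hK (nd_std (K := F4) (ι := Fin n)) 7 (by simp; omega)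
    have a1 : ∀ u v : Fin 7 → F4, std F4 (Fin n) (∑ i, u i • b i) (∑ i, v i • b i) = ∑ i, u i * star (v i) := by
      intro u v
      simp only [h_sum_left, h_sum_right, h_smul_left, h_smul_right, hb]
      simp [mul_comm]
    have a2 : ∀ u : Fin 7 → F4, u ≠ 0 → ∑ i, u i • b i ≠ 0 := fun u hu e => hu (funext fun j => by
      have := a1 u (Pi.single j 1)
      rw [e, h_zero_left] at this
      simpa [Pi.single_apply, apply_ite] using this.symm)
    have a3 : ∀ u v : Fin 7 → F4, u ≠ 0 → v ≠ 0 → ∑ i, u i * star (u i) = 0 → ∑ i, v i * star (v i) = 0 →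
        (Commute (t (∑ i, u i • b i)) (t (∑ i, v i • b i)) ↔ ∑ i, u i * star (v i) = 0) := fun u v u0 v0 e f => by
      rw [um_comm k hS ((a1 _ _).trans e) (a2 u u0) ((a1 _ _).trans f) (a2 v v0), a1]
    let r : Fin 4 → Fin 7 → F4 := ![![0, 0, 0, 0, 1, 1, 0], ![0, 0, 0, 0, 1, w, 0], ![0, 0, 0, 0, 1, w', 0],
      ![0, 0, 0, 0, 1, 0, 1]]
    have a4 : ∀ m, r m ≠ 0 ∧ ∑ i, r m i * star (r m i) = 0 := by decide
    obtain ⟨m, l, e, f⟩ := h8 _ (k.mem (∑ i, ![1, 1, 0, 0, 0, 0, 0] i • b i) ((a1 _ _).trans (by decide))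
      (a2 _ (by decide))) _ (k.mem (∑ i, ![0, 0, 1, 1, 0, 0, 0] i • b i) ((a1 _ _).trans (by decide))
      (a2 _ (by decide))) (fun e => by
        have := (a3 ![0, 0, 1, 0, 1, 0, 0] ![1, 1, 0, 0, 0, 0, 0] (by decide) (by decide) (by decide) (by decide)).2
          (by decide)
        rw [e, a3 _ _ (by decide) (by decide) (by decide) (by decide)] at this
        revert this; decide) ((a3 _ _ (by decide) (by decide) (by decide) (by decide)).2 (by decide))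
      (fun m => t (∑ i, r m i • b i)) fun m => ⟨k.mem _ ((a1 _ _).trans (a4 m).2) (a2 _ (a4 m).1),
        (a3 _ _ (a4 m).1 (by decide) (a4 m).2 (by decide)).2 (by revert m; decide),
        (a3 _ _ (a4 m).1 (by decide) (a4 m).2 (by decide)).2 (by revert m; decide)⟩
    rw [a3 _ _ (a4 m).1 (a4 l).1 (a4 m).2 (a4 l).2] at f
    revert m l; decide
  obtain ⟨a, a1, a0, rfl⟩ := k.surj a ha
  obtain ⟨b, b1, b0, rfl⟩ := k.surj b hb
  obtain ⟨e, e1, e0, rfl⟩ := k.surj e he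
  obtain ⟨y, y1, y0, rfl⟩ := k.surj y hy
  rw [um_comm k hS (by assumption) (by assumption) (by assumption) (by assumption)] at h2 h3 h4 h5 h6 h7
  have t2 := Tl.ti_pair a1 b1 h2 b0 fun l f => h1 ((k.eq_iff b a b1 b0 a1 a0).2
    ⟨l, by rintro rfl; exact a0 (f.trans (zero_smul _ _)), f⟩).symm
  have := (t2.cons e1 (fun i => by fin_cases i; exacts [h3, h4]) fun l =>
    h7 (t2.span (fun i => by fin_cases i; exacts [h5, h6]) e l)).two_mul_le k.nd
  simpa using this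

/-- the four-group -/
def EE (σ : V6 → G) : Subgroup G := closure {σ (av 0), σ (w • av 0)}

theorem cent_EE (σ : V6 → G) : 𝐂(EE σ) = YY σ := by
  ext y
  rw [EE, centralizer_closure, mem_centralizer_iff]
  simp only [Set.mem_insert_iff, Set.mem_singleton_iff, forall_eq_or_imp, forall_eq, YY, mem_inf, mem_cent1_iff,
    eq_comm]

variable [Finite G] {Q : Subgroup G} {z x : G} {π : ↥𝐂[z] →* Perm V6} {c : G → V6} {σ : V6 → G}
variable {a b e f t y g δ γ : G} {r s : V6} {d : Fin 6 → Fin 6 → G} {i j : Fin 6}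

namespace FD
variable (h : FD Q z π c x σ d) {p q : Fin 21} {m : ℕ}
include h

theorem mem_EE : y ∈ EE σ ↔ ∃ e < 4, io z σ d e = y := by
  refine ⟨fun hy => ?_, fun ⟨e, he, f⟩ => ?_⟩
  · induction hy using closure_induction with
    | mem a ha => rcases ha with rfl | rfl; exacts [⟨1, by decide, h.io_1⟩, ⟨2, by decide, h.io_2⟩]
    | one => exact ⟨0, by decide, h.io_zero⟩
    | mul a b _ _ ha hb =>
      obtain ⟨m, hm, rfl⟩ := ha
      obtain ⟨n, hn, rfl⟩ := hb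
      exact ⟨_, Nat.xor_lt_two_pow (n := 2) hm hn, h.io_xor m n⟩
    | inv a _ ha =>
      obtain ⟨m, hm, rfl⟩ := ha
      exact ⟨m, hm, eq_inv_of_mul_eq_one_left (h.toFT.AA_sq (h.io_mem m))⟩
  · have a1 : io z σ d 1 ∈ EE σ := h.io_1 ▸ subset_closure (by simp)
    have a2 : io z σ d 2 ∈ EE σ := h.io_2 ▸ subset_closure (by simp)
    subst f
    interval_cases e
    exacts [h.io_zero ▸ one_mem _, a1, a2, (h.io_xor 1 2).symm ▸ mul_mem a1 a2]

theorem card_EE : Nat.card (EE σ) = 4 := by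
  refine Eq.trans ?_ (Nat.card_fin 4)
  exact (Nat.card_congr (Equiv.ofBijective (fun e : Fin 4 => (⟨_, h.mem_EE.2 ⟨e, e.2, rfl⟩⟩ : EE σ))
    ⟨fun a b e => Fin.ext (h.io_inj (by omega) (by omega) (congrArg Subtype.val e)), fun y => by
      obtain ⟨e, he, f⟩ := h.mem_EE.1 y.2
      exact ⟨⟨e, he⟩, Subtype.ext f⟩⟩)).symm

theorem EE_A : EE σ ≤ AA Q c := fun y hy => by obtain ⟨e, -, rfl⟩ := h.mem_EE.1 hy; exact h.io_mem e
theorem EE_Q : EE σ ≤ Q := (closure_le _).2 (by rintro _ (rfl | rfl) <;> exact h.mem _)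
theorem EE_Y : EE σ ≤ YY σ := h.EE_A.trans h.AA_Y

theorem pair_nf (ha : a ∈ DL z σ) (hb : b ∈ DL z σ) (hab : a ≠ b) (h1 : Commute a b) :
    ∃ g ∈ YY σ, ∃ p q, p ≠ 0 ∧ q ≠ 0 ∧ pk p ≠ pk q ∧ g * a * g⁻¹ = Pk z σ d p ∧ g * b * g⁻¹ = Pk z σ d q := by
  obtain ⟨g, hg, p, e1, e2⟩ := h.sim1 ha hb h1.symm
  obtain ⟨s, k1, k2, k3⟩ := ck7 p (by rintro rfl; exact (cj_ne g).2 hab (by rw [e1, e2, h.Pk_zero]))
  obtain ⟨k, hk, p', q', f1, f2, f3⟩ := h.sim2 (h.Pk_DL s) (DL.self z σ) (h.Pk_DL p) (h.z_Pk s) (h.Pk_comm _ _)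
    (h.z_Pk p)
  have a1 : p' ≠ 0 := by
    rintro rfl
    exact k1 (h.Pk_inj (not_not.1 (mt (cj_ne k).2 (not_not.2 (by rw [f1, h.Pk_zero, f2, h.Pk_zero])))))
  have a2 : q' ≠ 0 := by
    rintro rfl
    exact k2 (h.Pk_inj (not_not.1 (mt (cj_ne k).2 (not_not.2 (by rw [f1, f3, h.Pk_zero])))))
  have a3 : p' ≠ q' := by
    rintro rfl
    exact (cj_ne k).2 ((cj_ne g).2 hab) (by rw [e1, e2, f2, f3])
  refine ⟨k * g, mul_mem hk hg, p', q', a1, a2, fun l => ?_, by rw [← f2, ← e1]; group, by rw [← f3, ← e2]; group⟩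
  rw [pk_eq _ _ a1 a2 a3, h.zb0, ← f2, ← f3, ← congrArg (· * _ * _) f1, cj3, isConj_conj, ← congrArg (_ * · * _) h.Pk_zero,
    ← h.zb3, dl_zero, k3] at l
  exact absurd l (by decide)

theorem sep0 (hp : p ≠ 0) (hq : q ≠ 0) (hpq : pk p ≠ pk q) :
    (∃ y ∈ DL z σ, ¬ Commute (Pk z σ d p) y ∧ ¬ Commute (Pk z σ d q) y) ∧
      ∃ y ∈ DL z σ, Commute z y ∧ Commute (Pk z σ d p) y ∧ ¬ Commute (Pk z σ d q) y := by
  have key : ∀ r, Rt r → h6 r (av 0) = 0 → h6 r (av (pk q)) ≠ 0 → ∃ y ∈ DL z σ, Ov Q π c x y r := fun r r1 r2 r3 =>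
    h.exists_over r1 r2 fun ⟨a, e⟩ => r3 (e ▸ ((inU_av 0).smul a).h (inU_av _))
  obtain ⟨⟨r, -, r1, r2, r3, r4⟩, s, -, s1, s2, s3, s4⟩ := exists_r _ _ (pk_ne p hp) (pk_ne q hq) hpq
  obtain ⟨y, hy, o⟩ := key _ r1 r2 r4
  obtain ⟨y', hy', o'⟩ := key _ s1 s2 s4
  exact ⟨⟨y, hy, fun k => r3 ((h.comm_Pk o hp).1 k.symm), fun k => r4 ((h.comm_Pk o hq).1 k.symm)⟩, y', hy',
    (mem_cent1_iff.1 (h.ov_C o')).symm, ((h.comm_Pk o' hp).2 s3).symm, fun k => s4 ((h.comm_Pk o' hq).1 k.symm)⟩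

theorem sep (ha : a ∈ DL z σ) (hb : b ∈ DL z σ) (hab : a ≠ b) (h1 : Commute a b) :
    (∃ y ∈ DL z σ, ¬ Commute a y ∧ ¬ Commute b y) ∧ ∃ y ∈ DL z σ, Commute a y ∧ ¬ Commute b y := by
  obtain ⟨g, hg, p, q, hp, hq, hpq, e1, e2⟩ := h.pair_nf ha hb hab h1
  obtain ⟨⟨y, hy, k1, k2⟩, y', hy', -, k3, k4⟩ := h.sep0 hp hq hpq
  exact ⟨⟨_, DL.conj hy (inv_mem hg), by rwa [comm_cj', inv_inv, e1], by rwa [comm_cj', inv_inv, e2]⟩,
    _, DL.conj hy' (inv_mem hg), by rwa [comm_cj', inv_inv, e1], by rwa [comm_cj', inv_inv, e2]⟩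

theorem tr_DL : Tr (DL z σ) := fun a ha b hb => by
  have key : ∀ a ∈ DL z σ, ∀ b ∈ DL z σ, ¬ Commute a b → ∃ g ∈ closure (DL z σ), g * a * g⁻¹ = b :=
    fun a ha b hb k => ⟨_, mul_mem (subset_closure ha) (subset_closure hb),
      exists_conj_of_not_commute h.closed.set ha hb k⟩
  by_cases e : a = b
  · exact ⟨1, one_mem _, by simpa⟩
  by_cases k : Commute a b
  · obtain ⟨⟨y, hy, k1, k2⟩, -⟩ := h.sep ha hb e k
    obtain ⟨g, hg, rfl⟩ := key a ha y hy k1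
    obtain ⟨g', hg', f⟩ := key _ hy b hb (nc_symm k2)
    exact ⟨g' * g, mul_mem hg' hg, by rw [← f]; group⟩
  · exact key a ha b hb k

theorem prim : Cov (pjt (DL z σ)) (DL z σ) (CE (DL z σ) \ {1}) ∧ Prim (CE (DL z σ) \ {1}) := by
  refine prim_cq h.closed h.tr_DL (fun a ha b hb k => by_contra fun e => ?_) (fun a ha b hb k => by_contra fun e => ?_)
    (fun a ha b hb k => ?_) (h.Pk_DL 0) (h.Pk_DL 1) (mt h.Pk_inj (by decide))
  · obtain ⟨-, y, hy, k1, k2⟩ := h.sep ha hb e ((k b hb).2 rfl)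
    exact k2 ((k y hy).1 k1)
  · have a1 : ¬ Commute a b := fun l => ((k b hb).1 ⟨Ne.symm e, l⟩).1 rfl
    obtain ⟨γ, hγ, l1, l2⟩ := h.dist ha hb
    obtain ⟨u, hu, -, -, -, ⟨u1, u2⟩, -, -, u3, -⟩ := h.exists_line ha hγ (by rintro rfl; exact a1 l2.symm) l1
    refine a1 (h.lineC hγ hu ha hb u2 l1 u1 (by rwa [← u2.eq, mul_assoc, ← l1.eq, ← mul_assoc]) l2
      ((k u hu).1 ⟨?_, u1.symm⟩).2).symm
    rintro rfl
    exact u3 (by rw [h.DL_sq ha, one_mul]; exact DL.isConj hγ)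
  · obtain ⟨γ, hγ, l1, l2⟩ := h.dist ha hb
    exact ⟨γ, mu_of hγ l1 l2 k⟩

theorem four_le (ha : a ∈ DL z σ) (hb : b ∈ Dd (DL z σ) a) : 4 ≤ (Ln (DL z σ) a b).ncard := by
  obtain ⟨e, he, f, hf, k0, k1, k2, -, k4, k5, -⟩ := h.exists_line ha hb.1 hb.2.1.symm hb.2.2
  have a1 : ∀ e ∈ DL z σ, Commute e a ∧ Commute e b → ¬ IsConj z (e * a * b) →
      e ∈ Ln (DL z σ) a b ∧ a ≠ e ∧ b ≠ e := fun e he k1 k4 =>
    ⟨⟨he, fun y hy l1 l2 => (h.lineC ha hb.1 he hy hb.2.2.symm k1.1 k1.2.symm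
      (by rwa [← (k1.1.mul_right k1.2).eq, ← mul_assoc]) l1.symm l2.symm).symm⟩,
      by rintro rfl; exact k4 (by rw [h.DL_sq ha, one_mul]; exact DL.isConj hb.1),
      by rintro rfl; exact k4 (by rw [k1.1.eq, mul_assoc, h.DL_sq he, mul_one]; exact DL.isConj ha)⟩
  obtain ⟨e1, e2, e3⟩ := a1 e he k1 k4
  obtain ⟨f1, f2, f3⟩ := a1 f hf k2 k5
  refine le_trans (le_of_eq ?_) (Set.ncard_le_ncard (s := {a, b, e, f}) (by
    rintro _ (rfl | rfl | rfl | rfl); exacts [left_mem_Ln ha _, right_mem_Ln _ hb.1, e1, f1]))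
  rw [Set.ncard_insert_of_notMem (by simp [hb.2.1.symm, e2, f2]), Set.ncard_insert_of_notMem (by simp [e3, f3]),
    Set.ncard_pair k0]

theorem four_comm (ha : a ∈ DL z σ) (hb : b ∈ DL z σ) (hab : a ≠ b) (h1 : Commute a b) (y : Fin 4 → G)
    (hy : ∀ m, y m ∈ DL z σ ∧ Commute (y m) a ∧ Commute (y m) b) : ∃ m n, m ≠ n ∧ Commute (y m) (y n) := by
  obtain ⟨g, hg, p, e1, e2⟩ := h.sim1 ha hb h1.symm
  have hp : p ≠ 0 := by rintro rfl; exact (cj_ne g).2 hab (by rw [e1, e2, h.Pk_zero])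
  by_cases k : ∃ m, y m = a
  · obtain ⟨m, k⟩ := k
    exact ⟨m + 1, m, (by decide : ∀ m : Fin 4, m + 1 ≠ m) m, k ▸ (hy _).2.1⟩
  choose r o using fun m => h.exists_ov (DL.conj (hy m).1 hg) (e1 ▸ (comm_cj g).2 (hy m).2.1)
    (e1 ▸ (cj_ne g).2 fun l => k ⟨m, l⟩)
  obtain ⟨m, n, l1, l2⟩ := four_perp (pk_ne p hp) (fun m => (o m).rt.iso.1) (fun m => (o m).h0) fun m =>
    (h.comm_Pk (o m) hp).1 (e2 ▸ (comm_cj g).2 (hy m).2.2)
  exact ⟨m, n, l1, (comm_cj g).1 ((h.ov_comm (o m) (o n)).2 l2)⟩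

theorem isU6 : IsU6 (CQ (DL z σ)) := by
  obtain ⟨C, P⟩ := h.prim
  have a1 : ∀ a ∈ CE (DL z σ) \ {1}, ∀ b ∈ Dd (CE (DL z σ) \ {1}) a, 4 ≤ (Ln (CE (DL z σ) \ {1}) a b).ncard := by
    intro a ha b hb
    obtain ⟨a, ha', rfl⟩ := C.surj ha
    rw [← C.image_dd ha'] at hb
    obtain ⟨b, hb', rfl⟩ := hb
    rw [← C.image_Ln ha' hb'.1, C.ncard_image fun _ k => k.1]
    exact h.four_le ha' hb'
  have T : Thk (CE (DL z σ) \ {1}) := ⟨P.r3, fun a ha b hb => (a1 a ha b hb).trans' (by decide)⟩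
  obtain ⟨a, ha, b, hb, e1, e2⟩ := P.wid
  obtain ⟨n, hn, k⟩ := P5.isUn ⟨T, T.card_cases.resolve_left fun l => by
    have := a1 a ha b ⟨hb, e1.symm, e2⟩
    rw [l a ha b ⟨hb, e1.symm, e2⟩] at this; omega⟩ fun g _ l =>
      mem_bot.1 (P.Z ▸ TT.mem_center_of_forall P.grp.2.2 fun y hy => l y hy)
  obtain ⟨-, y, hy, k1, k2, k3⟩ := h.sep0 (p := 1) (q := 2) (by decide) (by decide) (by decide +kernel)
  obtain rfl := un_six h.closed (C.isUn k) (DL.self z σ) (h.Pk_DL 1) (h.Pk_DL 2) hy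
    (fun l => absurd (h.Pk_inj (h.Pk_zero.trans l)) (by decide)) (h.z_Pk _) (h.z_Pk _) (h.Pk_comm _ _) k1 k2 k3
    fun a ha b hb => h.four_comm ha hb
  obtain ⟨F, _, _, hF, e, -⟩ := k.cun P (by decide)
  exact ⟨F, _, _, hF, ⟨e⟩⟩

theorem tu : TU (DL z σ) := by
  obtain ⟨C, P⟩ := h.prim
  obtain ⟨e, k⟩ := h.isU6.exists_cov P.grp
  exact ⟨_, C.comp k⟩

theorem card_YC : Nat.card ↥(YY σ ⊓ 𝐂[z]) ≤ 2 ^ 11 * 25920 := by
  rw [← card_pmap_mul π inf_le_right, h.ker, ← card_S0]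
  refine Nat.mul_le_mul ((h.card_le inf_le_left (S := {v | h6 v (av 0) = 0}) fun u hu =>
    (h.Q_Y hu.1).1 (mem_inf.1 (mem_inf.1 hu).2).1).trans ?_) (card_le_of_le' fun k hk => ?_)
  · refine Nat.mul_le_mul_left 2 ((Set.ncard_le_ncard_of_injOn (t := (Set.univ : Set (Fin 5 → F4)))
      (fun v : V6 => Fin.tail v) (fun _ _ => trivial) fun u hu v hv e => ?_).trans_eq (by simp; rfl))
    have a1 := f4_eq_of_add ((h_av u).1.symm.trans hu)
    have a2 := f4_eq_of_add ((h_av v).1.symm.trans hv)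
    rw [← Fin.cons_self_tail u, ← Fin.cons_self_tail v, show Fin.tail u = Fin.tail v from e, a1, a2]
    exact congrArg (Fin.cons · _) (congrFun e 0)
  · obtain ⟨y, hy, rfl⟩ := (mem_pmap_of_le inf_le_right).1 hk
    exact h.Y_S0 hy.1 hy.2

theorem card_Y' : Nat.card (YY σ) = 693 * Nat.card ↥(YY σ ⊓ 𝐂[z]) := by
  rw [Fs.card_eq_orbit_mul _ z, ← h.tu.par.hv]; rfl

theorem mul_der (ha : a ∈ DL z σ) (hb : b ∈ DL z σ) : a * b ∈ ⁅closure (DL z σ), closure (DL z σ)⁆ := by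
  obtain ⟨g, hg, rfl⟩ := h.tr_DL a ha b hb
  have := commutator_mem_commutator (subset_closure ha) hg
  rwa [commutatorElement_def, h.DL_inv ha, mul_assoc, mul_assoc, ← mul_assoc g] at this

theorem EE_der : EE σ ≤ ⁅closure (DL z σ), closure (DL z σ)⁆ := (closure_le _).2 (by
  have := fun p q => h.mul_der (h.Pk_DL p) (h.Pk_DL q)
  rintro _ (rfl | rfl)
  · rw [← h.io_1, ← ck9.2.1]
    simp only [h.io_xor]
    exact mul_mem (mul_mem (this _ _) (this _ _)) (this _ _)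
  · rw [← h.io_2, ← ck9.2.2]
    simp only [h.io_xor]
    exact mul_mem (mul_mem (this _ _) (this _ _)) (this _ _))

theorem u6_main : closure (DL z σ) = YY σ ∧ Nat.card ↥(YY σ ⊓ 𝐂[z]) = 2 ^ 11 * 25920 ∧
    center (closure (DL z σ)) = (EE σ).subgroupOf _ := by
  have a1 : closure (DL z σ) ≤ YY σ := (closure_le _).2 fun y => h.DL_Y
  have a2 := h.EE_der.trans (commutator_le_self _)
  have a3 : (EE σ).subgroupOf _ ≤ center (closure (DL z σ)) := fun e he => mem_center_iff.2 fun y =>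
    Subtype.ext (mem_centralizer_iff.1 ((cent_EE σ).ge (a1 y.2)) _ he).symm
  have a4 := card_le_of_le' a3
  have a5 := (center (closure (DL z σ))).card_mul_index
  have a6 := card_le_of_le' a1
  have a7 := h.card_YC
  have a8 := h.card_Y'
  rw [index_eq_card, h.isU6.card] at a5
  have a9 := (Nat.card_congr (subgroupOfEquivOfLe a2).toEquiv).trans h.card_EE
  exact ⟨eq_of_le_of_card_ge a1 (by omega), by omega, (eq_of_le_of_card_ge a3 (by omega)).symm⟩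

theorem closure_DL : closure (DL z σ) = YY σ := h.u6_main.1
theorem card_Y : Nat.card (YY σ) = 4 * 9196830720 := by rw [h.card_Y', h.u6_main.2.1]; rfl

theorem u6 : IsQuasisimple (YY σ) ∧ center (YY σ) = (EE σ).subgroupOf _ ∧ IsU6 (YY σ ⧸ center (YY σ)) := by
  rw [← h.closure_DL]
  refine ⟨⟨⟨?_⟩, h.isU6.simple⟩, h.u6_main.2.2, h.isU6⟩
  have := h.isU6.simple
  have a1 : commutator (CQ (DL z σ)) = ⊤ := (IsSimpleGroup.eq_bot_or_eq_top_of_normal _ inferInstance).resolve_left fun e => by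
    have := h.isU6.center
    rw [(commutator_eq_bot_iff_center_eq_top _).1 e] at this
    exact absurd this top_ne_bot
  have a2 := congrArg (comap (QuotientGroup.mk' _)) a1
  rw [_root_.commutator_def, ← map_top_of_surjective _ (QuotientGroup.mk'_surjective _), ← map_commutator, comap_map_eq,
    QuotientGroup.ker_mk', map_top_of_surjective _ (QuotientGroup.mk'_surjective _), comap_top, h.u6_main.2.2,
    sup_eq_left.2] at a2
  · exact a2
  rw [← map_le_map_iff_of_injective (subtype_injective _), map_commutator, ← MonoidHom.range_eq_map, range_subtype]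
  exact (subgroupOf_map_subtype _ _).le.trans (inf_le_left.trans h.EE_der)

end FD

end CA.F24
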