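/-
Groups of large Fischer type: the centraliser of a non-central involution of `Q` is `2.Fi22.2`.
-/
import Cfsg.Agent.Lib.F24.U6
import Cfsg.Agent.Lib.Tilde.Comp
import Cfsg.Agent.Lib.Golay.Classes
import Cfsg.Agent.Lib.Extra2.Thompson
import Cfsg.Agent.Lib.Fi.AutW
import Cfsg.Agent.Lib.FStar.Layer

set_option autoImplicit false
set_option linter.unusedSectionVars false
set_option linter.unusedVariables false

namespace CA.F24

open Cfsg Equiv Subgroup CA CA.Fi CA.Unit CA.Fi.F4 CA.Ex2 CA.Fth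

theorem inj3 {α : Type*} {a b c : α} (h1 : a ≠ b) (h2 : a ≠ c) (h3 : b ≠ c) : Function.Injective ![a, b, c] := by
  intro i j; fin_cases i <;> fin_cases j <;> simp [*, h1.symm, h2.symm, h3.symm]

universe u
variable {G : Type u} [Group G]

/-- Thompson's transfer lemma -/
theorem exists_sgn [Finite G] {H N : Subgroup G} {q : G} (hq : q ∈ H) (h2 : q * q = 1) {m : ℕ} (hm : Odd m)
    (e : N.relIndex H = 2 * m) (h : ∀ g ∈ H, g⁻¹ * q * g ∉ N) : ∃ ε : H →* ℤˣ, pel ε q = -1 := by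
  classical
  have := Fintype.ofFinite (H ⧸ N.subgroupOf H)
  let φ := MulAction.toPermHom H (H ⧸ N.subgroupOf H)
  refine ⟨Perm.sign.comp φ, ?_⟩
  have a1 : φ ⟨q, hq⟩ ^ 2 = 1 := by rw [← map_pow, pow_two, show (⟨q, hq⟩ : H) * ⟨q, hq⟩ = 1 from Subtype.ext h2, map_one]
  have a2 : IsEmpty (Function.fixedPoints (φ ⟨q, hq⟩)) := ⟨fun ⟨y, hy⟩ => by
    obtain ⟨g, rfl⟩ := QuotientGroup.mk_surjective y
    exact h g g.2 ((smul_mk_eq_iff _ _ g).1 hy)⟩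
  rw [pel_of_mem _ hq, MonoidHom.comp_apply, Perm.sign_of_pow_two_eq_one a1,
    Fintype.card_eq_zero (α := Function.fixedPoints _), Nat.sub_zero,
    ← Nat.card_eq_fintype_card, ← index, ← relIndex, e, Nat.mul_div_cancel_left _ two_pos, hm.neg_one_pow]

theorem exists_aut_quot {P X : Type*} [Group P] [Group X] {K : Subgroup G} (ρ : K →* P) (hρ : Function.Surjective ρ)
    (κ : X →* MulAut G) (h1 : ∀ x, ∀ k ∈ K, κ x k ∈ K) (h2 : ∀ x, ∀ k ∈ pker ρ, κ x k ∈ pker ρ) :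
    ∃ θ : X →* MulAut P, ∀ x, ∀ k ∈ K, θ x (pel ρ k) = pel ρ (κ x k) := by
  choose s hs using hρ
  have l : ∀ y : P, ∃ k ∈ K, pel ρ k = y := fun y => ⟨s y, (s y).2, by rw [pel_coe, hs]⟩
  have a1 : ∀ x, ∀ k ∈ K, pel ρ (κ x (s (pel ρ k))) = pel ρ (κ x k) := fun x k hk => by
    rw [pel_eq_iff _ (h1 _ _ (s _).2) (h1 _ _ hk), ← map_inv, ← map_mul]
    exact h2 _ _ ((pel_eq_iff _ (s _).2 hk).1 (by rw [pel_coe, hs]))
  have m : ∀ x x' y, pel ρ (κ (x * x') (s y)) = pel ρ (κ x (s (pel ρ (κ x' (s y))))) := fun x x' y => by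
    rw [a1 _ _ (h1 _ _ (s y).2), map_mul, MulAut.mul_apply]
  have o : ∀ y, pel ρ (κ 1 (s y)) = y := fun y => by rw [map_one, MulAut.one_apply, pel_coe, hs]
  exact ⟨MonoidHom.mk' (fun x => ⟨⟨fun y => pel ρ (κ x (s y)), fun y => pel ρ (κ x⁻¹ (s y)),
    fun y => by simp only; rw [← m, inv_mul_cancel, o], fun y => by simp only; rw [← m, mul_inv_cancel, o]⟩,
    fun y y' => by
      obtain ⟨k, hk, rfl⟩ := l y
      obtain ⟨k', hk', rfl⟩ := l y'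
      simp only
      rw [← pel_mul _ hk hk', a1 _ _ hk, a1 _ _ hk', a1 _ _ (mul_mem hk hk'), map_mul,
        pel_mul _ (h1 _ _ hk) (h1 _ _ hk')]⟩) fun x x' => MulEquiv.ext (m x x'), a1⟩

theorem fix_of_perfect {K : Subgroup G} (hK : ⁅K, K⁆ = K) (β : MulAut G) {t : G} (ht : K ≤ 𝐂[t])
    (h : ∀ k ∈ K, β k * k⁻¹ ∈ zpowers t) : ∀ k ∈ K, β k = k := by
  have a1 : ∀ k ∈ K, ∃ n : ℤ, β k = t ^ n * k := fun k hk => (h k hk).imp fun n e => by simp only at e; rw [e]; group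
  refine fun k hk => (hK.ge.trans (commutator_le.2 fun a ha b hb => ?_) :
    K ≤ (β : G →* G).eqLocus (MonoidHom.id G)) hk
  obtain ⟨n, e⟩ := a1 a ha
  obtain ⟨m, f⟩ := a1 b hb
  have c1 : ∀ k ∈ K, ∀ n : ℤ, Commute (t ^ n) k := fun k hk n => (Commute.zpow_right (mem_cent1_iff.1 (ht hk)) n).symm
  change β (a * b * a⁻¹ * b⁻¹) = a * b * a⁻¹ * b⁻¹
  simp only [map_mul, map_inv]
  rw [e, f, (c1 a ha n).eq, (c1 b hb m).eq]
  calc _ = a * (t ^ n * b * (t ^ n)⁻¹) * (t ^ m * a⁻¹ * (t ^ m)⁻¹) * b⁻¹ := by group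
    _ = _ := by rw [comm_iff_conj.1 (c1 b hb n), comm_iff_conj.1 (c1 _ (inv_mem ha) m)]

variable [Finite G] {Q : Subgroup G} {z x : G} {π : ↥𝐂[z] →* Perm V6} {c : G → V6} {σ : V6 → G}
variable {a b e f t y g m : G} {r s : V6} {d : Fin 6 → Fin 6 → G}

theorem FT.exists_fd_t (h : FT Q z π c) (ht : t ∈ Q) (h2 : t * t = 1) (h1 : t ≠ 1) (hc : ¬ IsConj z t) :
    ∃ π c x σ d, FD Q z π c x σ d ∧ σ (av 0) = t := by
  obtain ⟨x, σ, k⟩ := h.exists_fs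
  obtain ⟨y, hy, y0, e⟩ := h.conj_R ht (k.mem (av 0)) (h.R_of_not_conj ht h2 h1 hc) ((k.c_s _).symm ▸ rt_av 0)
  have a1 := cj_mem (inv_mem hy) k.xm
  obtain ⟨σ', k'⟩ := (h.twist y0).fs_of a1 (by
    rw [pel_of_mem _ a1]
    change pel π y * π _ * (pel π y)⁻¹ = _
    rw [← pel_of_mem π a1, pel_conj _ (inv_mem hy) k.xm, pel_inv _ hy, k.xp]; group) (by
    rw [conj_pow, k.x3]; group)
  obtain ⟨d, k'⟩ := k'.exists_fd
  refine ⟨_, _, _, σ', d, k', ?_⟩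
  obtain ⟨q, hq, e1, e2⟩ := k.exists_q (av 0)
  have a2 := h.conj_mem (inv_mem hy) hq
  have := k'.sg _ a2
  rw [← h.equi hy a2, show y * (y⁻¹ * q * y⁻¹⁻¹) * y⁻¹ = q by group, e1, w_w'] at this
  rw [this, eq_inv_mul_iff_mul_eq.2 (eq_mul_inv_iff_mul_eq.1 (rfl : y * t * y⁻¹ = _)).symm, e, e2]; group

namespace FD
variable (h : FD Q z π c x σ d)
include h

theorem invol_YA (hy : y ∈ YY σ) (h2 : y * y = 1) : ∃ k ∈ YY σ, k * y * k⁻¹ ∈ AA Q c := by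
  obtain ⟨δ, hδ, e⟩ : ∃ δ ∈ DL z σ, y * δ * y⁻¹ = δ := by
    by_contra k
    have := even_of_invol (A := DL z σ) (Set.toFinite _) (fun δ => y * δ * y⁻¹) (fun δ hδ => DL.conj hδ hy)
      (fun δ _ => by rw [← mul_assoc, ← mul_assoc, h2, mul_assoc, ← mul_inv_rev, h2]; group) fun δ hδ e => k ⟨δ, hδ, e⟩
    rw [h.tu.par.hv] at this
    revert this; decide
  obtain ⟨g, hg, f⟩ := DL.back hδ
  obtain ⟨k, k1, -, k3⟩ := h.invol_A (cj_mem hg hy) (mem_cent1_iff.2 (f ▸ (comm_cj g).2 (comm_iff_conj.2 e)))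
    (by rw [conj_mul, h2]; group)
  exact ⟨k * g, mul_mem k1 hg, by simpa [mul_assoc] using k3⟩

theorem move_pts {n : ℕ} (hn : n ≤ 5) {u v : Fin n → GolayPt} (hu : Function.Injective u) (hv : Function.Injective v) :
    ∃ m ∈ 𝐍(AA Q c), ∃ g, XS.Acts (nu z σ d) m g ∧ (∀ i, g (u i) = v i) ∧
      ∀ i j, i ≠ j → m * nu z σ d {u i, u j} * m⁻¹ = nu z σ d {v i, v j} := by
  obtain ⟨g, hg, e⟩ := Gol.trans_tuple (by simpa) hu hv
  obtain ⟨m, hm, f⟩ := h.big.onto g hg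
  exact ⟨m, hm, g, f, e, fun i j k => by rw [f _ (XS.even_pair (hu.ne k)), XS.smul_pair, e, e]⟩

theorem tri (hy : y ∈ AA Q c) (h1 : y ≠ 1) (h2 : ¬ IsConj z y) (h3 : y * σ (av 0) ≠ 1)
    (h4 : ¬ IsConj z (y * σ (av 0))) :
    ∃ m ∈ 𝐍(AA Q c), m * σ (av 0) * m⁻¹ = σ (av 0) ∧ m * y * m⁻¹ = σ (w • av 0) := by
  have n1 : Gol.pt 2 ≠ Gol.pt 3 := by decide +kernel
  have key : ∀ a b, a ≠ Gol.pt 2 → a ≠ Gol.pt 3 → b = Gol.pt 2 ∨ b = Gol.pt 3 → ∃ m ∈ 𝐍(AA Q c),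
      m * σ (av 0) * m⁻¹ = σ (av 0) ∧ m * nu z σ d {a, b} * m⁻¹ = σ (w • av 0) := by
    rintro a b a2 a3 (rfl | rfl)
    · obtain ⟨m, hm, -, -, -, e⟩ := h.move_pts (u := ![a, Gol.pt 3, Gol.pt 2]) (v := ![Gol.pt 1, Gol.pt 2, Gol.pt 3])
        (by decide) (inj3 a3 a2 n1.symm) (by decide +kernel)
      exact ⟨m, hm, by rw [← h.nu_23, ← congrArg (m * nu z σ d · * m⁻¹) (Finset.pair_comm _ _)]; exact e 1 2 (by decide),
        h.nu_13 ▸ e 0 2 (by decide)⟩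
    · obtain ⟨m, hm, -, -, -, e⟩ := h.move_pts (u := ![a, Gol.pt 2, Gol.pt 3]) (v := ![Gol.pt 1, Gol.pt 2, Gol.pt 3])
        (by decide) (inj3 a2 a3 n1) (by decide +kernel)
      exact ⟨m, hm, h.nu_23 ▸ e 1 2 (by decide), h.nu_13 ▸ e 0 2 (by decide)⟩
  obtain ⟨s, hs, rfl⟩ := h.big.rep_D hy h1 h2
  obtain ⟨a, b, hab, rfl⟩ := Finset.card_eq_two.1 hs
  rw [← h.nu_23, ← h.nu_mul] at h3 h4
  by_cases ha : a = Gol.pt 2 ∨ a = Gol.pt 3 <;> by_cases hb : b = Gol.pt 2 ∨ b = Gol.pt 3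
  · refine absurd ?_ h3
    rw [show ({a, b} : Finset GolayPt) = {Gol.pt 2, Gol.pt 3} by
      ext; simp only [Finset.mem_insert, Finset.mem_singleton]; grind, symmDiff_self]
    exact h.todd.empty
  · rw [Finset.pair_comm]; exact key b a (not_or.1 hb).1 (not_or.1 hb).2 ha
  · exact key a b (not_or.1 ha).1 (not_or.1 ha).2 hb
  · refine absurd (h.nu_four ?_) h4
    rw [show symmDiff ({a, b} : Finset GolayPt) {Gol.pt 2, Gol.pt 3} = {a, b, Gol.pt 2, Gol.pt 3} by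
      ext; simp only [Finset.mem_symmDiff, Finset.mem_insert, Finset.mem_singleton]; grind]
    rw [not_or] at ha hb
    rw [Finset.card_insert_of_notMem (by simp [*]), Finset.card_insert_of_notMem (by simp [*]), Finset.card_pair n1]

theorem acts_t {g : Perm GolayPt} (e : XS.Acts (nu z σ d) m g) : m ∈ 𝐂[σ (av 0)] ↔
    (g (Gol.pt 2) = Gol.pt 2 ∧ g (Gol.pt 3) = Gol.pt 3) ∨ (g (Gol.pt 2) = Gol.pt 3 ∧ g (Gol.pt 3) = Gol.pt 2) := by
  have n1 : Gol.pt 2 ≠ Gol.pt 3 := by decide +kernel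
  rw [mem_cent1_iff, ← mul_inv_eq_iff_eq_mul, ← h.nu_23, e _ (XS.even_pair n1), XS.smul_pair,
    h.todd.pair_eq_iff (g.injective.ne n1) n1, ← Finset.coe_inj, Finset.coe_pair, Finset.coe_pair, Set.pair_eq_pair_iff]

theorem not_conj_A (hr : Rt r) (h1 : h6 r (av 0) = 1) (hg : g ∈ 𝐂[σ (av 0)]) : g * σ r * g⁻¹ ∉ AA Q c := by
  intro hA
  have a0 : g * σ (av 0) * g⁻¹ = σ (av 0) := conj_eq_iff_mem_cent1.2 hg
  have a1 : c (σ r * σ (av 0)) = Ta 0 r := by rw [h.mul (h.mem _) (h.mem _), h.c_s, h.c_s, Ta_apply, h1, one_smul]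
  have a2 : Rt (c (σ r * σ (av 0))) := a1 ▸ (StR.iff (K1_StR (rt_av 0).mem) r).2 hr
  obtain ⟨m, hm, e1, e2⟩ := h.tri hA (fun k => hr.iso.2 (by rw [← h.c_s r, conj_eq_one_iff.1 k, h.c_one]))
    (by rw [isConj_conj]; exact h.not_conj_R (h.mem r) ((h.c_s r).symm ▸ hr))
    (by rw [← a0, conj_mul, Ne, conj_eq_one_iff]; exact fun k => a2.iso.2 (by rw [k, h.c_one]))
    (by rw [← a0, conj_mul, isConj_conj]; exact h.not_conj_R (mul_mem (h.mem _) (h.mem _)) a2)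
  have b1 : m * g * σ (av 0) * (m * g)⁻¹ = σ (av 0) := by
    rw [mul_inv_rev, ← mul_assoc, mul_assoc m, mul_assoc m, a0, e1]
  have b2 : m * g * σ r * (m * g)⁻¹ = σ (w • av 0) := by rw [← e2]; group
  have b3 : m * g * z * (m * g)⁻¹ ∈ YY σ := ⟨mem_cent1_iff.2 (b1 ▸ (comm_cj _).2 (mem_cent1_iff.1 (h.memC _)).symm),
    mem_cent1_iff.2 (b2 ▸ (comm_cj _).2 (mem_cent1_iff.1 (h.memC _)).symm)⟩
  obtain ⟨k, hk, b4⟩ := h.invol_YA b3 (by rw [conj_mul, h.zz]; group)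
  obtain ⟨n, hn, b5⟩ := h.big.orb b4 h.z_AA (by simpa [-mul_inv_rev] using h.ez.ne_one) h.ez.ne_one (by
    rw [isConj_conj, isConj_conj])
  have b6 : n * k * (m * g) ∈ 𝐂[z] := conj_eq_iff_mem_cent1.1 (Eq.trans (by group) b5)
  have b7 : ∀ u v, m * g * σ u * (m * g)⁻¹ = σ v → k ∈ 𝐂[σ v] → InU v → InU (pel π (n * k * (m * g)) u) :=
    fun u v e1 e2 hv => by
      rw [← h.c_s u, ← h.equi b6 (h.mem u), ← h.mem_AA_Q (h.conj_mem b6 (h.mem u)),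
        show n * k * (m * g) * σ u * (n * k * (m * g))⁻¹ = n * (k * (m * g * σ u * (m * g)⁻¹) * k⁻¹) * n⁻¹ by group,
        e1, conj_eq_iff_mem_cent1.2 e2]
      exact (mem_normalizer_iff.1 hn _).1 (h.s_AA hv)
  have b8 := (b7 _ _ b2 hk.2 ((inU_av 0).smul w)).h (b7 _ _ b1 hk.1 (inU_av 0))
  by_cases k0 : pel π (n * k * (m * g)) ∈ K0
  · rw [GU.h (K0_GU k0), h1] at b8; exact one_ne_zero b8
  · rw [Hs_h (h.pel_Hs _) k0, h1, star_one] at b8; exact one_ne_zero b8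

theorem not_conj_N0 {p : Perm GolayPt} (hr : Rt r) (h1 : h6 r (av 0) = 1) (hg : g ∈ 𝐂[σ (av 0)])
    (e : XS.Acts (nu z σ d) (g * σ r * g⁻¹) p) (h2 : p (Gol.pt 2) = Gol.pt 2) (h3 : p (Gol.pt 3) = Gol.pt 3) : False := by
  have n1 : Gol.pt 2 ≠ Gol.pt 3 := by decide +kernel
  have a0 : g * σ r * g⁻¹ * (g * σ r * g⁻¹) = 1 := by rw [conj_mul, h.s_sq hr.iso.1]; group
  obtain ⟨a, a1, a2, a3⟩ : ∃ a, p a = a ∧ a ≠ Gol.pt 2 ∧ a ≠ Gol.pt 3 := by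
    by_cases k : p = 1
    · exact ⟨Gol.pt 1, by simp [k], by decide +kernel, by decide +kernel⟩
    have b1 := (Gol.fix_two (h.todd.acts_mem_M24 e) (orderOf_eq_prime (by
      rw [pow_two]; exact h.todd.acts_unique (e.mul e) (a0 ▸ XS.acts_one _)) k)).resolve_right fun l =>
        Gol.card_fixS_eq_zero.1 l _ h2
    obtain ⟨a, ha, b2⟩ := Finset.exists_mem_notMem_of_card_lt_card (s := {Gol.pt 2, Gol.pt 3}) (t := Gol.fixS p)
      (by rw [Finset.card_pair n1, (Gol.mem_octads.1 b1).2]; decide)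
    exact ⟨a, by simpa using ha, by simpa [not_or] using b2⟩
  obtain ⟨m, hm, p', e1, e2, -⟩ := h.move_pts (u := ![a, Gol.pt 2, Gol.pt 3]) (v := ![Gol.pt 1, Gol.pt 2, Gol.pt 3])
    (by decide) (inj3 a2 a3 n1) (by decide +kernel)
  have f2 : p' (Gol.pt 2) = Gol.pt 2 := e2 1
  have f3 : p' (Gol.pt 3) = Gol.pt 3 := e2 2
  obtain ⟨k, hk, b1⟩ := h.invol_YA ((h.acts_Y ((e1.mul e).mul e1.inv)).2 fun u hu => by
    simp only [T3, Finset.mem_insert, Finset.mem_singleton] at hu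
    rcases hu with rfl | rfl | rfl
    · rw [← show p' a = Gol.pt 1 from e2 0]; simp [a1]
    · rw [← congrArg₂ Eq (congrArg _ f2) f2]; simp [h2]
    · rw [← congrArg₂ Eq (congrArg _ f3) f3]; simp [h3]) (by rw [conj_mul, a0]; group)
  exact h.not_conj_A hr h1 (mul_mem hk.1 (mul_mem ((h.acts_t e1).2 (Or.inl ⟨e2 1, e2 2⟩)) hg))
    (by convert b1 using 1; group)

theorem perfect_Y : ⁅YY σ, YY σ⁆ = YY σ := (FStar.isQuasisimple_iff.1 h.u6.1).der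

end FD

/-- the subgroup `2.Fi22` -/
structure KK (σ : V6 → G) (K : Subgroup G) : Prop where
  le : K ≤ 𝐂[σ (av 0)]
  idx : K.relIndex 𝐂[σ (av 0)] = 2
  Y : YY σ ≤ K
  nn : ∀ k ∈ K, k * σ (w • av 0) * k⁻¹ ≠ σ (w • av 0) * σ (av 0)
  nw : ∃ k ∈ K, Commute (k * σ (w • av 0) * k⁻¹) (σ (w • av 0)) ∧ k * σ (w • av 0) * k⁻¹ ≠ σ (w • av 0) ∧
    k * σ (w • av 0) * k⁻¹ ≠ σ (w • av 0) * σ (av 0)

theorem FD.exists_K (h : FD Q z π c x σ d) : ∃ K, KK σ K := by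
  obtain ⟨μ, m1, m2, m3⟩ := h.big.exists_mu
  have r1 : Rt ![1, 0, 1, 0, 0, 0] := by decide
  have r2 : h6 ![1, 0, 1, 0, 0, 0] (av 0) = 1 := by decide +kernel
  generalize (![1, 0, 1, 0, 0, 0] : V6) = r at r1 r2
  have n1 : Gol.pt 2 ≠ Gol.pt 3 := by decide +kernel
  have a1 : σ r ∈ 𝐂[σ (av 0)] := conj_eq_iff_mem_cent1.1 (by rw [h.s_conj, r2, show t2 1 = 0 by decide, ze_zero, mul_one])
  have a2 : Odd ((𝐍(AA Q c) ⊓ 𝐂[σ (av 0)]).relIndex 𝐂[σ (av 0)]) :=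
    Tl.odd_relIndex_of_unique (P := AA Q c) (le_inf le_normalizer (h.AA_Y.trans inf_le_left))
      (pg_of_sq fun _ => h.toFT.AA_sq) fun g hg k => mem_inf.2 ⟨by
        have := h.big.uq (S := cj g⁻¹ (AA Q c) ⊔ AA Q c) (B := cj g⁻¹ (AA Q c))
          ((pg_of_sq fun _ => h.cj_sq).to_sup_of_normal_right' (pg_of_sq fun _ => h.toFT.AA_sq) (cj_le_iff'.2
            fun a ha => by simpa using (k a ha (h.AA_Y ha).1).1)) le_sup_right le_sup_left (fun _ => h.cj_sq)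
          (by rw [card_cj, h.card_AA])
        exact inv_mem_iff.1 (mem_normalizer_iff_cj.2 this), hg⟩
  obtain ⟨s, hs, p, s1, s2, -⟩ := h.move_pts (u := ![Gol.pt 2, Gol.pt 3]) (v := ![Gol.pt 3, Gol.pt 2]) (by decide)
    (by decide +kernel) (by decide +kernel)
  have a3 : (𝐍(AA Q c) ⊓ 𝐂[σ (av 0)] ⊓ pcomap μ (MulAction.stabilizer _ (Gol.pt 2))).relIndex
      (𝐍(AA Q c) ⊓ 𝐂[σ (av 0)]) = 2 := by
    have b1 : s ∈ 𝐍(AA Q c) ⊓ 𝐂[σ (av 0)] := ⟨hs, (h.acts_t s1).2 (Or.inr ⟨s2 0, s2 1⟩)⟩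
    have b2 : pel μ s (Gol.pt 2) = Gol.pt 3 := h.todd.acts_unique s1 (m3 s hs) ▸ s2 0
    refine relIndex_eq_two_iff_exists_notMem_and.2 ⟨s, b1, fun k => n1 ((mem_pcomap.1 k.2).2.symm.trans b2),
      fun b hb => ((h.acts_t (m3 b hb.1)).1 hb.2).symm.imp (fun k => ⟨mul_mem hb b1, mem_pcomap.2 ⟨mul_mem hb.1 hs, ?_⟩⟩)
        fun k => ⟨hb, mem_pcomap.2 ⟨hb.1, k.1⟩⟩⟩
    rw [MulAction.mem_stabilizer_iff, pel_mul _ hb.1 hs, Perm.smul_def, Perm.mul_apply, b2, k.2]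
  obtain ⟨ε, hε⟩ := exists_sgn a1 (h.s_sq r1.iso.1) a2 ((relIndex_mul_relIndex _ _ _ inf_le_left inf_le_right).symm.trans
    (by rw [a3])) fun g hg k => by
      have b1 := m3 _ k.1.1
      have b2 : pel μ _ (Gol.pt 2) = _ := (mem_pcomap.1 k.2).2
      rw [← inv_inv g, inv_inv g⁻¹] at b1 b2 k
      exact h.not_conj_N0 r1 r2 (inv_mem hg) b1 b2 (((h.acts_t b1).1 k.1.2).elim (·.2) fun l => absurd (b2.symm.trans l.1) n1)
  have a4 : ∀ g ∈ 𝐂[σ (av 0)], g * g ∈ pker ε := fun g hg => mem_pker.2 ⟨mul_mem hg hg, by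
    rw [pel_mul _ hg hg, Int.units_mul_self]⟩
  have a5 : σ r ∉ pker ε := fun k => absurd (hε.symm.trans (mem_pker.1 k).2) (by decide)
  have a6 : YY σ ≤ pker ε := h.perfect_Y.ge.trans (commutator_le.2 fun a ha b hb => mem_pker.2
    ⟨mul_mem (cj_mem ha.1 hb.1) (inv_mem hb.1), (pel_comm _ ha.1 hb.1).trans (by rw [mul_inv_cancel_comm, mul_inv_cancel])⟩)
  obtain ⟨m, hm, g, b1, b2, -⟩ := h.move_pts (u := ![Gol.pt 2, Gol.pt 3, Gol.pt 0, Gol.pt 4])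
    (v := ![Gol.pt 2, Gol.pt 3, Gol.pt 4, Gol.pt 1]) (by decide) (by decide +kernel) (by decide +kernel)
  have b3 := (h.acts_t b1).2 (Or.inl ⟨b2 0, b2 1⟩)
  have b4 : ∀ a, Gol.pt 0 ≠ a → g a = a → m * m * nu z σ d {Gol.pt 0, a} * (m * m)⁻¹ = nu z σ d {Gol.pt 1, a} :=
    fun a k1 k2 => by
      rw [b1.mul b1 _ (XS.even_pair k1), XS.smul_pair, Perm.mul_apply, Perm.mul_apply, show g (Gol.pt 0) = _ from b2 2,
        k2, k2]
      exact congrArg (fun u => nu z σ d {u, a}) (b2 3)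
  have c1 : nu z σ d {Gol.pt 0, Gol.pt 2} = io z σ d (2 ^^^ 64) := by
    rw [show {Gol.pt 0, Gol.pt 2} = Gol.fs 5 by decide +kernel, h.nu_fs (by decide)]; rfl
  have c2 : nu z σ d {Gol.pt 1, Gol.pt 2} = io z σ d (2 ^^^ 1) := by
    rw [show {Gol.pt 1, Gol.pt 2} = Gol.fs 6 by decide +kernel, h.nu_fs (by decide)]; rfl
  have c3 : nu z σ d {Gol.pt 0, Gol.pt 3} = io z σ d 67 := by
    rw [show {Gol.pt 0, Gol.pt 3} = Gol.fs 9 by decide +kernel, h.nu_fs (by decide)]; rfl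
  have c4 : m * m * σ r * σ (w • av 0) * (m * m * σ r)⁻¹ = σ (w • av 0) * σ (av 0) := by
    have := b4 _ (by decide +kernel) (b2 0)
    change _ * nu z σ d {_, Gol.pt 2} * _ = nu z σ d {_, Gol.pt 2} at this
    rw [c1, c2, h.io_xor, h.io_xor, h.io_1, h.io_2, h.io_64] at this
    rw [← this, ← ze_one z, ← show t2 (h6 r (w • av 0)) = 1 by rw [h_smul_right, r2]; decide, ← h.s_conj]; group
  have c5 : (m * m)⁻¹ * σ (w • av 0) * (m * m)⁻¹⁻¹ = io z σ d 67 := by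
    rw [← h.nu_13, ← show _ = nu z σ d {_, Gol.pt 3} from b4 _ (by decide +kernel) (b2 1), ← c3]; group
  refine ⟨pker ε, pker_le_dom ε, relIndex_eq_two_iff_exists_notMem_and.2 ⟨_, a1, a5, fun b hb => ?_⟩, a6,
    fun k hk e => a5 ?_, _, inv_mem (a4 m b3), ?_⟩
  · rw [mem_pker, mem_pker, pel_mul _ hb a1, hε]
    rcases Int.units_eq_one_or (pel ε b) with e | e <;> simp [e, hb, mul_mem hb a1]
  · have c6 : k⁻¹ * (m * m * σ r) ∈ YY σ := mem_inf.2 ⟨mul_mem (inv_mem (pker_le_dom ε hk)) (mul_mem (mul_mem b3 b3) a1),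
      conj_eq_iff_mem_cent1.1 (by
        rw [mul_inv_rev, ← mul_assoc, mul_assoc k⁻¹, mul_assoc k⁻¹, c4, ← e]; group)⟩
    simpa [mul_assoc] using mul_mem (inv_mem (a4 m b3)) (mul_mem hk (a6 c6))
  · rw [c5, ← h.io_2, ← h.io_1, ← h.io_xor]
    exact ⟨h.AA_comm (h.io_mem _) (h.io_mem _), fun k => absurd (h.io_inj (by decide) (by decide) k) (by decide),
      fun k => absurd (h.io_inj (by decide) (by decide) k) (by decide)⟩

namespace KK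
variable {K : Subgroup G} (k : KK σ K) (h : FD Q z π c x σ d) {P : Type*} [Group P] {ρ : K →* P}
include k

theorem mul_iff (ha : a ∈ 𝐂[σ (av 0)]) (hb : b ∈ 𝐂[σ (av 0)]) : a * b ∈ K ↔ (a ∈ K ↔ b ∈ K) :=
  mul_mem_iff_of_index_two (a := ⟨a, ha⟩) (b := ⟨b, hb⟩) k.idx
theorem conj_mem (hg : g ∈ 𝐂[σ (av 0)]) (ha : a ∈ K) : g * a * g⁻¹ ∈ K := by
  rw [k.mul_iff (mul_mem hg (k.le ha)) (inv_mem hg), k.mul_iff hg (k.le ha), inv_mem_iff]; tauto
theorem der_le : ⁅𝐂[σ (av 0)], 𝐂[σ (av 0)]⁆ ≤ K := commutator_le.2 fun a ha b hb => by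
  rw [commutatorElement_def, k.mul_iff (cj_mem ha hb) (inv_mem hb), k.mul_iff (mul_mem ha hb) (inv_mem ha),
    k.mul_iff ha hb, inv_mem_iff, inv_mem_iff]; tauto

include h
theorem t_mem : σ (av 0) ∈ K := k.Y (h.AA_Y (h.s_AA (inU_av 0)))
theorem e_mem : σ (w • av 0) ∈ K := k.Y (h.AA_Y (h.s_AA ((inU_av 0).smul w)))
theorem A_le : AA Q c ≤ K := h.AA_Y.trans k.Y
theorem t_sq : σ (av 0) * σ (av 0) = 1 := h.s_sq (iso_av 0).1
theorem t_ne : σ (av 0) ≠ 1 := fun e => (iso_av 0).2 (by rw [← h.c_s (av 0), e, h.c_one])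
theorem t_ord : orderOf (σ (av 0)) = 2 := orderOf_eq_prime (by rw [pow_two, k.t_sq h]) (k.t_ne h)

theorem exists_rho : ∃ (P : Type u) (_ : Group P) (ρ : K →* P), Function.Surjective ρ ∧
    pker ρ = zpowers (σ (av 0)) := by
  have : ((zpowers (σ (av 0))).subgroupOf K).Normal := (normal_subgroupOf_iff_le_normalizer (zpowers_le.2 (k.t_mem h))).2
    (k.le.trans ((cent_zpowers _).ge.trans (centralizer_le_normalizer _)))
  refine ⟨_, _, QuotientGroup.mk' ((zpowers (σ (av 0))).subgroupOf K), QuotientGroup.mk'_surjective _, ?_⟩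
  rw [← inf_of_le_left (pker_le_dom _), ← subgroupOf_map_subtype, pker_subgroupOf, QuotientGroup.ker_mk',
    subgroupOf_map_subtype, inf_of_le_left (zpowers_le.2 (k.t_mem h))]

variable (hs : Function.Surjective ρ) (hk : pker ρ = zpowers (σ (av 0)))
include hs hk

theorem pel_eq (ha : a ∈ K) (hb : b ∈ K) : pel ρ a = pel ρ b ↔ a = b ∨ a = b * σ (av 0) := by
  rw [pel_eq_iff _ ha hb, hk, mem_zp2 (k.t_sq h), mul_inv_eq_one, mul_inv_eq_iff_eq_mul, ← mem_cent1_iff.1 (k.le hb)]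

theorem pmap_Y : pmap ρ (YY σ) = 𝐂[pel ρ (σ (w • av 0))] := by
  refine le_antisymm ((pmap_mono _ inf_le_right).trans (pmap_cent1 _ (k.e_mem h))) fun p hp => ?_
  obtain ⟨a, rfl⟩ := hs p
  rw [← pel_coe] at hp ⊢
  rw [← conj_eq_iff_mem_cent1, ← pel_conj _ a.2 (k.e_mem h), k.pel_eq h hs hk (cj_mem a.2 (k.e_mem h)) (k.e_mem h)] at hp
  exact pel_mem_pmap _ ⟨k.le a.2, conj_eq_iff_mem_cent1.1 (hp.resolve_right (k.nn _ a.2))⟩

theorem k22 : orderOf (pel ρ (σ (w • av 0))) = 2 ∧ IsQuasisimple 𝐂[pel ρ (σ (w • av 0))] ∧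
    (∃ _ : ((zpowers (pel ρ (σ (w • av 0)))).subgroupOf 𝐂[pel ρ (σ (w • av 0))]).Normal,
      IsU6 (𝐂[pel ρ (σ (w • av 0))] ⧸ (zpowers (pel ρ (σ (w • av 0)))).subgroupOf 𝐂[pel ρ (σ (w • av 0))])) ∧
    ∃ g, g * pel ρ (σ (w • av 0)) * g⁻¹ ∈ 𝐂[pel ρ (σ (w • av 0))] ∧
      g * pel ρ (σ (w • av 0)) * g⁻¹ ≠ pel ρ (σ (w • av 0)) := by
  have a0 := k.e_mem h
  have a1 : pel ρ (σ (w • av 0)) ≠ 1 := by
    rw [← pel_one ρ, Ne, k.pel_eq h hs hk a0 (one_mem _), one_mul, ← h.io_1, ← h.io_2, ← h.io_zero]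
    rintro (e | e) <;> exact absurd (h.io_inj (by decide) (by decide) e) (by decide)
  have a2 : ((zpowers (pel ρ (σ (w • av 0)))).subgroupOf 𝐂[pel ρ (σ (w • av 0))]).Normal :=
    (normal_subgroupOf_iff_le_normalizer (zpowers_le.2 (self_mem_cent1 _))).2
      ((cent_zpowers _).ge.trans (centralizer_le_normalizer _))
  refine ⟨orderOf_eq_prime (by rw [pow_two, ← pel_mul _ a0 a0, h.toFT.AA_sq (h.s_AA ((inU_av 0).smul w)), pel_one]) a1,
    ?_, ⟨a2, ?_⟩, ?_⟩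
  · rw [FStar.isQuasisimple_iff, ← k.pmap_Y h hs hk]
    exact ((FStar.isQuasisimple_iff.1 h.u6.1).subgroupOf k.Y).map
      (ne_bot_of_mem ((k.pmap_Y h hs hk).ge (self_mem_cent1 _)) a1)
  · revert a2
    rw [← congrArg (fun C : Subgroup P => ∀ _ : ((zpowers (pel ρ (σ (w • av 0)))).subgroupOf C).Normal,
      IsU6 (C ⧸ (zpowers (pel ρ (σ (w • av 0)))).subgroupOf C)) (k.pmap_Y h hs hk)]
    intro _
    refine h.u6.2.2.congr ((QuotientGroup.quotientMulEquivOfEq ?_).trans (QuotientGroup.quotientKerEquivOfSurjective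
      ((QuotientGroup.mk' _).comp (pmapHom ρ k.Y)) ((QuotientGroup.mk'_surjective _).comp (pmapHom_surjective _ _))))
    ext y
    rw [h.u6.2.1, MonoidHom.mem_ker, MonoidHom.comp_apply, QuotientGroup.mk'_apply, QuotientGroup.eq_one_iff,
      mem_subgroupOf, mem_subgroupOf, pmapHom_apply, ← pmap_zpowers _ a0]
    have := mem_pcomap (f := ρ) (U := pmap ρ (zpowers (σ (w • av 0)))) (x := y)
    rw [pcomap_pmap _ (zpowers_le.2 a0), hk, and_iff_right (k.Y y.2)] at this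
    rw [← this, EE, Set.insert_eq, Subgroup.closure_union, zpowers_eq_closure, zpowers_eq_closure]
  · obtain ⟨g, hg, e1, e2, e3⟩ := k.nw
    refine ⟨pel ρ g, ?_, ?_⟩ <;> rw [← pel_conj _ hg a0]
    · rw [mem_cent1_iff, ← pel_mul _ (cj_mem hg a0) a0, e1.eq, pel_mul _ a0 (cj_mem hg a0)]
    · rw [Ne, k.pel_eq h hs hk (cj_mem hg a0) a0, not_or]; exact ⟨e2, e3⟩

theorem type22 : IsThreeTranspositionClass (conjugatesOf (pel ρ (σ (w • av 0)))) ∧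
    IsPrimitiveUnderConj (conjugatesOf (pel ρ (σ (w • av 0)))) ∧ IsOfTypeM22 P (conjugatesOf (pel ρ (σ (w • av 0)))) := by
  have : Finite P := Finite.of_surjective _ hs
  obtain ⟨a1, a2, ⟨_, a3⟩, a4⟩ := k.k22 h hs hk
  exact Tl.type22_of_cent a1 a2.1 a3 a4

theorem simpleP : IsSimpleGroup P ∧ center P = ⊥ ∧ Nat.card P = 64561751654400 ∧
    Nat.card (MulAut P) ≤ 2 * 64561751654400 := by
  have : Finite P := Finite.of_surjective _ hs
  obtain ⟨a1, a2, a3⟩ := k.type22 h hs hk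
  exact ⟨simple_m22 (TT.class_group a1) a2 a3, a3.1, card_m22 (TT.class_group a1) a2 a3,
    card_aut_m22 (TT.class_group a1) a2 a3⟩

omit hs hk in
theorem perfect : ⁅K, K⁆ = K := by
  obtain ⟨P, _, ρ, hs, hk⟩ := k.exists_rho h
  obtain ⟨_, a1, -⟩ := k.simpleP h hs hk
  refine le_antisymm (commutator_le_self _) ?_
  have a2 : commutator P = ⊤ := (IsSimpleGroup.eq_bot_or_eq_top_of_normal _ inferInstance).resolve_left fun e => by
    rw [(commutator_eq_bot_iff_center_eq_top _).1 e] at a1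
    exact absurd a1 top_ne_bot
  have := (pmap_le_pmap_iff (f := ρ) le_rfl (commutator_le_self K)).1 (by
    rw [pmap_commutator _ le_rfl le_rfl, pmap_dom, MonoidHom.range_eq_top.2 hs]; exact a2.ge)
  rwa [hk, sup_eq_right.2 (zpowers_le.2 (commutator_mono k.Y k.Y (h.perfect_Y.ge (h.AA_Y (h.s_AA (inU_av 0))))))] at this

omit hs hk in
theorem cent : 𝐂(K) = zpowers (σ (av 0)) := by
  obtain ⟨P, _, ρ, hs, hk⟩ := k.exists_rho h
  obtain ⟨_, a1, -⟩ := k.simpleP h hs hk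
  refine le_antisymm (fun g hg => ?_) (zpowers_le.2 (mem_cent_iff_le_cent1.2 k.le))
  have a2 : g ∈ K := k.Y ⟨mem_cent1_iff.2 (hg _ (k.t_mem h)).symm, mem_cent1_iff.2 (hg _ (k.e_mem h)).symm⟩
  refine hk ▸ mem_pker.2 ⟨a2, mem_bot.1 (a1 ▸ mem_center_iff.2 fun p => ?_)⟩
  obtain ⟨a, rfl⟩ := hs p
  rw [← pel_coe, ← pel_mul _ a.2 a2, hg _ a.2, pel_mul _ a2 a.2]

omit hs hk in
theorem qs : IsQuasisimple K := by
  obtain ⟨P, _, ρ, hs, hk⟩ := k.exists_rho h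
  obtain ⟨_, a1, -⟩ := k.simpleP h hs hk
  refine ⟨⟨map_injective (subtype_injective K) ?_⟩, ((QuotientGroup.quotientMulEquivOfEq ?_).trans
    (QuotientGroup.quotientKerEquivOfSurjective ρ hs)).isSimpleGroup⟩
  · rw [_root_.commutator_def, map_commutator, ← MonoidHom.range_eq_map, range_subtype, k.perfect h]
  · ext y
    rw [← pker_subgroupOf, hk, ← k.cent h, mem_subgroupOf, mem_center_iff, CA.mem_cent_iff]
    exact ⟨fun e a ha => congrArg Subtype.val (e ⟨a, ha⟩), fun e a => Subtype.ext (e a a.2)⟩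

theorem fix_of {β : MulAut G} (h1 : ∀ a ∈ K, β a ∈ K) (h2 : ∀ a ∈ K, pel ρ (β a) = pel ρ a) : ∀ a ∈ K, β a = a :=
  fix_of_perfect (k.perfect h) β k.le fun a ha => hk ▸ (pel_eq_iff _ (h1 a ha) ha).1 (h2 a ha)

theorem exists_theta : ∃ θ : ↥𝐂[σ (av 0)] →* MulAut P, Function.Surjective θ ∧
    θ.ker = (zpowers (σ (av 0))).subgroupOf _ ∧ ∀ g, ∀ a ∈ K, θ g (pel ρ a) = pel ρ (g * a * (g : G)⁻¹) := by
  have : Finite P := Finite.of_surjective _ hs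
  obtain ⟨θ, e⟩ := exists_aut_quot ρ hs (MulAut.conj.comp (𝐂[σ (av 0)]).subtype) (fun g a ha => k.conj_mem g.2 ha)
    fun g a ha => by
      rw [hk] at ha ⊢
      exact conj_mem_of_mem_normalizer (centralizer_le_normalizer _ ((cent_zpowers _).ge g.2)) ha
  have a1 : θ.ker = (zpowers (σ (av 0))).subgroupOf _ := by
    ext g
    rw [MonoidHom.mem_ker, mem_subgroupOf, ← k.cent h]
    refine ⟨fun f => CA.mem_cent_iff'.2 fun a ha => mul_inv_eq_iff_eq_mul.1 (k.fix_of h hs hk (β := MulAut.conj g.1)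
      (fun a ha => k.conj_mem g.2 ha) (fun a ha => (e g a ha).symm.trans (by rw [f, MulAut.one_apply])) a ha),
      fun f => MulEquiv.ext fun p => ?_⟩
    obtain ⟨a, rfl⟩ := hs p
    rw [← pel_coe ρ, e g a a.2]
    exact congrArg (pel ρ) (conj_eq_of_mem_cent f a.2)
  refine ⟨θ, MonoidHom.range_eq_top.1 (eq_top_of_card_eq _ (le_antisymm (card_le_card_group _) ?_)), a1, e⟩
  obtain ⟨-, -, b1, b2⟩ := k.simpleP h hs hk
  have b3 := θ.ker.card_mul_index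
  have b4 := card_pmap_mul ρ le_rfl
  have b5 := card_mul_relIndex k.le
  rw [index_ker, a1, Nat.card_congr (subgroupOfEquivOfLe (zpowers_le.2 (self_mem_cent1 _))).toEquiv, Nat.card_zpowers,
    k.t_ord h] at b3
  rw [hk, inf_of_le_left (zpowers_le.2 (k.t_mem h)), Nat.card_zpowers, k.t_ord h, pmap_dom,
    MonoidHom.range_eq_top.2 hs, card_top, b1] at b4
  rw [k.idx] at b5
  omega

end KK

end CA.F24
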