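import Cfsg.Agent.Lib.F24.Y4

/-!
The presentation `Y₅₄₂` of `Fi₂₄`: the last relator contracts a cycle of the commuting graph;
the presented group is of type `M(24)`.
-/

set_option autoImplicit false
set_option maxRecDepth 100000
set_option Elab.async false

namespace CA.Y24
open CA.Fi CA.TC CA.TT Equiv Subgroup Cfsg Cfsg.Spor

variable {Γ G : Type*} [Group Γ] [Group G]

/-- adjacency of cosets -/
def Adj (H : Subgroup Γ) (s a b : Γ) : Prop := ∃ h1 ∈ H, ∃ h2 ∈ H, b = a * h1 * s * h2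

/-- the local data of the coset graph -/
structure Wk (φ : Γ →* G) (D : Set G) (H : Subgroup Γ) (s l : Γ) : Prop where
  cj : ∀ a : Γ, ∀ x ∈ D, φ a * x * (φ a)⁻¹ ∈ D
  ss : s * s = 1
  hl : ∀ h ∈ H, Commute h l
  ls : Commute l (s * l * s⁻¹)
  dD : φ l ∈ D
  ne : φ (s * l * s⁻¹) ≠ φ l
  ex : ∀ x ∈ Dd D (φ l), ∃ h ∈ H, φ (h * s * l * (h * s)⁻¹) = x
  U : ∀ h ∈ H, Commute (φ h) (φ (s * l * s⁻¹)) → s⁻¹ * h * s ∈ H
  T : ∀ x ∈ Dd (Dd D (φ l)) (φ (s * l * s⁻¹)), ∃ h ∈ H, φ (h * s * l * (h * s)⁻¹) = x ∧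
    Adj H s s (h * s)

section adj
variable {H : Subgroup Γ} {s l a b c h : Γ}
theorem Adj.left (e : Adj H s a b) (c : Γ) : Adj H s (c * a) (c * b) := by
  obtain ⟨h1, m1, h2, m2, rfl⟩ := e
  exact ⟨h1, m1, h2, m2, by group⟩
theorem Adj.right (e : Adj H s a b) (hh : h ∈ H) : Adj H s a (b * h) := by
  obtain ⟨h1, m1, h2, m2, rfl⟩ := e
  exact ⟨h1, m1, h2 * h, mul_mem m2 hh, by group⟩
theorem Adj.right' (e : Adj H s a b) (hh : h ∈ H) : Adj H s (a * h) b := by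
  obtain ⟨h1, m1, h2, m2, rfl⟩ := e
  exact ⟨h⁻¹ * h1, mul_mem (inv_mem hh) m1, h2, m2, by group⟩
theorem adj_one (hh : h ∈ H) : Adj H s 1 (h * s) := ⟨h, hh, 1, one_mem _, by group⟩
end adj

/-- a path of length three from the base coset -/
def Inv (φ : Γ →* G) (H : Subgroup Γ) (s l a : Γ) (x y : G) : Prop :=
  ∃ b c, Adj H s 1 b ∧ φ (b * l * b⁻¹) = x ∧ Adj H s b c ∧ φ (c * l * c⁻¹) = y ∧ Adj H s c a

theorem dd_conj {D : Set G} {g x y : G} (hg : ∀ x ∈ D, g * x * g⁻¹ ∈ D) (h : y ∈ Dd D x) :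
    g * y * g⁻¹ ∈ Dd D (g * x * g⁻¹) :=
  ⟨hg _ h.1, fun e => h.2.1 (by simpa using e), (commute_conj_iff g).2 h.2.2⟩

namespace Wk
variable {φ : Γ →* G} {D : Set G} {H : Subgroup Γ} {s l a b c : Γ} {x y : G} (W : Wk φ D H s l)
include W

theorem symm (e : Adj H s a b) : Adj H s b a := by
  obtain ⟨h1, m1, h2, m2, rfl⟩ := e
  refine ⟨h2⁻¹, inv_mem m2, h1⁻¹, inv_mem m1, ?_⟩
  calc a = a * h1 * (s * s) * h1⁻¹ := by rw [W.ss]; group
    _ = _ := by group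

theorem pv_mul {h : Γ} (hh : h ∈ H) (a : Γ) : a * h * l * (a * h)⁻¹ = a * l * a⁻¹ := by
  rw [← conj_of_commute (W.hl h hh), conj_of_commute (W.hl h hh), mul_assoc a, (W.hl h hh).eq]; group

theorem comm (e : Adj H s a b) : Commute (a * l * a⁻¹) (b * l * b⁻¹) := by
  obtain ⟨h1, m1, h2, m2, rfl⟩ := e
  rw [W.pv_mul m2, ← W.pv_mul m1 a, show a * h1 * s * l * (a * h1 * s)⁻¹ =
    a * h1 * (s * l * s⁻¹) * (a * h1)⁻¹ by group]
  exact (commute_conj_iff _).2 W.ls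

theorem mem (a : Γ) : φ (a * l * a⁻¹) ∈ D := by simpa using W.cj a _ W.dD

theorem dd (e : Adj H s a b) : φ (b * l * b⁻¹) ∈ Dd D (φ (a * l * a⁻¹)) := by
  refine ⟨W.mem b, ?_, (W.comm e).map φ⟩
  obtain ⟨h1, m1, h2, m2, rfl⟩ := e
  rw [W.pv_mul m2, ← W.pv_mul m1 a]
  intro e
  apply W.ne
  rw [show a * h1 * s * l * (a * h1 * s)⁻¹ = a * h1 * (s * l * s⁻¹) * (a * h1)⁻¹ by group, map_mul,
    map_mul, map_mul _ _ (a * h1)⁻¹, map_mul _ (a * h1) l] at e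
  exact mul_left_cancel (mul_right_cancel e)

theorem uniq (e1 : Adj H s c a) (e2 : Adj H s c b) (e : φ (a * l * a⁻¹) = φ (b * l * b⁻¹)) :
    ∃ h ∈ H, b = a * h := by
  obtain ⟨h1, m1, h2, m2, rfl⟩ := e1
  obtain ⟨h3, m3, h4, m4, rfl⟩ := e2
  rw [W.pv_mul m2, W.pv_mul m4] at e
  have := W.U _ (mul_mem (inv_mem m1) m3) (commute_of_conj (by
    simp only [map_mul, map_inv] at e ⊢
    calc _ = (φ c * φ h1)⁻¹ * (φ c * φ h3 * φ s * φ l * (φ c * φ h3 * φ s)⁻¹) * (φ c * φ h1) := by group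
      _ = _ := by rw [← e]; group))
  exact ⟨_, mul_mem (mul_mem (inv_mem m2) this) m4, by group⟩

theorem exi (hx : x ∈ Dd D (φ (a * l * a⁻¹))) : ∃ b, Adj H s a b ∧ φ (b * l * b⁻¹) = x := by
  obtain ⟨h, hh, e⟩ := W.ex _ (by simpa [mul_assoc] using dd_conj (W.cj a⁻¹) hx)
  refine ⟨a * (h * s), by simpa using (adj_one hh).left a, ?_⟩
  rw [show a * (h * s) * l * (a * (h * s))⁻¹ = a * (h * s * l * (h * s)⁻¹) * a⁻¹ by group, map_mul,
    map_mul, e]
  simp [mul_assoc]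

theorem tri (e1 : Adj H s c a) (e2 : Adj H s c b) (e : φ (b * l * b⁻¹) ∈ Dd D (φ (a * l * a⁻¹))) :
    Adj H s a b := by
  obtain ⟨h1, m1, h2, m2, rfl⟩ := e1
  rw [W.pv_mul m2] at e
  have e3 : Adj H s 1 ((c * h1)⁻¹ * b) := by simpa using (e2.right' m1).left (c * h1)⁻¹
  have e4 := W.dd e3
  have e5 := dd_conj (W.cj (c * h1)⁻¹) e
  obtain ⟨h, hh, f1, f2⟩ := W.T _ ⟨by simpa using e4, by simpa [mul_assoc] using e5.2⟩
  obtain ⟨k, hk, f3⟩ := W.uniq (adj_one hh) e3 (by simpa using f1)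
  have := ((f2.right hk).left (c * h1)).right' m2
  rwa [← f3, mul_inv_cancel_left] at this

omit W in
theorem op0 {h : Γ} (hh : h ∈ H) (e : Inv φ H s l a x y) :
    Inv φ H s l (h * a) (φ h * x * (φ h)⁻¹) (φ h * y * (φ h)⁻¹) := by
  obtain ⟨b, c, e1, rfl, e2, rfl, e3⟩ := e
  exact ⟨h * b, h * c, by simpa using (e1.left h).right' (inv_mem hh), by simp [mul_assoc], e2.left h,
    by simp [mul_assoc], e3.left h⟩

theorem op1 {k w : Γ} (hw : w ∈ H) (hk : Commute k w) (hs : s⁻¹ * k * s ∈ H)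
    (hx : φ (w * s * l * (w * s)⁻¹) = x) (e : Inv φ H s l a x y) :
    Inv φ H s l (k * a) x (φ k * y * (φ k)⁻¹) := by
  obtain ⟨b, c, e1, e0, e2, rfl, e3⟩ := e
  obtain ⟨h, hh, rfl⟩ := W.uniq (adj_one hw) e1 (hx.trans e0.symm)
  have : k * (w * s * h) = w * s * (s⁻¹ * k * s * h) := by rw [← mul_assoc, ← mul_assoc, hk.eq]; group
  exact ⟨k * (w * s * h), k * c, this ▸ (adj_one hw).right (mul_mem hs hh),
    by rw [this, W.pv_mul (mul_mem hs hh), hx], e2.left k, by simp [mul_assoc], e3.left k⟩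

theorem op2 {x' : G} (h1 : x' ∈ Dd D (φ l)) (h2 : x' ∈ Dd D x) (h3 : y ∈ Dd D x')
    (e : Inv φ H s l a x y) : Inv φ H s l a x' y := by
  obtain ⟨b, c, e1, rfl, e2, rfl, e3⟩ := e
  obtain ⟨b', f1, rfl⟩ := W.exi h2
  exact ⟨b', c, W.tri (W.symm e1) f1 (by simpa using h1), rfl, W.tri f1 e2 h3, rfl, e3⟩

theorem op3 {y' : G} (h1 : y' ∈ Dd D y) (h2 : y' ∈ Dd D x) (h3 : φ (a * l * a⁻¹) ∈ Dd D y')
    (e : Inv φ H s l a x y) : Inv φ H s l a x y' := by
  obtain ⟨b, c, e1, rfl, e2, rfl, e3⟩ := e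
  obtain ⟨c', f1, rfl⟩ := W.exi h1
  exact ⟨b, c', e1, rfl, W.tri (W.symm e2) f1 h2, rfl, W.tri f1 e3 h3⟩

theorem start (h1 : y ∈ Dd D (φ l)) (h2 : y ∈ Dd D (φ (s * l * s⁻¹))) :
    Inv φ H s l 1 (φ (s * l * s⁻¹)) y := by
  obtain ⟨c, f1, rfl⟩ := W.exi (a := 1) (by simpa using h1)
  have e : Adj H s 1 s := by simpa using adj_one (s := s) (one_mem H)
  exact ⟨s, c, e, rfl, W.tri e f1 h2, rfl, W.symm f1⟩

theorem stop (h1 : y ∈ Dd D (φ l)) (hm : s * l * s⁻¹ ∈ H) (e : Inv φ H s l a x y) :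
    ∃ v ∈ H, φ v = y ∧ Commute v (a * l * a⁻¹) := by
  obtain ⟨b, c, e1, rfl, e2, rfl, e3⟩ := e
  refine ⟨_, ?_, rfl, W.comm e3⟩
  obtain ⟨k, m1, h2, m2, rfl⟩ := W.tri (W.symm e1) e2 (by simpa using h1)
  rw [W.pv_mul m2, show 1 * k * s * l * (1 * k * s)⁻¹ = k * (s * l * s⁻¹) * k⁻¹ by group]
  exact mul_mem (mul_mem m1 hm) (inv_mem m1)

end Wk

noncomputable def cm (a : Cw) (q : ℕ) : Bool :=
  an (nt (Nat.beq (S24.cp a) q)) (Nat.beq (apW S24.tab (cjW a) q) q)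

noncomputable def run (st : List (ℕ × Cw)) : ℕ → ℕ → ℕ → Bool :=
  List.rec (fun _ y _ => Nat.beq y 8645) (fun s _ rc x y p =>
    cond' (Nat.beq s.1 0) (an (lt' s.2.2 13) (frc (S24.tab s.2.2 x) fun x' =>
      frc (S24.tab s.2.2 y) fun y' => frc (S24.tab s.2.2 p) (rc x' y')))
    (cond' (Nat.beq s.1 1) (an (allL (fun i => memL i c24.ls) s.2.1) (an (Nat.beq (apW S24.tab s.2.1 3510) x)
      (frc (S24.tab 13 y) fun y' => frc (S24.tab 13 p) (rc x y'))))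
    (an (cOK 14 s.2) (an (cm s.2 x) (an (cm s.2 y) (frc (S24.cp s.2) fun q =>
      cond' (Nat.beq s.1 2) (an (lt' q 31671) (rc q y p)) (an (cm s.2 p) (rc x q p)))))))) st

def wd : List (ℕ × Cw) → List ℕ
  | [] => []
  | s :: st => wd st ++ if s.1 = 0 then [s.2.2] else if s.1 = 1 then [13] else []

def steps : List (ℕ × Cw) := [(0, [], 6), (0, [], 5), (0, [], 1), (0, [], 11), (0, [], 4), (0, [], 3), (0, [], 2), (0, [], 1), (0, [], 12), (1, [1, 2, 3, 4, 11], 0), (0, [], 8), (0, [], 9), (0, [], 0), (0, [], 1), (0, [], 6), (0, [], 5), (0, [], 1), (0, [], 11), (0, [], 4), (0, [], 3), (0, [], 2), (0, [], 1), (0, [], 12), (1, [2, 1, 5, 0, 1, 2, 3, 4, 11], 0), (0, [], 8), (0, [], 9), (0, [], 0), (0, [], 1), (0, [], 6), (0, [], 5), (0, [], 1), (0, [], 11), (0, [], 4), (0, [], 3), (0, [], 2), (0, [], 1), (0, [], 12), (1, [1, 5, 2, 1, 0, 9, 5, 6, 3, 2, 1, 5, 0, 1, 2, 3, 4, 11], 0), (0, [], 8), (0, [],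 9), (0, [], 0), (0, [], 1), (0, [], 6), (0, [], 5), (0, [], 1), (0, [], 11), (0, [], 4), (0, [], 3), (0, [], 2), (0, [], 1), (0, [], 12), (2, [], 3), (1, [4, 11, 10, 3, 4, 11], 0), (0, [], 8), (0, [], 9), (0, [], 0), (0, [], 1), (0, [], 6), (0, [], 5), (0, [], 1), (0, [], 11), (0, [], 4), (0, [], 3), (0, [], 2), (0, [], 1), (0, [], 12), (1, [11, 10, 4, 11], 0), (0, [], 8), (0, [], 9), (0, [], 0), (0, [], 1), (0, [], 6), (0, [], 5), (0, [], 1), (0, [], 11), (0, [], 4), (0, [], 3), (0, [], 2), (0, [], 1), (0, [], 12), (1, [10, 11], 0), (0, [], 8), (0, [], 9), (0, [], 0), (0, [], 1), (0, [], 6), (0, [], 5), (0, [], 1), (0, [], 11), (0, [], 4), (0, [], 3), (0, [], 2), (0, [], 1), (0, [], 12), (1, [10, 1, 2, 3, 4, 11], 0), (0, [], 8), (0, [], 9), (0, [], 0), (0, [], 1), (0, [], 6), (0, [], 5), (0, [], 1), (0, [], 11), (0, [], 4), (0, [], 3), (0, [], 2), (0, [], 1), (0, [], 12), (1, [3, 4, 11, 10,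 5, 0, 1, 2, 3, 4, 11], 0), (0, [], 8), (0, [], 9), (0, [], 0), (0, [], 1), (0, [], 6), (0, [], 5), (0, [], 1), (0, [], 11), (0, [], 4), (0, [], 3), (0, [], 2), (0, [], 1), (0, [], 12), (1, [4, 11, 10, 9, 1, 5, 6, 2, 1, 5, 0, 1, 2, 3, 4, 11], 0), (0, [], 8), (0, [], 9), (0, [], 0), (0, [], 1), (0, [], 6), (0, [], 5), (0, [], 1), (0, [], 11), (0, [], 4), (0, [], 3), (0, [], 2), (0, [], 1), (0, [], 12), (2, [5, 1], 0), (1, [2, 3, 4, 11, 10, 5, 0, 1, 2, 3, 4, 11], 0), (0, [], 8), (0, [], 9), (0, [], 0), (0, [], 1), (0, [], 6), (0, [], 5), (0, [], 1), (0, [], 11), (0, [], 4), (0, [], 3), (0, [], 2), (0, [], 1), (0, [], 12), (1, [3, 4, 11, 10, 9, 6, 1, 5, 0, 1, 2, 3, 4, 11], 0), (0, [], 8), (0, [], 9), (0, [], 0), (0, [], 1), (0, [], 6), (0, [], 5), (0, [], 1), (0, [], 11), (0, [], 4), (0, [], 3), (0, [], 2), (0, [], 1), (0, [], 12), (3, [12, 1, 2, 3, 7, 13, 12, 8, 7, 13, 11, 6, 7, 4], 3), (2, [],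 2), (1, [3, 4, 11, 10, 2, 3, 4, 11], 0), (0, [], 8), (0, [], 9), (0, [], 0), (0, [], 1), (0, [], 6), (0, [], 5), (0, [], 1), (0, [], 11), (0, [], 4), (0, [], 3), (0, [], 2), (0, [], 1), (0, [], 12), (1, [4, 11, 10, 5, 1, 2, 3, 4, 11], 0), (0, [], 8), (0, [], 9), (0, [], 0), (0, [], 1), (0, [], 6), (0, [], 5), (0, [], 1), (0, [], 11), (0, [], 4), (0, [], 3), (0, [], 2), (0, [], 1), (0, [], 12), (1, [11, 10, 1, 5, 6, 2, 1, 5, 0, 1, 2, 3, 4, 11], 0), (0, [], 8), (0, [], 9), (0, [], 0), (0, [], 1), (0, [], 6), (0, [], 5), (0, [], 1), (0, [], 11), (0, [], 4), (0, [], 3), (0, [], 2), (0, [], 1), (0, [], 12), (1, [10, 1, 5, 2, 1, 0, 9, 1, 5, 6, 3, 2, 1, 5, 0, 1, 2, 3, 4, 11], 0), (0, [], 8), (0, [], 9), (0, [], 0), (0, [], 1), (0, [], 6), (0, [], 5), (0, [], 1), (0, [], 11), (0, [], 4), (0, [], 3), (0, [], 2), (0, [], 1), (0, [], 12), (2, [8, 9, 2, 1, 5, 6, 7, 5, 4, 3, 2, 1], 0), (1, [11, 10, 5, 2,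 1, 0, 9, 5, 6, 2, 1, 5, 0, 1, 2, 3, 4, 11], 0), (0, [], 8), (0, [], 9), (0, [], 0), (0, [], 1), (0, [], 6), (0, [], 5), (0, [], 1), (0, [], 11), (0, [], 4), (0, [], 3), (0, [], 2), (0, [], 1), (0, [], 12), (0, [], 12), (3, [7, 3, 4, 11, 6, 5, 1, 2, 3, 7, 6, 1, 5, 4, 3, 2, 1], 0)]
theorem steps_ok : run steps 3510 0 31671 = true := by decide +kernel
theorem steps_wd : wd steps = 12 :: (pw wW 17).drop 5 := by decide +kernel

def u0 : Cw := ([7, 3, 4, 11, 6, 5, 1, 2, 3, 7, 6, 1, 5, 4, 3, 2, 1], 0)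

theorem cls24 : ∀ ρ ∈ R24, (∀ i ∈ lets ρ, i ∈ AH) ∨ (∀ i ∈ lets ρ, i ∈ AJ) ∨
    (∀ i ∈ lets ρ, i ∈ 6 :: cs.map (·.1)) ∨ ρ = ((cjW u0, 13), ([], 13)) := by decide +kernel

namespace Cx
variable {G0 : ℕ → Γ} {φ : Γ →* G} {D : Set G} {t : ℕ → G} {ι : G →* Perm ℕ} (h : Cx G0 φ D t ι)
include h

theorem cjJ {a b : Cw} (e1 : ∀ i ∈ a.2 :: a.1 ++ b.2 :: b.1, i ∈ AJ) (e2 : S24.cp a = S24.cp b) :
    Fi.cj (gg G0) a = Fi.cj (gg G0) b := by
  have k : ∀ i ∈ AJ, i < 14 := by decide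
  have a1 := fun i hi => e1 i (List.mem_append_left _ hi)
  have a2 := fun i hi => e1 i (List.mem_append_right _ hi)
  exact h.injJ.eq (cj_mem fun i hi => memJ i (a1 i hi)) (cj_mem fun i hi => memJ i (a2 i hi)) (by
    rw [h.cjg (wOK_iff.2 fun i hi => k i (a1 i hi)), h.cjg (wOK_iff.2 fun i hi => k i (a2 i hi)), e2])

theorem oneg {w : List ℕ} (hw : ∀ i ∈ w, i ∈ AJ) (e : S24.relW w = true) : ev (gg G0) w = 1 :=
  h.injJ _ (ev_mem fun i hi => memJ i (hw i hi)) (by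
    rw [h.evg fun i hi => (by decide : ∀ i ∈ AJ, i < 14) i (hw i hi), h.mod.ev_eq_one e])

theorem slm : ev (gg G0) sw * gg G0 12 * (ev (gg G0) sw)⁻¹ = gg G0 10 := by
  simpa [Fi.cj] using h.cjJ (a := (sw, 12)) (b := ([], 10)) (by decide +kernel) (by decide +kernel)

theorem memS : ∀ i ∈ 6 :: cs.map (·.1),
    gg G0 i ∈ (KS (gg G0) AH).comap (MulAut.conj (ev (gg G0) sw)).toMonoidHom :=
  h.conj_mem (A := AH) (fun _ hi => mem_KS _ hi) (by decide +kernel) (by decide +kernel)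

theorem dd_l {p : ℕ} (hp : p < 31671) : t p ∈ Dd D (φ (gg G0 12)) := by
  obtain ⟨T3, m3⟩ := mdl23
  obtain ⟨τ4, l4⟩ := lev24 m3
  obtain ⟨T4, m4⟩ := mdl24
  rw [h.mapg (by decide)]
  exact (l4.dd_eq m4 h.mod).ge ⟨p, hp, rfl⟩

theorem cm_spec {a : Cw} (ha : cOK 14 a = true) {q : ℕ} (hq : q < S24.N) (e : cm a q = true) :
    t q ∈ Dd D (t (S24.cp a)) := by
  simp only [cm, an_iff, nt_iff, beq_iff] at e
  refine ⟨h.mod.mem hq, fun e2 => e.1 (h.mod.inj _ hq _ (S24_OK.cp_lt ha) e2).symm, ?_⟩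
  rw [h.mod.cp ha, h.mod.commute_iff (cjW_lt ha) hq, ← S24_OK.apW_eq (cjW_lt ha) hq, e.2]

theorem act {i p : ℕ} (hi : i < 14) (hp : p < S24.N) :
    φ (gg G0 i) * t p * (φ (gg G0 i))⁻¹ = t (S24.tab i p) ∧ S24.tab i p < S24.N := by
  rw [S24_OK.tab i hi p hp, h.mapg hi, h.mod.real i hi p hp]
  exact ⟨rfl, S24_OK.σ_lt hi hp⟩

theorem wk [Finite G] : Wk φ D (KS (gg G0) AH) (ev (gg G0) sw) (gg G0 12) := by
  obtain ⟨hD, hT⟩ := h.t24
  obtain ⟨E, c1, c2, c3, c4, c5⟩ := h.lev23'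
  have el : φ (gg G0 12) = t 31671 := h.mapg (by decide)
  have hd : t 31671 ∈ D := h.mod.mem (by decide)
  have ss : ev (gg G0) sw * ev (gg G0) sw = 1 := by
    rw [← ev_append]; exact h.oneg (by decide +kernel) (by decide +kernel)
  have U : ∀ k ∈ KS (gg G0) AH, Commute k (gg G0 10) →
      (ev (gg G0) sw)⁻¹ * k * ev (gg G0) sw ∈ KS (gg G0) AH := fun k hk e => by
    have := KS_le (H := (KS (gg G0) AH).comap (MulAut.conj (ev (gg G0) sw)).toMonoidHom)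
      (fun i hi => by
        have := (by decide : ∀ i ∈ gK, i ∈ gA ∧ i ∈ 6 :: cs.map (·.1)) i hi
        rw [← gg_eq G0 this.1]; exact h.memS i this.2) (c4 k (c2 ▸ hk) e)
    rw [mem_cj, inv_eq_of_mul_eq_one_right ss] at this
    rwa [inv_eq_of_mul_eq_one_right ss]
  have hm := c1.mem c3
  refine ⟨fun a x hx => hD.2.1 _ _ hx, ss, fun k hk => ?_, ?_, el ▸ hd, ?_, fun x hx => ?_,
    fun k hk e => ?_, fun x hx => ?_⟩
  · refine (c2 ▸ c5).eq (mul_mem hk (mem_KS _ (by decide))) (mul_mem (mem_KS _ (by decide)) hk) ?_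
    rw [map_mul, map_mul, el]
    exact (commute_of_mem_closure (fun y hy => hy.2.2) (c1.mem_closure (c2 ▸ hk))).symm
  · rw [h.slm]; exact (h.m_cent _ (h.memK 12 (by decide))).symm
  · rw [h.slm, el]; exact hm.2.1
  · obtain ⟨g, hg, e⟩ := (hT.loc _ hd).tr _ hm x (el ▸ hx)
    obtain ⟨k, hk, rfl⟩ := c1.lift hg
    refine ⟨k, c2 ▸ hk, ?_⟩
    rw [← e, ← h.slm]; simp [mul_assoc]
  · rw [h.slm] at e
    exact U k hk ((c1.commute_iff' (c2 ▸ hk) c3).1 e)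
  · rw [h.slm, el] at hx
    have e1 : ev (gg G0) sv * gg G0 10 * (ev (gg G0) sv)⁻¹ = gg G0 8 := by
      simpa [Fi.cj] using h.cjJ (a := (sv, 10)) (b := ([], 8)) (by decide +kernel) (by decide +kernel)
    have h8 : φ (gg G0 8) ∈ Dd (Dd D (t 31671)) (φ (gg G0 10)) := by
      refine ⟨?_, fun e => ?_, (h.m_cent _ (h.memK 8 (by decide))).map φ⟩
      · rw [h.mapg (by decide), ← el]; exact h.dd_l (by decide)
      · rw [h.mapg (by decide), h.mapg (by decide)] at e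
        exact absurd (h.mod.inj _ (by decide) _ (by decide) e) (by decide)
    obtain ⟨g, hg, e⟩ := ((hT.loc _ hd).loc _ hm).tr _ h8 x hx
    obtain ⟨k, hk, rfl⟩ := (c1.dd c3).lift hg
    have hk1 : k ∈ KS (gg G0) AH := c2 ▸ closure_mono (fun _ hy => hy.1) hk
    have hv : ev (gg G0) sv ∈ KS (gg G0) AH := ev_KS _ (by decide +kernel)
    refine ⟨k * ev (gg G0) sv, mul_mem hk1 hv, ?_, _, mul_mem
      (U k hk1 (commute_of_mem_closure (fun y hy => hy.2.2) hk).symm) hv, _, hv, ?_⟩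
    · rw [← e, ← e1, ← h.slm]; simp [mul_assoc]
    · have e2 := h.oneg (w := pw (sw ++ sv) 3) (by decide +kernel) (by decide +kernel)
      have e3 : ev (gg G0) sv * ev (gg G0) sv = 1 := by
        rw [← ev_append]; exact h.oneg (by decide +kernel) (by decide +kernel)
      rw [ev_pw, ev_append] at e2
      generalize ev (gg G0) sw = s at *
      generalize ev (gg G0) sv = v at *
      calc k * v * s = k * (s * v) ^ 3 * (v⁻¹ * s⁻¹) := by
            rw [e2, inv_eq_of_mul_eq_one_right e3, inv_eq_of_mul_eq_one_right ss]; group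
        _ = _ := by simp only [pow_succ, pow_zero]; group

theorem run_spec [Finite G] (st : List (ℕ × Cw)) : ∀ (a : Γ) (x y p : ℕ), x < S24.N → y < S24.N → p < S24.N →
    Inv φ (KS (gg G0) AH) (ev (gg G0) sw) (gg G0 12) a (t x) (t y) → φ (a * gg G0 12 * a⁻¹) = t p →
    run st x y p = true →
    ∃ x', Inv φ (KS (gg G0) AH) (ev (gg G0) sw) (gg G0 12) (ev (gg G0) (wd st) * a) x' (t 8645) := by
  have W := h.wk
  have hD := h.t24.2.cl
  induction st with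
  | nil =>
    intro a x y p _ _ _ e _ r
    obtain rfl : y = 8645 := beq_iff.1 r
    exact ⟨_, by simpa [wd] using e⟩
  | cons s st ih =>
    intro a x y p hx hy hp e ea r
    have e0 : run (s :: st) x y p = cond' (Nat.beq s.1 0) (an (lt' s.2.2 13) (frc (S24.tab s.2.2 x) fun x' =>
        frc (S24.tab s.2.2 y) fun y' => frc (S24.tab s.2.2 p) (run st x' y')))
      (cond' (Nat.beq s.1 1) (an (allL (fun i => memL i c24.ls) s.2.1) (an (Nat.beq (apW S24.tab s.2.1 3510) x)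
        (frc (S24.tab 13 y) fun y' => frc (S24.tab 13 p) (run st x y'))))
      (an (cOK 14 s.2) (an (cm s.2 x) (an (cm s.2 y) (frc (S24.cp s.2) fun q =>
        cond' (Nat.beq s.1 2) (an (lt' q 31671) (run st q y p)) (an (cm s.2 p) (run st x q p))))))) := rfl
    rw [e0] at r
    have pk : ∀ i < 14, φ (gg G0 i * a * gg G0 12 * (gg G0 i * a)⁻¹) = t (S24.tab i p) := fun i hi => by
      rw [← (h.act hi hp).1, ← ea]; simp [mul_assoc]
    cases k0 : Nat.beq s.1 0 <;> rw [k0] at r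
    swap
    · simp only [cond', an_iff, lt'_iff, frc_eq] at r
      have hi : s.2.2 < 14 := by omega
      have := Wk.op0 (mem_KS (gg G0) (List.mem_range.2 r.1)) e
      rw [(h.act hi hx).1, (h.act hi hy).1] at this
      have := ih _ _ _ _ (h.act hi hx).2 (h.act hi hy).2 (h.act hi hp).2 this (pk _ hi) r.2
      simpa [wd, beq_iff.1 k0, mul_assoc] using this
    cases k1 : Nat.beq s.1 1 <;> rw [k1] at r
    swap
    · simp only [cond', an_iff, allL_iff, memL_iff, beq_iff, frc_eq] at r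
      have hl : ∀ i ∈ c24.ls, i ∈ AH ∧ i < 14 ∧ (i = 6 ∨ (i ∈ AJ ∧ S24.cp ([i], 13) = S24.cp ([], 13))) := by
        decide +kernel
      have := W.op1 (k := gg G0 13) (w := ev (gg G0) s.2.1) (ev_KS _ fun i hi => (hl i (r.1 i hi)).1)
        (mem_centralizer_singleton_iff.1 (ev_mem (H := centralizer {gg G0 13}) fun i hi =>
          mem_centralizer_singleton_iff.2 (by
            rcases (hl i (r.1 i hi)).2.2 with rfl | e
            · exact (h.comm6 13 (by decide)).symm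
            · have := h.cjJ (a := ([i], 13)) (b := ([], 13)) (by simp [e.1]; decide) e.2
              simpa [Fi.cj, mul_inv_eq_iff_eq_mul] using this))).symm
        (by
          have := mem_cj.1 (h.memS 13 (by decide))
          rw [inv_eq_of_mul_eq_one_right W.ss] at this ⊢
          exact this)
        (by
          rw [show ∀ w s l : Γ, w * s * l * (w * s)⁻¹ = w * (s * l * s⁻¹) * w⁻¹ from fun _ _ _ => by group,
            h.slm, map_mul, map_mul, map_inv, h.evg fun i hi => (hl i (r.1 i hi)).2.1, h.mapg (by decide),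
            h.mod.conj_apW (fun i hi => (hl i (r.1 i hi)).2.1) (by decide), ← r.2.1]
          rfl) e
      rw [(h.act (by decide) hy).1] at this
      have := ih _ _ _ _ hx (h.act (by decide) hy).2 (h.act (by decide) hp).2 this (pk _ (by decide)) r.2.2
      simpa [wd, beq_iff.1 k1, mul_assoc] using this
    simp only [cond', an_iff, frc_eq] at r
    obtain ⟨r1, r2, r3, r4⟩ := r
    have hq := S24_OK.cp_lt r1
    have ew : wd (s :: st) = wd st := by simp [wd, beq_false_iff.1 k0, beq_false_iff.1 k1]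
    rw [ew]
    cases k2 : Nat.beq s.1 2 <;> rw [k2] at r4 <;> simp only [an_iff, lt'_iff] at r4
    · exact ih _ _ _ _ hx hq hp (W.op3 (mem_dd_symm (h.cm_spec r1 hy r3) (h.mod.mem hq))
        (mem_dd_symm (h.cm_spec r1 hx r2) (h.mod.mem hq)) (ea ▸ h.cm_spec r1 hp r4.1) e) ea r4.2
    · exact ih _ _ _ _ hq hy hp (W.op2 (h.dd_l r4.1) (mem_dd_symm (h.cm_spec r1 hx r2) (h.mod.mem hq))
        (h.cm_spec r1 hy r3) e) ea r4.2

theorem injH [Finite G] : Inj φ (KS (gg G0) AH) := by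
  obtain ⟨E, -, c2, -, -, c5⟩ := h.lev23'
  exact c2 ▸ c5

theorem rel_u0 [Finite G] : Holds (gg G0) ((cjW u0, 13), ([], 13)) := by
  have W := h.wk
  have e0 := W.start (y := t 0) (h.dd_l (by decide)) (by
    rw [h.slm, h.mapg (by decide)]
    exact h.cm_spec (a := ([], 10)) (by decide +kernel) (by decide) (by decide +kernel))
  rw [h.slm, h.mapg (by decide)] at e0
  obtain ⟨x, e⟩ := h.run_spec steps 1 3510 0 31671 (by decide) (by decide) (by decide) e0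
    (by rw [one_mul, inv_one, mul_one]; exact h.mapg (i := 12) (by decide)) steps_ok
  obtain ⟨v, hv, e1, e2⟩ := W.stop (h.dd_l (by decide)) (h.slm ▸ mem_KS _ (by decide)) e
  have e3 : v = Fi.cj (gg G0) u0 := h.injH.eq hv (cj_mem fun i hi => mem_KS _ (by revert i; decide)) (by
    rw [e1, h.cjg (by decide +kernel)]; exact congrArg t (by decide +kernel))
  have e4 : ev (gg G0) (wd steps) = ev (gg G0) [12, 13, 8, 9, 0, 1] := by
    have := h.fam.rel (pw wW 17) (by decide +kernel)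
    rw [← ev_congr (g := gg G0) fun i hi => gg_eq G0 ((by decide +kernel : ∀ i ∈ pw wW 17, i ∈ gA) i hi),
      ← List.take_append_drop 5 (pw wW 17), ev_append, mul_eq_one_iff_inv_eq, ← ev_rev h.sq] at this
    rw [steps_wd, ev_cons, ← this]; rfl
  have e5 := h.cjJ (a := ([12, 13, 8, 9, 0, 1], 12)) (b := ([], 13)) (by decide +kernel) (by decide +kernel)
  rw [mul_one, e4, show ev (gg G0) [12, 13, 8, 9, 0, 1] * gg G0 12 * (ev (gg G0) [12, 13, 8, 9, 0, 1])⁻¹ =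
    gg G0 13 by simpa [Fi.cj] using e5, e3, ← ev_cjW (r := 14) (fun i _ => h.sq i) (by decide +kernel)] at e2
  simpa [Holds, Fi.cj] using conj_of_commute e2

theorem hol24' [Finite G] : ∀ ρ ∈ R24, Holds (gg G0) ρ := fun ρ hρ => by
  rcases cls24 ρ hρ with e | e | e | rfl
  · exact h.holds h.injH hρ fun i hi => mem_KS _ (e i hi)
  · exact h.holds h.injJ hρ fun i hi => memJ i (e i hi)
  · exact h.holds (h.injH.conj _) hρ fun i hi => h.memS i (e i hi)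
  · exact h.rel_u0

theorem injA [Finite G] : Inj φ (KS G0 gA) := by
  obtain ⟨T3, m3⟩ := mdl23
  obtain ⟨τ4, l4⟩ := lev24 m3
  obtain ⟨T4, m4⟩ := mdl24
  obtain ⟨hD, hT⟩ := h.t24
  obtain ⟨u, u1, u2⟩ := pres24.any (gg G0) (fun i _ => h.sq i) h.hol24'
  obtain ⟨c1, c2⟩ := cov_of_real m4 u2 (fun i hi => by rw [u1 i hi, h.sq])
    ⟨h.mod.real, h.mod.inj, h.mod.range⟩ hT.cl φ fun i hi => by rw [u1 i hi, h.mapg hi]
  have e12 : u S23.N = gg G0 12 := by rw [← l4.ptd, u1 _ l4.dlt]; rfl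
  have := (stab_step c2 hT.tw num24 (fun d hd => (hT.loc d hd).stab) hT.tr ⟨_, l4.nlt, rfl⟩
    (dd_sub l4 u2 (fun p hp q hq e => h.mod.inj p hp q hq (by rw [← c1 p hp, ← c1 q hq, e]))
      fun i hi => by rw [u1 i (l4.lt hi)]; exact mem_KS _ (List.mem_range.2 (hi.trans (by decide))))
    (e12 ▸ mem_KS _ (by decide)) (one_mem _) (one_mem _) h.injH fun x hx g hg => by
      rcases (cent_dd_iff hD h.mod.center hT.tw num24 hx).1 hg with rfl | rfl
      exacts [one_mem _, subset_closure (by simp)]).2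
  refine fun x hx => this x (KS_le (fun i hi => ?_) hx)
  have hi' := (by decide : ∀ i ∈ gA, i < 14) i hi
  rw [← gg_eq G0 hi, ← u1 i hi']
  exact subset_closure ⟨_, S24_OK.pt_lt i hi', rfl⟩

end Cx

/-- groups of type `M(24)` are isomorphic to the presented group -/
theorem isoFi24_of_type [Finite G] {D : Set G} (hD : IsThreeTranspositionGroup D)
    (hp : IsPrimitiveUnderConj D) (ht : IsOfTypeM24 G D) : Nonempty (G ≃* Fi24) := by
  obtain ⟨t0, h0⟩ := model24 hD hp ht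
  obtain ⟨T, m⟩ := mdl24
  obtain ⟨t, e, h⟩ := m.exists_model
  have := S24_OK.finite_pg
  obtain ⟨φ, hφ⟩ := hom24 (h.fam ws0 RR ws0_ok)
  have cx : Cx (coxG gs Fi24.edges Fi24.extra) φ (t '' Set.Iio S24.N) t S24.PG.subtype := by
    refine ⟨fam24, h, fun i hi => ?_, S24.PG.subtype_injective, fun i hi =>
      (e _ (S24_OK.pt_lt i hi)).trans (m.pt i hi)⟩
    obtain ⟨x, -, e1, e2, e3⟩ := (by decide : ∀ i ∈ gA, ∃ x ∈ gs, gs[i]? = some x ∧ gs.idxOf x = i ∧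
      ws0.getD i [] = [i]) i hi
    rw [coxG, e1, Option.elim, hφ, e2, e3]; exact mul_one _
  have hs : Function.Surjective φ := by
    rw [← MonoidHom.range_eq_top, eq_top_iff, ← h.gen, Subgroup.closure_le]
    rintro _ ⟨i, hi, rfl⟩
    exact ⟨_, cx.mapg hi⟩
  have hi : Function.Injective φ := (injective_iff_map_eq_one φ).2 fun x => cx.injA x (by
    refine KS_le (gm := List.range gs.length) (fun i hi => ?_) (by rw [coxKS gs_all]; trivial)
    obtain ⟨j, hj, e1⟩ := (by decide : ∀ i ∈ List.range gs.length, ∃ j ∈ gA, gs[i]? = gs[j]?) i hi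
    rw [coxG, e1]; exact mem_KS (coxG gs Fi24.edges Fi24.extra) hj)
  obtain ⟨f, -⟩ := h0.exists_equiv h
  exact ⟨f.trans (MulEquiv.ofBijective φ ⟨hi, hs⟩).symm⟩

end CA.Y24
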