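/-
The normaliser of a 3-central subgroup of order three in a group of Monster type.
-/
import Cfsg.Agent.S5415
import Cfsg.Agent.Lib.F24.Out2
import Cfsg.Agent.Lib.F24.Y5
import Cfsg.Agent.Lib.Tilde.Comp24
import Cfsg.Agent.Lib.Fi.TwSign

set_option autoImplicit false
set_option linter.unusedSectionVars false
set_option linter.unusedVariables false

namespace CA.F24

open Cfsg CA CA.Co CA.Gol CA.Ex2 Subgroup

theorem s3_data : ∃ k x y : M24, k * C3A.σ = C3A.σ * C3A.σ * k ∧ x * C3A.σ = C3A.σ * x ∧ y * C3A.σ = C3A.σ * y ∧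
    x * y = C3A.σ * y * x := by
  refine ⟨m24 (c := 0x19ab0045d4bc836490e862dea6cca2) (by decide +kernel),
    m24 (c := 0xbd24f3aa33b39664558d8244428c20) (by decide +kernel),
    m24 (c := 0x2c24d3a9cfb1161a56f34013161862) (by decide +kernel), ?_, ?_, ?_, ?_⟩ <;>
  · refine Subtype.ext (code_inj ?_)
    simp only [C3A.σ, coe_mul, code_mul, code_m24]
    decide +kernel

theorem qs_cen {C H : Type*} [Group C] [Group H] {π : C →* H} (hs : Function.Surjective π) [IsSimpleGroup H]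
    (hn : ¬ IsMulCommutative H) (h1 : π.ker ≤ center C) (h2 : π.ker ≤ commutator C) : IsQuasisimple C := by
  have k : center H = ⊥ := ((inferInstance : (center H).Normal).eq_bot_or_eq_top).resolve_right fun e =>
    hn ⟨⟨fun a b => Subgroup.mem_center_iff.1 (e.ge (mem_top b)) a⟩⟩
  have k1 : π.ker = center C := le_antisymm h1 fun a ha => by
    rw [MonoidHom.mem_ker, ← mem_bot, ← k, Subgroup.mem_center_iff]
    intro u
    obtain ⟨u, rfl⟩ := hs u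
    rw [← map_mul, ← map_mul, Subgroup.mem_center_iff.1 ha]
  have k2 : commutator H = ⊤ := ((inferInstance : (commutator H).Normal).eq_bot_or_eq_top).resolve_left fun e => by
    rw [commutator_eq_bot_iff_center_eq_top, k] at e
    exact bot_ne_top e
  refine ⟨⟨?_⟩, ((QuotientGroup.quotientMulEquivOfEq k1.symm).trans
    (QuotientGroup.quotientKerEquivOfSurjective π hs)).isSimpleGroup⟩
  rw [← comap_map_eq_self h2, map_commutator_eq, MonoidHom.range_eq_top.2 hs, ← commutator_def, k2, comap_top]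

variable {G : Type*} [Group G] [Finite G] {Q : Subgroup G} {z : G} {π : ↥𝐂[z] →* Spor.Co1} {r : G → LL → Prop}
  {β : Co0} {b s : G} (h : OS Q z π r β b) {p w : ℕ}
include h

theorem os_inv {k : Co0} (hk : k * β * k⁻¹ = β⁻¹) : ∃ n, n * b * n⁻¹ = b⁻¹ := by
  obtain ⟨y, hy, e⟩ := h.mt.exists_lift k
  have a0 : ∀ {y}, y ∈ 𝐂[z] → pel π y = k → y * b * y⁻¹ * b ∈ Q := fun {y} hy e => by
    have a := mul_mem (mul_mem hy h.bz) (inv_mem hy)
    refine h.mt.mem_of_pel (mul_mem a h.bz) ?_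
    rw [pel_mul π a h.bz, pel_conj π hy h.bz, e, h.pb, ← QuotientGroup.mk_inv, ← QuotientGroup.mk_mul,
      ← QuotientGroup.mk_mul, ← QuotientGroup.mk_mul, hk, inv_mul_cancel, QuotientGroup.mk_one]
  obtain ⟨c, hc, e2⟩ := h.cop.cj_le (B := zpowers (y * b * y⁻¹)) (zpowers_le.2 (by
    simpa using mul_mem (mem_sup_left (a0 hy e)) (mem_sup_right (inv_mem (mem_zpowers b)))))
    (coprime_of_odd h.mt.ez.pg (by
      rw [Nat.card_zpowers, show y * b * y⁻¹ = MulAut.conj y b from rfl, MulEquiv.orderOf_eq]; exact h.odd))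
  have a1 : c * y * b * (c * y)⁻¹ ∈ zpowers b := by
    simpa [mul_assoc] using e2 (conj_mem_cj.2 (mem_zpowers _))
  refine ⟨c * y, mul_eq_one_iff_eq_inv.1 (mem_bot.1 (h.inf_B ▸ mem_inf.2 ⟨a0 (mul_mem (h.mt.le_C hc) hy) ?_,
    mul_mem a1 (mem_zpowers b)⟩))⟩
  rw [pel_mul π (h.mt.le_C hc) hy, h.mt.pel_eq_one hc, one_mul, e]

theorem os_comm {x y : Co0} (hx : x ∈ 𝐂[β]) (hy : y ∈ 𝐂[β]) (e : x * y = β * y * x) :
    ∃ u ∈ 𝐂[z] ⊓ 𝐂[b], ∃ v ∈ 𝐂[z] ⊓ 𝐂[b], ∃ q ∈ Q ⊓ 𝐂[b], u * v * u⁻¹ * v⁻¹ = q * b := by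
  obtain ⟨u, hu, e1⟩ := h.lift hx
  obtain ⟨v, hv, e2⟩ := h.lift hy
  have hb : b ∈ 𝐂[z] ⊓ 𝐂[b] := ⟨h.bz, self_mem_cent1 b⟩
  have a := mul_mem (mul_mem hu hv) (inv_mem hu)
  have a' := mul_mem a (inv_mem hv)
  refine ⟨u, hu, v, hv, _, ⟨h.mt.mem_of_pel (mul_mem a' (inv_mem hb)).1 ?_, (mul_mem a' (inv_mem hb)).2⟩,
    (inv_mul_cancel_right _ _).symm⟩
  rw [pel_mul π a'.1 (inv_mem hb.1), pel_mul π a.1 (inv_mem hv.1), pel_conj π hu.1 hv.1, pel_inv π hv.1,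
    pel_inv π hb.1, e1, e2, h.pb, ← QuotientGroup.mk_mul, e, QuotientGroup.mk_mul, QuotientGroup.mk_mul]
  group

theorem os_four {q : G} (hq : q ∈ Q) : q ^ 4 = 1 := by
  rw [show q ^ 4 = q * q * (q * q) by simp [pow_succ, mul_assoc]]
  rcases h.mt.ez.sq_or hq with e | e <;> rw [e]
  exacts [one_mul 1, h.mt.ez.sq]

theorem os_cent (hc : CD β p w) (hs : r s (E8 (pt 0))) {u v q n : G} (hu : u ∈ 𝐂[z] ⊓ 𝐂[b])
    (hv : v ∈ 𝐂[z] ⊓ 𝐂[b]) (hq : q ∈ Q ⊓ 𝐂[b]) (e : u * v * u⁻¹ * v⁻¹ = q * b) (hn : n ∈ 𝐍(zpowers b))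
    (hR : ∀ q ∈ Q ⊓ 𝐂[b], n * q * n⁻¹ * q⁻¹ ∈ zpowers b) : n ∈ 𝐂[b] := by
  have hE := h.ez_R (h.frame_mem hc.mem hs) fun k => MT.not_cg_zero (v := E8 (pt 0))
    (by rw [coe_E8, norm_e8]; norm_num) (norm_e8 _).le ((h.mt.r_iff hs).1 k)
  have a1 : ∀ q ∈ Q ⊓ 𝐂[b], n * q * n⁻¹ = q := fun q hq => by
    have b1 : Commute (n * q * n⁻¹ * q⁻¹) q := (cent_zpowers b).ge hq.2 _ (hR q hq)
    have b2 : (n * q * n⁻¹ * q⁻¹) ^ 4 = 1 := by
      have := b1.mul_pow 4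
      rwa [inv_mul_cancel_right, conj_pow, os_four h hq.1, mul_one, mul_one, mul_inv_cancel, eq_comm] at this
    rw [← mul_inv_eq_one, ← orderOf_eq_one_iff]
    exact Nat.eq_one_of_dvd_coprimes ((Nat.coprime_two_left.2 h.odd).pow_left 2) (orderOf_dvd_of_pow_eq_one b2)
      (orderOf_dvd_of_mem_zpowers (hR q hq))
  have hL : 𝐂[z] ⊓ 𝐂[b] ≤ 𝐍(Q ⊓ 𝐂[b]) := norms_inf (inf_le_left.trans h.mt.lq.le_norm) (norms_cent1 inf_le_right)
  have a2 : ∀ l ∈ 𝐂[z] ⊓ 𝐂[b], ∃ c ∈ 𝐂[z] ⊓ 𝐂[b], (∀ y ∈ 𝐂[z] ⊓ 𝐂[b], c * y * c⁻¹ = y) ∧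
      n * l * n⁻¹ = c * l := fun l hl => by
    have b1 : n * l * n⁻¹ * l⁻¹ ∈ 𝐂(Q ⊓ 𝐂[b]) := mem_cent_iff'.2 fun q hq => by
      have := a1 _ (conj_mem_of_mem_normalizer (hL (inv_mem hl)) hq)
      calc _ = n * l * n⁻¹ * (l⁻¹ * q * l⁻¹⁻¹) * l⁻¹ := by group
        _ = n * q * n⁻¹ * (n * l * n⁻¹ * l⁻¹) := by rw [← this]; group
        _ = _ := by rw [a1 q hq]
    have b0 := conj_eq_iff_mem_cent1.1 (a1 z hE.mem)
    have b2 : n * l * n⁻¹ * l⁻¹ ∈ 𝐂[z] ⊓ 𝐂[b] := mul_mem (mem_inf.2 ⟨mul_mem (mul_mem b0 hl.1) (inv_mem b0),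
      cent_zpowers b ▸ conj_mem_of_mem_normalizer (norms_cent le_rfl hn) (cent_zpowers b ▸ hl.2)⟩) (inv_mem hl)
    obtain ⟨c, hc', a, ha, e⟩ := (mem_sup_of_norm_right (norms_zpowers_of_cent1 inf_le_right)).1
      (h.mem_of_faith hc b2 fun q hq => by
        rw [mem_cent_iff'.1 b1 q hq, mul_inv_cancel_right, mul_inv_cancel]; exact one_mem _)
    have h1 : c ∈ 𝐂(Q ⊓ 𝐂[b]) := cents_symm (inf_le_right.trans (cent_zpowers b).ge) hc'
    have h2 : a ∈ zpowers z := hE.mem_zp_of_cent ha (by rw [← e] at b1; simpa using mul_mem (inv_mem h1) b1)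
    have h3 : c * a ∈ 𝐂(𝐂[z] ⊓ 𝐂[b]) := mul_mem (cents_symm (inf_le_right.trans (cent_zpowers b).ge) hc')
      (cents_symm (inf_le_left.trans (cent_zpowers z).ge) h2)
    exact ⟨c * a, e ▸ b2, fun y hy => by rw [mem_cent_iff'.1 h3 y hy, mul_inv_cancel_right],
      by rw [e, inv_mul_cancel_right]⟩
  obtain ⟨c, -, hc, e1⟩ := a2 u hu
  obtain ⟨c', l, hc', e2⟩ := a2 v hv
  have a3 : n * (q * b) * n⁻¹ = q * b := by
    calc _ = (n * u * n⁻¹) * (n * v * n⁻¹) * (n * u * n⁻¹)⁻¹ * (n * v * n⁻¹)⁻¹ := by rw [← e]; group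
      _ = c * (u * (c' * v) * u⁻¹) * c⁻¹ * (c' * v)⁻¹ := by rw [e1, e2]; group
      _ = c' * (c'⁻¹ * (c' * u * c'⁻¹) * c' * v * u⁻¹ * v⁻¹) * c'⁻¹ := by
        rw [hc _ (mul_mem (mul_mem hu (mul_mem l hv)) (inv_mem hu)), hc' u hu]; group
      _ = c' * (u * v * u⁻¹ * v⁻¹) * c'⁻¹ := by group
      _ = _ := by rw [hc' _ (mul_mem (mul_mem (mul_mem hu hv) (inv_mem hu)) (inv_mem hv)), e]
  refine conj_eq_iff_mem_cent1.1 (mul_left_cancel (a := q) ?_)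
  rw [← a3]
  nth_rw 1 [← a1 q hq]
  group

omit h in
theorem mon3 (h : OS Q z π r (pmC C3A.σ) b) (hs : r s (E8 (pt 0))) [hn : ((zpowers b).subgroupOf 𝐂(zpowers b)).Normal]
    [hn' : ((zpowers b).subgroupOf 𝐍(zpowers b)).Normal] :
    IsQuasisimple ↥𝐂(zpowers b) ∧ Spor.IsoFi24' (↥𝐂(zpowers b) ⧸ (zpowers b).subgroupOf 𝐂(zpowers b)) ∧
    ∃ E : Set (↥𝐍(zpowers b) ⧸ (zpowers b).subgroupOf 𝐍(zpowers b)), IsThreeTranspositionClass E ∧ IsOfTypeM24 _ E := by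
  classical
  obtain ⟨h1, h2, φ, h3, h4⟩ := C3A.main
  obtain ⟨k, x, y, s1, s2, s3, s4⟩ := s3_data
  have o3 : orderOf b = 3 := h.ob ▸ h1.ord
  have b3 : b * b = b⁻¹ := by rw [← mul_eq_one_iff_eq_inv, ← pow_orderOf_eq_one b, o3, pow_three, mul_assoc]
  obtain ⟨n, hn0⟩ := os_inv h (k := pmC k) (by
    rw [← map_inv, ← map_inv, ← map_mul, ← map_mul, s1, mul_inv_cancel_right, mul_eq_one_iff_eq_inv.1
      (show C3A.σ * C3A.σ * C3A.σ = 1 by rw [← pow_orderOf_eq_one C3A.σ, C3A.order, pow_three, mul_assoc])])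
  obtain ⟨u, hu, v, hv, q, hq, e⟩ := os_comm h (x := pmC x) (y := pmC y)
    (mem_cent1_iff.2 (by rw [← map_mul, s2, map_mul])) (mem_cent1_iff.2 (by rw [← map_mul, s3, map_mul]))
    (by rw [← map_mul, s4, map_mul, map_mul])
  have hD := cent_zpowers b
  have hCN : 𝐂(zpowers b) ≤ 𝐍(zpowers b) := centralizer_le_normalizer _
  let m := QuotientGroup.mk' ((zpowers b).subgroupOf 𝐍(zpowers b))
  let f0 := m.comp (inclusion hCN)
  let f := f0.rangeRestrict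
  have hf : Function.Surjective f := f0.rangeRestrict_surjective
  have hk0 : f.ker = (zpowers b).subgroupOf 𝐂(zpowers b) := by
    ext a
    rw [MonoidHom.ker_rangeRestrict, MonoidHom.mem_ker]
    exact QuotientGroup.eq_one_iff _
  have hY : zpowers b ≤ 𝐂(zpowers b) := abelian_iff.1 (abelian_zpowers b)
  have hk : pker f = zpowers b := by
    rw [← map_subgroupOf_eq_of_le (pker_le_dom f), pker_subgroupOf, hk0, map_subgroupOf_eq_of_le hY]
  have hm : ∀ a : 𝐍(zpowers b), m a ∈ f0.range ↔ a.1 ∈ 𝐂[b] := fun a => by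
    rw [← hD]
    refine ⟨fun ⟨c, e⟩ => ?_, fun l => ⟨⟨a, l⟩, rfl⟩⟩
    have : (c.1)⁻¹ * a.1 ∈ zpowers b := (QuotientGroup.eq (a := inclusion hCN c) (b := a)).1 e
    simpa using mul_mem c.2 (hY this)
  have nb : b⁻¹ ≠ b := fun e => by
    rw [← b3, mul_eq_left] at e
    simp [e] at o3
  have hidx : f0.range.index = 2 := by
    refine index_eq_two_iff_exists_notMem_and.2 ⟨m ⟨n, mem_normalizer_of_cj_le (by
      rw [cj_zpowers, hn0, zpowers_inv])⟩, fun l => nb (hn0.symm.trans (conj_eq_iff_mem_cent1.2 ((hm _).1 l))), fun a => ?_⟩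
    obtain ⟨a, rfl⟩ := QuotientGroup.mk'_surjective _ a
    rw [← map_mul, hm, hm, ← conj_eq_iff_mem_cent1, ← conj_eq_iff_mem_cent1]
    have := conj_mem_of_mem_normalizer a.2 (mem_zpowers b)
    rw [mem_zpowers_iff_mem_range_orderOf, o3] at this
    obtain ⟨j, hj, l⟩ := Finset.mem_image.1 this
    have hj := Finset.mem_range.1 hj
    interval_cases j
    · have : b = 1 := by simpa using l.symm
      simp [this] at o3
    · exact Or.inr (by rw [← l, pow_one])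
    · left
      rw [coe_mul, show a.1 * n * b * (a.1 * n)⁻¹ = a.1 * (n * b * n⁻¹) * a.1⁻¹ by group, hn0, ← conj_inv, ← l,
        pow_two, b3, inv_inv]
  have hl := h.lq hD hf hk h1 hs
  have := hl.normalIn.normal_subgroupOf
  obtain ⟨e0⟩ := h.exists_equiv hD hf hk (QuotientGroup.mk' ((Co.KK (pmC C3A.σ)).subgroupOf 𝐂[pmC C3A.σ]))
    (QuotientGroup.mk'_surjective _) (fun g => QuotientGroup.eq_one_iff g)
  obtain ⟨N, M, a1, a2, a3, a4, a5, ⟨f1⟩, a6⟩ := Cfsg.Agent.S5415.exists_NM e0 (QuotientGroup.lift _ φ fun g hg => h4 g hg)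
    (fun x => let ⟨g, e⟩ := h3 x; ⟨g, e⟩) (by
      have := card_eq_card_quotient_mul_card_subgroup ((Co.KK (pmC C3A.σ)).subgroupOf 𝐂[pmC C3A.σ])
      rw [h2, card_subgroupOf_of_le (KK_le _), card_KK (h1.ord ▸ h1.odd), h1.ord] at this
      rw [Fi.card_PR6]
      exact Nat.eq_of_mul_eq_mul_right (by norm_num) (this.symm.trans (by norm_num))) (_root_.commutator _)
  obtain ⟨K, i1, i2, a7, ⟨f'⟩⟩ := C3A.nonempty_PSU
  have k1 := h.setting hD hf hk h1 hs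
  obtain ⟨d, d1, d2, -, t, d4, d5, ⟨_, ε, ⟨c1, c2⟩, -⟩, d6, d7, d8⟩ := core' f0.range hidx
    ⟨k1, N, M, a1, a2, a3, a4, a5, ⟨K, i1, i2, a7, ⟨f1.trans f'⟩⟩, a6.trans C3A.index_comm⟩ (fun d hd => by
      obtain ⟨a, rfl⟩ := QuotientGroup.mk'_surjective _ d
      refine (hm a).2 (os_cent h h1 hs hu hv hq e a.2 fun q hq => ?_)
      have l : q ∈ 𝐂(zpowers b) := hD ▸ hq.2
      have := mem_cent1_iff.1 (hd (pel f q) (by
        rw [map_subgroupOf_eq_of_le hl.normalIn.1]; exact pel_mem_pmap f hq))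
      rw [pel_of_mem f l, eq_comm, ← mul_inv_eq_one] at this
      have l' : a.1 * q * (q * a.1)⁻¹ ∈ zpowers b :=
        (QuotientGroup.eq_one_iff (a * inclusion hCN ⟨q, l⟩ * (inclusion hCN ⟨q, l⟩ * a)⁻¹)).1 this
      simpa [mul_assoc] using l')
  obtain ⟨b1, b2, b4⟩ := Tl.type23_of_cent d4 d5 c1 c2 d6
  obtain ⟨c1, c2, c3⟩ := Tl.type24_of_cent _ hidx d1 d2 b1 b2 b4 (IsConj.refl t) d7 d8
  obtain ⟨ψ⟩ := Y24.isoFi24_of_type (TT.class_group c1) c2 c3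
  obtain ⟨-, -, -, j1, -, j2⟩ := Fi.exists_sign24 (TT.class_group c1) c2 c3
  have eG : commutator _ = f0.range := by
    refine eq_of_le_of_card_le (commutator_le.2 fun a _ c _ => ?_) ?_
    · simp only [commutatorElement_def, mul_mem_iff_of_index_two hidx, inv_mem_iff]
      tauto
    · have := (card_mul_index f0.range).trans (card_mul_index (commutator _)).symm
      rw [j1, hidx] at this
      omega
  have : IsSimpleGroup f0.range := eG ▸ j2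
  refine ⟨qs_cen hf (fun l => ?_) (hk0 ▸ fun a ha => mem_center_iff.2 fun c => Subtype.ext (c.2 a ha).symm) ?_,
    ⟨(QuotientGroup.quotientMulEquivOfEq hk0.symm).trans ((QuotientGroup.quotientKerEquivOfSurjective f hf).trans
      ((MulEquiv.subgroupCongr eG.symm).trans ((ψ.subgroupMap _).trans (MulEquiv.subgroupCongr ?_))))⟩, _, c1, c3⟩
  · obtain ⟨g, -, l'⟩ := k1.2.2.2.2
    exact l' (by rw [l.1.1 g, mul_inv_cancel_right])
  · have l : (⟨b, hY (mem_zpowers b)⟩ : 𝐂(zpowers b)) ∈ commutator _ := by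
      have := pow_mem (commutator_mem_commutator (mem_top (⟨u, hD ▸ hu.2⟩ : 𝐂(zpowers b)))
        (mem_top (⟨v, hD ▸ hv.2⟩ : 𝐂(zpowers b)))) 4
      refine (congrArg (· ∈ _) (Subtype.ext ?_)).mpr this
      show b = (u * v * u⁻¹ * v⁻¹) ^ 4
      rw [e, (show Commute q b from mem_cent1_iff.1 hq.2).mul_pow, os_four h hq.1, one_mul, pow_succ, ← o3,
        pow_orderOf_eq_one, one_mul]
    rw [hk0]
    rintro ⟨_, _⟩ ⟨j, rfl⟩
    exact zpow_mem l j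
  · rw [map_commutator_eq, MonoidHom.range_eq_top.2 ψ.surjective]; rfl

end CA.F24
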