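/-
Groups of large Fischer type: outer automorphisms and the groups `M(23)`, `M(24)`.
-/
import Cfsg.Agent.Lib.F24.K22
import Cfsg.Agent.Lib.Fi.Tw24

set_option autoImplicit false
set_option linter.unusedSectionVars false
set_option linter.unusedVariables false

namespace CA.F24

open Cfsg Equiv Subgroup CA CA.Fi CA.Unit CA.Fi.F4 CA.Ex2 CA.Fth

universe u
variable {G : Type u} [Group G] [Finite G] {Q : Subgroup G} {z x : G} {π : ↥𝐂[z] →* Perm V6} {c : G → V6}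
variable {σ : V6 → G} {a b g s : G} {d : Fin 6 → Fin 6 → G} {K : Subgroup G} {β δ : MulAut G}

theorem FD.aut_t (h : FD Q z π c x σ d) (β : MulAut G) : ∃ g, g * β (σ (av 0)) * g⁻¹ = σ (av 0) := by
  obtain ⟨g, hg⟩ := h.exists_cj (S := (AA Q c).map (β : G →* G)) ((pg_of_sq fun _ => h.toFT.AA_sq).map _)
  have e := hg _ le_rfl (by rintro _ ⟨a, ha, rfl⟩; rw [← map_mul, h.toFT.AA_sq ha, map_one])
    (by rw [card_map_of_injective β.injective, h.card_AA])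
  obtain ⟨γ, e1, e2⟩ : ∃ γ : MulAut G, (∀ a, γ a = g⁻¹ * β a * g) ∧ ∀ a, γ a ∈ AA Q c ↔ a ∈ AA Q c :=
    ⟨MulAut.conj g⁻¹ * β, fun a => by simp, fun a => by
      rw [← mem_map_iff_mem (f := (β : G →* G)) (K := AA Q c) β.injective (x := a), e, mem_cj]; simp⟩
  have a0 := h.s_AA (inU_av 0)
  have a1 : ¬ IsConj z (σ (av 0)) := h.io_1 ▸ (h.zb_false (by decide)).1 (by decide +kernel)
  have a2 : σ (av 0) ≠ 1 := fun e => (iso_av 0).2 (by rw [← h.c_s (av 0), e, h.c_one])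
  have a3 : ¬ IsConj z (γ (σ (av 0))) := fun k => by
    have := Set.ncard_le_ncard_of_injOn (s := {y | y ∈ AA Q c ∧ IsConj z y})
      (t := {y | y ∈ AA Q c ∧ y ≠ 1 ∧ ¬ IsConj z y}) γ.symm (fun y hy => ⟨(e2 _).1 (by simpa using hy.1),
        fun l => h.lq.ez.ne_one (by simpa [show y = 1 by simpa using l] using hy.2), fun l => a1 (l.trans (by
          simpa [-isConj_iff] using (γ.symm : G →* G).map_isConj (hy.2.symm.trans k)))⟩) γ.symm.injective.injOn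
    rw [h.ncard_ZA.1, h.ncard_D] at this
    omega
  obtain ⟨m, -, f⟩ := h.big.orb ((e2 _).2 a0) a0 (by simpa using a2) a2 (iff_of_false a3 a1)
  exact ⟨m * g⁻¹, Eq.trans (by rw [e1]; group) f⟩

namespace KK
variable (k : KK σ K) (h : FD Q z π c x σ d)
include k h

theorem der_eq : ⁅𝐂[σ (av 0)], 𝐂[σ (av 0)]⁆ = K :=
  le_antisymm k.der_le ((k.perfect h).ge.trans (commutator_mono k.le k.le))

theorem aut_mem (e : β (σ (av 0)) = σ (av 0)) : ∀ a ∈ K, β a ∈ K := fun a ha => by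
  have : (𝐂[σ (av 0)]).map (β : G →* G) ≤ 𝐂[σ (av 0)] := by
    rintro _ ⟨a, ha, rfl⟩
    exact mem_cent1_iff.2 (by simpa [e] using congrArg β (mem_cent1_iff.1 ha))
  rw [← k.der_eq h] at ha ⊢
  exact commutator_mono this this (map_commutator _ _ (β : G →* G) ▸ mem_map_of_mem _ ha)

theorem exists_fix (β : MulAut G) : ∃ g, ∀ a ∈ K, (MulAut.conj g * β : MulAut G) a = a := by
  obtain ⟨g, e⟩ := h.aut_t β
  obtain ⟨P, _, ρ, hs, hk⟩ := k.exists_rho h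
  obtain ⟨θ, b1, -, b2⟩ := k.exists_theta h hs hk
  obtain ⟨θ', b3⟩ := exists_aut_quot ρ hs (MulAction.stabilizer (MulAut G) (σ (av 0))).subtype
    (fun γ => k.aut_mem h γ.2) fun γ a ha => by
      rw [hk, mem_zp2 (k.t_sq h)] at ha ⊢
      exact ha.imp (fun e => by simp [e]) fun e : a = _ => e ▸ γ.2
  obtain ⟨m, hm⟩ := b1 (θ' ⟨MulAut.conj g * β, e⟩)
  have b4 := k.aut_mem h (β := MulAut.conj g * β) e
  refine ⟨(m⁻¹ :) * g, k.fix_of h hs hk (fun a ha => ?_) fun a ha => ?_⟩ <;> rw [map_mul, mul_assoc, MulAut.mul_apply]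
  · exact k.conj_mem (m⁻¹).2 (b4 a ha)
  · rw [MulAut.conj_apply, ← b2 _ _ (b4 a ha), map_inv, hm, MulAut.inv_apply, MulEquiv.symm_apply_eq, b3 _ _ ha]; rfl

omit h in
theorem comm_fix (hδ : ∀ a ∈ K, δ a = a) (hg : g ∈ 𝐂[σ (av 0)]) : g * (δ g)⁻¹ ∈ 𝐂(K) :=
  CA.mem_cent_iff.2 fun a ha => by
    have := hδ _ (k.conj_mem (inv_mem hg) ha)
    simp only [map_mul, map_inv, hδ a ha, inv_inv] at this
    calc _ = g * (g⁻¹ * a * g) * (δ g)⁻¹ := by group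
      _ = _ := by rw [← this]; group

theorem exists_delta (β : MulAut G) : ∃ g s, (∀ a ∈ K, (MulAut.conj g * β : MulAut G) a = a) ∧
    (MulAut.conj g * β : MulAut G) s = s ∧ s * σ (av 0) * s⁻¹ = σ (w • av 0) := by
  obtain ⟨g, e⟩ := k.exists_fix h β
  obtain ⟨s, hs, p, s1, s2, s3⟩ := h.move_pts (u := ![Gol.pt 1, Gol.pt 2, Gol.pt 3])
    (v := ![Gol.pt 2, Gol.pt 1, Gol.pt 3]) (by decide) (by decide +kernel) (by decide +kernel)
  have a1 : s * σ (av 0) * s⁻¹ = σ (w • av 0) := h.nu_13 ▸ h.nu_23 ▸ s3 1 2 (by decide)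
  have a2 : s * σ (w • av 0) * s⁻¹ = σ (av 0) := h.nu_13 ▸ h.nu_23 ▸ s3 0 2 (by decide)
  have a3 : s * s ∈ YY σ := mem_inf.2 ⟨conj_eq_iff_mem_cent1.1 (by rw [← congrArg₂ Eq rfl a2, ← a1]; group),
    conj_eq_iff_mem_cent1.1 (by rw [← congrArg₂ Eq rfl a1, ← a2]; group)⟩
  generalize hδ : MulAut.conj g * β = δ at e
  have a4 : δ s * s⁻¹ ∈ 𝐂(YY σ) := CA.mem_cent_iff.2 fun y hy => by
    have b : s⁻¹ * y * s⁻¹⁻¹ ∈ YY σ := mem_inf.2 ⟨mem_cent1_iff.2 (comm_cj'.1 (a1 ▸ mem_cent1_iff.1 hy.2)),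
      mem_cent1_iff.2 (comm_cj'.1 (a2 ▸ mem_cent1_iff.1 hy.1))⟩
    have := e _ (k.Y b)
    simp only [map_mul, map_inv, e y (k.Y hy), inv_inv] at this
    calc _ = δ s * ((δ s)⁻¹ * y * δ s) * s⁻¹ := by group
      _ = _ := by rw [this]; group
  have a5 : δ s * s⁻¹ ∈ YY σ := cent_EE σ ▸ centralizer_le h.EE_Y a4
  obtain ⟨n, hn, f⟩ := h.mem_EE.1 (show δ s * s⁻¹ ∈ EE σ from
    h.u6.2.1.le (mem_center_iff.2 fun y => Subtype.ext (a4 y y.2)) (x := ⟨_, a5⟩))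
  have a6 : s * io z σ d n * s⁻¹ = io z σ d n := by
    have := e _ (k.Y a3)
    rw [map_mul, mul_inv_eq_iff_eq_mul.1 f.symm] at this
    calc _ = (io z σ d n)⁻¹ * (io z σ d n * s * (io z σ d n * s)) * s⁻¹ * s⁻¹ := by group
      _ = _ := by rw [this, inv_eq_of_mul_eq_one_left (h.toFT.AA_sq (h.io_mem n))]; group
  have a7 := mul_inv_eq_iff_eq_mul.1 f.symm
  have n1 : σ (av 0) ≠ σ (w • av 0) := fun e =>
    absurd (h.io_inj (by decide) (by decide) (h.io_1.trans (e.trans h.io_2.symm))) (by decide)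
  interval_cases n
  · exact ⟨g, s, hδ ▸ e, by rw [hδ, a7, h.io_zero, one_mul], a1⟩
  · exact absurd ((h.io_1 ▸ a6).symm.trans a1) n1
  · exact absurd (a2.symm.trans (h.io_2 ▸ a6)) n1
  · refine ⟨σ (av 0) * g, s, fun a ha => ?_, ?_, a1⟩ <;> rw [map_mul, mul_assoc, hδ, MulAut.mul_apply, MulAut.conj_apply]
    · rw [e a ha, ← mem_cent1_iff.1 (k.le ha), mul_inv_cancel_right]
    · rw [a7, show 3 = 1 ^^^ 2 by decide, h.io_xor, h.io_1, h.io_2, ← mul_assoc, ← mul_assoc, k.t_sq h, ← a1]; group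

omit k in
theorem _root_.CA.F24.FD.fix_Q (h1 : ∀ a ∈ 𝐂[σ (av 0)], δ a = a) (h2 : δ s = s)
    (h3 : s * σ (av 0) * s⁻¹ = σ (w • av 0)) : ∀ q ∈ Q, δ q = q := fun q hq => by
  have r1 : t2 (h6 ![w, 0, w, 0, 0, 0] (av 0)) = 1 ∧ t2 (h6 ![w, 0, w, 0, 0, 0] (w • av 0)) = 0 := by decide +kernel
  generalize (![w, 0, w, 0, 0, 0] : V6) = r at r1
  have a1 : δ (σ r) = σ r := by
    have := h1 (s⁻¹ * σ r * s⁻¹⁻¹) (mem_cent1_iff.2 (comm_cj'.1 (h3 ▸ comm_iff_conj.2 (by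
      rw [h.s_conj, r1.2, ze_zero, mul_one]))))
    simpa [h2] using this
  have a2 := h.conj_Q hq (h.mem (av 0))
  rcases z2_cases (t2 (h6 (c q) (c (σ (av 0))))) with e | e <;> rw [e] at a2
  · exact h1 q (conj_eq_iff_mem_cent1.1 (by rw [a2, ze_zero, mul_one]))
  · have := h1 ((σ r)⁻¹ * q) (conj_eq_iff_mem_cent1.1 (by
      rw [mul_inv_rev, ← mul_assoc, mul_assoc _ q, mul_assoc _ (q * _), a2, ← r1.1, ← h.s_conj]; group))
    simpa [a1] using this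

end KK

theorem core {X : Type u} [Group X] [Finite X] (G0 : Subgroup X) (hidx : G0.index = 2) {z : G0}
    {Q : Subgroup ↥𝐂[z]} [Q.Normal] (hF : IsOfLargeFischerTypeAt z Q)
    (hFX : FStar.fstar 𝐂[(z : X)] = (Q.map (𝐂[z]).subtype).map G0.subtype) :
    ∃ d : X, orderOf d = 2 ∧ d ∉ G0 ∧ Commute d z ∧ ∃ t : ↥(G0 ⊓ 𝐂[d]), orderOf t = 2 ∧ IsQuasisimple 𝐂[t] ∧
      (∃ _ : ((zpowers t).subgroupOf 𝐂[t]).Normal, ∃ e : 𝐂[t] ⧸ (zpowers t).subgroupOf 𝐂[t],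
        (IsThreeTranspositionClass (conjugatesOf e) ∧ IsOfTypeM22 _ (conjugatesOf e)) ∧ orderOf e = 2 ∧
        IsQuasisimple 𝐂[e] ∧
        (∃ _ : ((zpowers e).subgroupOf 𝐂[e]).Normal, IsU6 (𝐂[e] ⧸ (zpowers e).subgroupOf 𝐂[e])) ∧
        ∃ g, g * e * g⁻¹ ∈ 𝐂[e] ∧ g * e * g⁻¹ ≠ e) ∧
      (∃ g, g * t * g⁻¹ ∈ 𝐂[t] ∧ g * t * g⁻¹ ≠ t) ∧ IsConj d (d * t) ∧
      ∀ g ∈ G0, Commute g (t : X) → g * d * g⁻¹ = d ∨ g * d * g⁻¹ = d * t := by
  obtain ⟨π, c, h⟩ := ft_of hF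
  obtain ⟨x, σ, h⟩ := h.exists_fs
  obtain ⟨dd, h⟩ := h.exists_fd
  obtain ⟨K, k⟩ := h.exists_K
  have := normal_of_index_eq_two hidx
  obtain ⟨b, hb⟩ : ∃ b, b ∉ G0 := by
    by_contra! e
    rw [(eq_top_iff' _).2 e, index_top] at hidx; omega
  obtain ⟨g, s, e1, e2, e3⟩ := k.exists_delta h (MulAut.conjNormal b)
  obtain ⟨d, δ, hd, hδ, e1, e2⟩ : ∃ (d : X) (δ : MulAut G0), d ∉ G0 ∧ (∀ a, (δ a : X) = d * a * d⁻¹) ∧
      (∀ a ∈ K, δ a = a) ∧ δ s = s :=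
    ⟨g * b, _, fun e => hb ((mul_mem_cancel_left g.2).1 e), fun a => by simp [mul_assoc], e1, e2⟩
  have a1 : ∀ a, δ a = a ↔ (a : X) ∈ 𝐂[d] := fun a => by
    rw [Subtype.ext_iff, hδ, mul_inv_eq_iff_eq_mul, mem_cent1_iff, eq_comm]
  have a2 : ∀ a ∈ 𝐂[σ (av 0)], δ a = a → a ∈ K := fun a ha e => by
    by_contra l
    have b1 := h.fix_Q (δ := δ) (fun y hy => by
      by_cases m : y ∈ K
      · exact e1 y m
      · simpa [e] using e1 _ ((k.mul_iff ha hy).2 (iff_of_false l m))) e2 e3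
    refine hd (map_subtype_le _ (hFX.le (FStar.cent_fstar_le _ ⟨mem_cent1_iff.2 (mem_cent1_iff.1
      ((a1 z).1 (e1 z (k.A_le h h.z_AA)))).symm, hFX ▸ ?_⟩)))
    rintro _ ⟨q, hq, rfl⟩
    exact mem_cent1_iff.1 ((a1 q).1 (b1 q hq))
  have a3 := (a1 _).1 (e1 _ (k.t_mem h))
  have a4 : ∀ a ∈ 𝐂[σ (av 0)], δ a = a ∨ a * d * (a : X)⁻¹ = d * σ (av 0) := fun a ha =>
    ((mem_zp2 (k.t_sq h)).1 ((k.cent h).le (k.comm_fix e1 ha))).imp (fun e => (mul_inv_eq_one.1 e).symm) fun e => by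
      rw [← mem_cent1_iff.1 a3, ← e, coe_mul, coe_inv, hδ]; group
  have n1 : σ (w • av 0) ≠ σ (av 0) := fun e =>
    absurd (h.io_inj (by decide) (by decide) (h.io_2.trans (e.trans h.io_1.symm))) (by decide)
  have a5 : d * d = 1 := by
    have b0 := mul_self_mem_of_index_two hidx d
    have b1 : ∀ a, δ a = a → a * (⟨d * d, b0⟩ : G0) = ⟨d * d, b0⟩ * a := fun a e =>
      Subtype.ext (Commute.mul_right (mem_cent1_iff.1 ((a1 a).1 e)) (mem_cent1_iff.1 ((a1 a).1 e)))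
    refine congrArg Subtype.val (((mem_zp2 (k.t_sq h)).1 ((k.cent h).le fun a ha => b1 a (e1 a ha))).resolve_right
      fun e => n1 ?_)
    rw [← e3, ← e, b1 s e2, mul_inv_cancel_right]
  let t : ↥(G0 ⊓ 𝐂[d]) := ⟨σ (av 0), (σ (av 0)).2, a3⟩
  let φ : K ≃* 𝐂[t] := ⟨⟨fun a => ⟨⟨a.1, a.1.2, (a1 _).1 (e1 _ a.2)⟩,
      mem_cent1_iff.2 (Subtype.ext (congrArg Subtype.val (mem_cent1_iff.1 (k.le a.2)) :))⟩,
    fun y => ⟨⟨y.1, y.1.2.1⟩, a2 _ (mem_cent1_iff.2 (Subtype.ext (congrArg Subtype.val (mem_cent1_iff.1 y.2) :)))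
      ((a1 _).2 y.1.2.2)⟩, fun _ => rfl, fun _ => rfl⟩, fun _ _ => rfl⟩
  have a6 : ((zpowers t).subgroupOf 𝐂[t]).Normal :=
    (normal_subgroupOf_iff_le_normalizer (zpowers_le.2 (self_mem_cent1 _))).2
      ((cent_zpowers _).ge.trans (centralizer_le_normalizer _))
  have a7 : t * t = 1 := Subtype.ext (congrArg Subtype.val (k.t_sq h) :)
  have hs : Function.Surjective ((QuotientGroup.mk' ((zpowers t).subgroupOf 𝐂[t])).comp (φ : K →* 𝐂[t])) :=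
    (QuotientGroup.mk'_surjective _).comp φ.surjective
  have hk : pker ((QuotientGroup.mk' ((zpowers t).subgroupOf 𝐂[t])).comp (φ : K →* 𝐂[t])) = zpowers (σ (av 0)) := by
    have b : ∀ a : K, a.1 ∈ pker ((QuotientGroup.mk' ((zpowers t).subgroupOf 𝐂[t])).comp (φ : K →* 𝐂[t])) ↔
        a.1 ∈ zpowers (σ (av 0)) := fun a => by
      rw [← mem_subgroupOf, pker_subgroupOf, MonoidHom.mem_ker, MonoidHom.comp_apply, QuotientGroup.mk'_apply,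
        QuotientGroup.eq_one_iff, mem_subgroupOf, mem_zp2 a7, mem_zp2 (k.t_sq h), Subtype.ext_iff, Subtype.ext_iff,
        Subtype.ext_iff (a1 := a.1), Subtype.ext_iff (a1 := a.1)]
      rfl
    exact le_antisymm (fun a ha => (b ⟨a, pker_le_dom _ ha⟩).1 ha) fun a ha => (b ⟨a, zpowers_le.2 (k.t_mem h) ha⟩).2 ha
  obtain ⟨c1, -, c2⟩ := k.type22 h hs hk
  refine ⟨d, orderOf_eq_prime (by rw [pow_two, a5]) fun e => hd (e ▸ one_mem _), hd,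
    (mem_cent1_iff.1 ((a1 z).1 (e1 z (k.A_le h h.z_AA)))).symm, t, orderOf_eq_prime (by rw [pow_two, a7]) fun e =>
      k.t_ne h (Subtype.ext (congrArg Subtype.val e :)), qs_congr φ (k.qs h), ⟨a6, _, ⟨c1, c2⟩, k.k22 h hs hk⟩,
    ⟨⟨s, s.2, (a1 s).1 e2⟩, mem_cent1_iff.2 (Subtype.ext ?_), fun e => n1 (e3 ▸ Subtype.ext (congrArg Subtype.val e :))⟩,
    ?_, fun g hg e => (a4 ⟨g, hg⟩ (mem_cent1_iff.2 (Subtype.ext e))).imp_left fun e =>
      mul_inv_eq_iff_eq_mul.2 (mem_cent1_iff.1 ((a1 _).1 e))⟩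
  · have := k.le (k.e_mem h)
    rw [← e3] at this
    exact (congrArg Subtype.val (mem_cent1_iff.1 this) :)
  · obtain ⟨y, hy, l⟩ := SetLike.not_le_iff_exists.1 fun e => by
      have := (relIndex_eq_one.2 e).symm.trans k.idx; omega
    exact isConj_iff.2 ⟨y, (a4 y hy).resolve_left fun e => l (a2 y hy e)⟩

end CA.F24
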