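/-
Groups of large Fischer type: the stabiliser `U4(2)` of a reflecting vector.
-/
import Cfsg.Agent.Lib.F24.Cnt

set_option autoImplicit false
set_option linter.unusedSectionVars false
set_option linter.unusedVariables false

namespace CA.F24

open Cfsg Equiv Subgroup CA CA.Fi CA.Unit CA.Fi.F4 CA.Ex2

variable {u v r : V6} {g k : Perm V6} {i j : Fin 6}

/-- the stabiliser of the first point of the hyperoval -/
abbrev S0 : Subgroup (Perm V6) := K0 ⊓ St (av 0)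

theorem card_S0 : Nat.card S0 = 25920 := by
  have := card_stab_r0 le_rfl K0_StR
  rw [card_K0, ← av_zero] at this
  change 378 * Nat.card S0 = _ at this
  omega

theorem S0.h (hg : g ∈ S0) (u v : V6) : h6 (g u) (g v) = h6 u v := GU.h (K0_GU hg.1) u v
theorem S0.h0 (hg : g ∈ S0) (u : V6) : h6 (g u) (av 0) = h6 u (av 0) := by
  rw [← S0.h hg u, show g (av 0) = av 0 from hg.2]
theorem S0.smul (hg : g ∈ S0) (a : F4) : g (a • av 0) = a • av 0 := by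
  rw [GU.smul (K0_GU hg.1), show g (av 0) = av 0 from hg.2]
theorem S0.conj (hg : g ∈ S0) (v : V6) : g * (Ta 0 * tr v) * g⁻¹ = Ta 0 * tr (g v) := by
  rw [← conj_mul, conj_tr (K0_GU hg.1), Ta, conj_tr (K0_GU hg.1), show g (av 0) = av 0 from hg.2]

theorem comm_iff_conj {G : Type*} [Group G] {a b : G} : Commute a b ↔ a * b * a⁻¹ = b := mul_inv_eq_iff_eq_mul.symm

theorem tr_comm_iff (hu : Iso u) (hv : Iso v) : Commute (tr u) (tr v) ↔ h6 u v = 0 := by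
  rw [comm_iff_conj, conj_tr (tr_GU u), tr_apply hu.1]
  refine ⟨fun e => ?_, fun e => by rw [h_eq_zero_comm e, zero_smul, add_zero]⟩
  obtain ⟨a, -, f⟩ := (tr_eq_iff hv (tr_apply hu.1 v ▸ (GU.iso (tr_GU u)).2 hv)).1 e.symm
  have := congrArg (h6 · u) f
  simp only [h_add_left, h_smul_left, hu.1, mul_zero, add_zero] at this
  by_contra k
  rw [mul_right_cancel₀ (h_ne_zero_comm k) ((one_mul _).trans this).symm, one_smul, add_eq_left] at f
  exact smul_ne_zero (h_ne_zero_comm k) hu.2 f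

theorem tr_braid (hu : Iso u) (hv : Iso v) (h : h6 u v ≠ 0) : (tr u * tr v) ^ 3 = 1 := by
  have a1 := conj_tr (tr_GU u) v
  have a2 := conj_tr (tr_GU v) u
  rw [tr_inv hu.1, tr_apply hu.1] at a1
  rw [tr_inv hv.1, tr_apply hv.1] at a2
  rw [show v + h6 v u • u = h6 v u • (u + h6 u v • v) by
    rw [smul_add, smul_smul, ← h_star v u, (by decide : ∀ a : F4, a ≠ 0 → a * star a = 1) _ (h_ne_zero_comm h),
      one_smul, add_comm], tr_smul (tr_apply hv.1 u ▸ (GU.iso (tr_GU v)).2 hu) (h_ne_zero_comm h), ← a2] at a1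
  calc _ = tr u * tr v * tr u * (tr v * tr u * tr v) := by simp only [pow_succ, pow_zero, one_mul, mul_assoc]
    _ = tr v * (tr u * (tr v * tr v) * tr u) * tr v := by rw [a1]; simp only [mul_assoc]
    _ = 1 := by rw [tr_sq hv.1, mul_one, tr_sq hu.1, mul_one, tr_sq hv.1]

theorem perp_of_comm (hr : Iso r) (hij : i ≠ j) (h : Commute (Ta i * Ta j) (tr r)) : h6 r (av i) = 0 := by
  rw [comm_iff_conj, conj_tr (K0_GU (TT_K0 i j))] at h
  obtain ⟨a, -, f⟩ := (tr_eq_iff hr ((GU.iso (K0_GU (TT_K0 i j))).2 hr)).1 h.symm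
  by_cases e : a = 1
  · rw [e, one_smul] at f; exact ((TT_fix hij).1 f).1
  have := (AU_add (TT_AU i j) r).smul (a + 1)⁻¹
  rw [f, ← one_smul F4 r, smul_smul, ← add_smul, smul_smul, mul_one,
    (by decide : ∀ a : F4, a ≠ 1 → (a + 1)⁻¹ * (a + 1) = 1) a e, one_smul] at this
  exact this.h (inU_av i)

theorem exists_S0 {s : Perm (Fin 6)} (hs : Perm.sign s = 1) (h0 : s 0 = 0) : ∃ g ∈ S0, g ∈ SU ∧ pel phU g = s := by
  obtain ⟨k, k1, rfl⟩ := mem_pmap_of_le (inf_le_right.trans inf_le_right) |>.1 (phU_K0.ge (Perm.mem_alternatingGroup.2 hs))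
  obtain ⟨a, ha, e⟩ := SU_av k1.2 0
  have a1 : sc (lg a⁻¹) ∈ SU := ⟨K0_Hs (sc_K0 _), 1, sc_SU _⟩
  refine ⟨sc (lg a⁻¹) * k, ⟨mul_mem (sc_K0 _) k1.1, ?_⟩, mul_mem a1 k1.2, ?_⟩
  · change sc _ (k _) = _
    rw [e, h0, sc_apply, om_lg _ (inv_ne_zero ha), smul_smul, inv_mul_cancel₀ ha, one_smul]
  · rw [pel_mul _ a1.2 k1.2.2, phN_eq Ta_inj (s := 1) (sc_SU _), one_mul]

theorem exists_S0_one (hi : i ≠ 0) : ∃ g ∈ S0, g ∈ SU ∧ ∃ a : F4, a ≠ 0 ∧ g (av i) = a • av 1 := by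
  obtain ⟨s, -, h1, h2, h3⟩ := (by decide : ∀ i : Fin 6, i ≠ 0 → ∃ s ∈ ([1, swap 1 2 * swap 3 4, swap 1 3 * swap 2 4,
    swap 1 4 * swap 2 3, swap 1 5 * swap 2 3] : List (Perm (Fin 6))), Perm.sign s = 1 ∧ s 0 = 0 ∧ s i = 1) i hi
  obtain ⟨g, g1, g2, rfl⟩ := exists_S0 h1 h2
  exact ⟨g, g1, g2, h3 ▸ SU_av g2 i⟩

theorem h_av (v : V6) : h6 v (av 0) = v 0 + v 1 ∧ h6 v (av 1) = v 2 + v 3 := by
  simp [std_apply, Fin.sum_univ_six, show av 0 = ![1, 1, 0, 0, 0, 0] by decide, show av 1 = ![0, 0, 1, 1, 0, 0] by decide]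

theorem f4_eq_of_add : ∀ {a b : F4}, a + b = 0 → a = b := by decide

theorem eq_vec (v : V6) : v = ![v 0, v 1, v 2, v 3, v 4, v 5] := by funext j; fin_cases j <;> rfl

theorem move_one (hv : h6 v v = 0) (h0 : h6 v (av 0) = 0) : ∃ g ∈ S0, InU (g v) := by
  have : ∀ b c d e : F4, b * star b + c * star c + d * star d + e * star e = 0 → ∃ s ∈ ([1, swap 0 1 * swap 3 4,
      swap 0 1 * swap 3 5] : List (Perm (Fin 6))), ∃ p q : ZMod 3, ∀ a,
      InU (dg ![0, 0, p, -p, q, -q] (pm s ![a, a, b, c, d, e])) := by decide +kernel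
  have a1 := f4_eq_of_add ((h_av v).1.symm.trans h0)
  rw [std_apply, Fin.sum_univ_six, a1, f4_add_self, zero_add] at hv
  obtain ⟨s, hs, p, q, e⟩ := this _ _ _ _ hv
  refine ⟨dg ![0, 0, p, -p, q, -q] * pm s, mul_mem ⟨dg_K0 (by simp [Fin.sum_univ_six]), ?_⟩ ⟨pm_K0 ?_, ?_⟩,
    by rw [eq_vec v, a1]; exact e _⟩
  · exact (by decide +kernel : ∀ p q : ZMod 3, dg ![0, 0, p, -p, q, -q] (av 0) = av 0) p q
  · clear e; revert s; decide +kernel
  · change pm s _ = _; clear e; revert s; decide +kernel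

theorem inU_cases : ∀ {u}, InU u → (∃ a : F4, u = a • av 0) ∨ ∃ i, i ≠ 0 ∧ ∃ a b : F4, b ≠ 0 ∧ u = a • av 0 + b • av i := by
  have : ∀ x y z : F4, (∃ a : F4, x • av 0 + y • av 1 + z • av 2 = a • av 0) ∨
    ∃ i, i ≠ 0 ∧ ∃ a b : F4, b ≠ 0 ∧ x • av 0 + y • av 1 + z • av 2 = a • av 0 + b • av i := by decide +kernel
  exact fun {u} h => by rw [h.eq]; exact this _ _ _

theorem rt_inU (hu : InU u) (hr : Rt u) : ∃ i, ∃ a : F4, a ≠ 0 ∧ u = a • av i := by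
  have : ∀ x y z : F4, Rt (x • av 0 + y • av 1 + z • av 2) → ∃ i, ∃ a : F4, a ≠ 0 ∧ x • av 0 + y • av 1 + z • av 2 = a • av i := by
    decide +kernel
  rw [hu.eq] at hr ⊢; exact this _ _ _ hr

theorem h_inU (hu : InU u) (v : V6) :
    h6 v u = star (u 0) * h6 v (av 0) + star (u 2) * h6 v (av 1) + star (u 4) * h6 v (av 2) := by
  conv_lhs => rw [hu.eq]
  hsimp

theorem exists_perp (h : h6 r (av 0) = 0) : ∃ k, k ≠ 0 ∧ h6 r (av k) = 0 := by
  obtain ⟨k, h1, h2⟩ := (by decide : ∀ p q : F4, ∃ k, k ≠ 0 ∧ star (av k 2) * p + star (av k 4) * q = 0)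
    (h6 r (av 1)) (h6 r (av 2))
  exact ⟨k, h1, by rw [h_inU (inU_av k), h, mul_zero, zero_add, h2]⟩

theorem perp_av (hi : i ≠ 0) {a b : F4} (hb : b ≠ 0) (h0 : h6 v (av 0) = 0) (h1 : h6 v (a • av 0 + b • av i) = 0) :
    h6 v (av i) = 0 := by
  simpa [h_add_right, h_smul_right, h0, hb] using h1

theorem move_two (hi : i ≠ 0) (hv : h6 v v = 0) (h0 : h6 v (av 0) = 0) (h1 : h6 v (av i) = 0) :
    ∃ g ∈ S0, InU (g v) ∧ InU (g (av i)) := by
  obtain ⟨g, g1, g2, a, ha, e⟩ := exists_S0_one hi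
  have : ∀ c d : F4, c * star c + d * star d = 0 → ∃ q : ZMod 3, ∀ a b,
    InU (dg ![0, 0, 0, 0, q, -q] ![a, a, b, b, c, d]) := by decide +kernel
  rw [← S0.h0 g1, (h_av _).1] at h0
  rw [← S0.h g1, e, h_smul_right, (h_av _).2, mul_eq_zero_iff_left (by simpa using ha)] at h1
  rw [← S0.h g1, std_apply, Fin.sum_univ_six, f4_eq_of_add h0, f4_eq_of_add h1, f4_add_self, zero_add, f4_add_self,
    zero_add] at hv
  obtain ⟨q, e'⟩ := this _ _ hv
  refine ⟨dg ![0, 0, 0, 0, q, -q] * g, mul_mem ⟨dg_K0 (by simp [Fin.sum_univ_six]), ?_⟩ g1, by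
    rw [Perm.mul_apply, eq_vec (g v), f4_eq_of_add h0, f4_eq_of_add h1]; exact e' _ _, ?_⟩
  · exact (by decide +kernel : ∀ q : ZMod 3, dg ![0, 0, 0, 0, q, -q] (av 0) = av 0) q
  · rw [Perm.mul_apply, e]
    exact (by decide +kernel : ∀ (q : ZMod 3) (a : F4), InU (dg ![0, 0, 0, 0, q, -q] (a • av 1))) q a

theorem inU_of_li {b c : V6} (hb : InU b) (hc : InU c) (h1 : ¬ ∃ a : F4, b = a • av 0)
    (h2 : ¬ ∃ a a' : F4, c = a • av 0 + a' • b) (e0 : h6 v (av 0) = 0) (e1 : h6 v b = 0) (e2 : h6 v c = 0) : InU v := by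
  rw [h_inU hb, e0, mul_zero, zero_add] at e1
  rw [h_inU hc, e0, mul_zero, zero_add] at e2
  have := (by decide +kernel : ∀ b1 b2 c1 c2 p q : F4, ¬ (b1 = 0 ∧ b2 = 0) → (¬ ∃ β, c1 = β * b1 ∧ c2 = β * b2) →
    star b1 * p + star b2 * q = 0 → star c1 * p + star c2 * q = 0 → p = 0 ∧ q = 0) (b 2) (b 4) (c 2) (c 4) _ _
    (fun e => h1 ⟨b 0, hb.eq.trans (by rw [e.1, e.2]; simp)⟩)
    (fun ⟨β, f1, f2⟩ => h2 ⟨c 0 - β * b 0, β, hc.eq.trans (by
      rw [f1, f2]; conv_rhs => enter [2, 2]; rw [hb.eq]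
      module)⟩) e1 e2
  exact inU_of_perp e0 this.1 this.2

theorem move_set {W : Set V6} (h1 : ∀ u ∈ W, ∀ v ∈ W, h6 u v = 0) (h0 : ∀ u ∈ W, h6 u (av 0) = 0) :
    ∃ g ∈ S0, ∀ u ∈ W, InU (g u) := by
  by_cases e : ∀ u ∈ W, ∃ a : F4, u = a • av 0
  · exact ⟨1, one_mem _, fun u hu => by obtain ⟨a, rfl⟩ := e u hu; exact (inU_av 0).smul a⟩
  push Not at e
  obtain ⟨b, hb, e⟩ := e
  obtain ⟨g, hg, f⟩ := move_one (h1 b hb b hb) (h0 b hb)
  obtain ⟨i, hi, a, a', ha, f1⟩ := (inU_cases f).resolve_left fun ⟨a, k⟩ => e a (g.injective (k.trans (S0.smul hg a).symm))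
  by_cases e' : ∀ u ∈ W, ∃ a a' : F4, u = a • av 0 + a' • b
  · refine ⟨g, hg, fun u hu => ?_⟩
    obtain ⟨a, a', rfl⟩ := e' u hu
    rw [GU.add (K0_GU hg.1), S0.smul hg, GU.smul (K0_GU hg.1)]
    exact ((inU_av 0).smul a).add (f.smul a')
  push Not at e'
  obtain ⟨c, hc, e'⟩ := e'
  obtain ⟨k, hk, f2, f3⟩ := move_two (v := g c) hi (by rw [S0.h hg, h1 c hc c hc]) (by rw [S0.h0 hg, h0 c hc])
    (perp_av hi ha (by rw [S0.h0 hg, h0 c hc]) (by rw [← f1, S0.h hg, h1 c hc b hb]))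
  have a1 := mul_mem hk hg
  refine ⟨k * g, a1, fun u hu => inU_of_li (b := (k * g) b) (c := (k * g) c) ?_ f2 (fun ⟨a, f⟩ => ?_)
    (fun ⟨a, a', f⟩ => ?_) (by rw [S0.h0 a1, h0 u hu]) (by rw [S0.h a1, h1 u hu b hb]) (by rw [S0.h a1, h1 u hu c hc])⟩
  · rw [Perm.mul_apply, f1, GU.add (K0_GU hk.1), S0.smul hk, GU.smul (K0_GU hk.1)]
    exact ((inU_av 0).smul a).add (f3.smul a')
  · exact e a ((k * g).injective (f.trans (S0.smul a1 a).symm))
  · exact e' a a' ((k * g).injective (by rw [f, GU.add (K0_GU a1.1), S0.smul a1, GU.smul (K0_GU a1.1)]))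

theorem mem_AU_of (hk : k ∈ K0) (h : ∀ v, InU (k v + v)) : k ∈ AU := ⟨K0_Hs hk, fun u hu => by
  have a1 : InU (k u) := by have := (h u).add hu; rwa [add_assoc, vadd_self, add_zero] at this
  have := nd6 (k u + u) fun v => by
    rw [h_add_left, ← GU.h (K0_GU hk) u, ← h_add_right, add_comm v, a1.h (h v)]
  rw [← add_zero (k u), ← vadd_self u, ← add_assoc, this, zero_add]⟩

theorem move_invol (hk : k ∈ S0) (h2 : k * k = 1) (hv : h6 v v = 0) (e : k v = v) (h0 : h6 v (av 0) = 0) :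
    ∃ g ∈ S0, g * k * g⁻¹ ∈ AU ∧ InU (g v) := by
  have a1 : ∀ u, h6 (k u + u) v = 0 := fun u => by rw [h_add_left, ← S0.h hk u, e, f4_add_self]
  obtain ⟨g, hg, f⟩ := move_set (W := insert v (Set.range fun u => k u + u)) (by
    rintro _ (rfl | ⟨u, rfl⟩) _ (rfl | ⟨u', rfl⟩)
    exacts [hv, h_eq_zero_comm (a1 _), a1 _, by
      have : h6 (k u) u' = h6 u (k u') := by rw [← S0.h hk, ← Perm.mul_apply, h2, Perm.one_apply]
      hsimp; rw [S0.h hk, this]; linear_combination f4_add_self (h6 u u') + f4_add_self (h6 u (k u'))]) (by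
    rintro _ (rfl | ⟨u, rfl⟩)
    exacts [h0, by rw [h_add_left, S0.h0 hk, f4_add_self]])
  refine ⟨g, hg, mem_AU_of (cj_mem hg.1 hk.1) fun u => ?_, f v (.inl rfl)⟩
  have := f _ (.inr ⟨g⁻¹ u, rfl⟩)
  rw [GU.add (K0_GU hg.1)] at this
  simpa using this

theorem exists_r : ∀ i j : Fin 6, i ≠ 0 → j ≠ 0 → i ≠ j →
    (∃ c ∈ [96, 272, 288, 304, 1536], Rt (dec c) ∧ h6 (dec c) (av 0) = 0 ∧ h6 (dec c) (av i) ≠ 0 ∧ h6 (dec c) (av j) ≠ 0) ∧
    ∃ c ∈ [96, 272, 288, 304, 1536], Rt (dec c) ∧ h6 (dec c) (av 0) = 0 ∧ h6 (dec c) (av i) = 0 ∧ h6 (dec c) (av j) ≠ 0 := by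
  decide +kernel

theorem four_perp (hi : i ≠ 0) {r : Fin 4 → V6} (h1 : ∀ m, h6 (r m) (r m) = 0) (h2 : ∀ m, h6 (r m) (av 0) = 0)
    (h3 : ∀ m, h6 (r m) (av i) = 0) : ∃ m n, m ≠ n ∧ h6 (r m) (r n) = 0 := by
  obtain ⟨g, g1, g2, a, ha, e⟩ := exists_S0_one hi
  have a1 : ∀ m n, h6 (r m) (r n) = g (r m) 4 * star (g (r n) 4) + g (r m) 5 * star (g (r n) 5) := fun m n => by
    have b : ∀ m, g (r m) 0 = g (r m) 1 ∧ g (r m) 2 = g (r m) 3 := fun m => by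
      have c1 := h2 m
      have c2 := h3 m
      rw [← S0.h0 g1, (h_av _).1] at c1
      rw [← S0.h g1, e, h_smul_right, (h_av _).2, mul_eq_zero_iff_left (by simpa using ha)] at c2
      exact ⟨f4_eq_of_add c1, f4_eq_of_add c2⟩
    rw [← S0.h g1, std_apply, Fin.sum_univ_six, (b m).1, (b m).2, (b n).1, (b n).2, f4_add_self, zero_add, f4_add_self,
      zero_add]
  simp only [a1] at h1 ⊢
  have := (by decide +kernel : ∀ a b : F4, a * star a + b * star b = 0 → ∀ c d : F4, c * star c + d * star d = 0 →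
    ∀ e f : F4, e * star e + f * star f = 0 → ∀ x y : F4, x * star x + y * star y = 0 →
    a * star c + b * star d = 0 ∨ a * star e + b * star f = 0 ∨ a * star x + b * star y = 0 ∨
    c * star e + d * star f = 0 ∨ c * star x + d * star y = 0 ∨ e * star x + f * star y = 0)
    _ _ (h1 0) _ _ (h1 1) _ _ (h1 2) _ _ (h1 3)
  rcases this with e | e | e | e | e | e <;> exact ⟨_, _, by decide, e⟩

end CA.F24
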