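/-
Weights of elementary abelian 3-groups over `F₄`, and the combinatorics of `A₆` on `3⁴`.
-/
import Cfsg.Agent.Lib.F24.Mon

set_option autoImplicit false
set_option linter.unusedSectionVars false
set_option linter.unusedVariables false

namespace CA.F24

open Equiv Subgroup CA.Fi CA.Unit CA.Fi.F4

section wt

variable {W ι : Type*} [AddCommGroup W] [Module F4 W]

/-- weight vectors -/
def IsWt (f : ι → Module.End F4 W) (l : ι → ZMod 3) (v : W) : Prop := ∀ i, f i v = om (l i) • v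

/-- the projection on an eigenspace -/
def prj (f : Module.End F4 W) (c : ZMod 3) : Module.End F4 W := 1 + om (-c) • f + om c • (f * f)

theorem prj_apply (f : Module.End F4 W) (c : ZMod 3) (v : W) :
    prj f c v = v + om (-c) • f v + om c • f (f v) := rfl

theorem prj_sum (f : Module.End F4 W) (v : W) : prj f 0 v + prj f 1 v + prj f 2 v = v := by
  have e1 : (1 : F4) + 1 + 1 = 1 := by decide
  have e2 : om (-0) + om (-1) + om (-2) = 0 := by decide
  have e3 : om 0 + om 1 + om 2 = 0 := by decide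
  simp only [prj_apply]
  calc _ = ((1 : F4) + 1 + 1) • v + (om (-0) + om (-1) + om (-2)) • f v + (om 0 + om 1 + om 2) • f (f v) := by
        simp only [add_smul, one_smul]; abel
    _ = v := by rw [e1, e2, e3]; simp

theorem prj_eig {f : Module.End F4 W} (h : ∀ v, f (f (f v)) = v) (c : ZMod 3) (v : W) :
    f (prj f c v) = om c • prj f c v := by
  have e1 : ∀ c, om c * om (-c) = 1 := by decide
  have e2 : ∀ c, om c * om c = om (-c) := by decide
  simp only [prj_apply, map_add, map_smul, h, smul_add, smul_smul, e1, e2, one_smul]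
  abel

theorem prj_of_eig {f : Module.End F4 W} {c d : ZMod 3} {v : W} (h : f v = om d • v) :
    prj f c v = if c = d then v else 0 := by
  have e : ∀ c d, 1 + om (-c) * om d + om c * (om d * om d) = if c = d then 1 else 0 := by decide
  have : prj f c v = (1 + om (-c) * om d + om c * (om d * om d)) • v := by
    simp only [prj_apply, h, map_smul, smul_smul, add_smul, one_smul]
  rw [this, e]; split_ifs <;> simp

theorem wt_ind [Fintype ι] {f : ι → Module.End F4 W} (hc : ∀ i j v, f i (f j v) = f j (f i v))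
    (h3 : ∀ i v, f i (f i (f i v)) = v) {S P : Submodule F4 W} (hS : ∀ i, ∀ v ∈ S, f i v ∈ S)
    (hP : ∀ l, ∀ v ∈ S, IsWt f l v → v ∈ P) : S ≤ P := by
  classical
  have key : ∀ s : Finset ι, ∀ v ∈ S, (∀ i ∉ s, ∃ c, f i v = om c • v) → v ∈ P := by
    intro s
    induction s using Finset.induction_on with
    | empty =>
      intro v hv h
      choose l hl using fun i => h i (by simp)
      exact hP l v hv hl
    | insert i s hi ih =>
      intro v hv h
      have : ∀ c, prj (f i) c v ∈ P := fun c => by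
        refine ih _ ?_ fun j hj => ?_
        · exact S.add_mem (S.add_mem hv (S.smul_mem _ (hS i v hv))) (S.smul_mem _ (hS i _ (hS i v hv)))
        · by_cases e : j = i
          · exact ⟨c, e ▸ prj_eig (h3 j) c v⟩
          · obtain ⟨d, hd⟩ := h j (by simp [e, hj])
            refine ⟨d, ?_⟩
            simp only [prj_apply, map_add, map_smul, hc j i, hd, smul_add, smul_comm (om d)]
      rw [← prj_sum (f i) v]
      exact P.add_mem (P.add_mem (this 0) (this 1)) (this 2)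
  exact fun v hv => key Finset.univ v hv (by simp)

theorem exists_prj [Fintype ι] (f : ι → Module.End F4 W) (m : ι → ZMod 3) :
    ∃ p : Module.End F4 W, ∀ l v, IsWt f l v → (m = l → p v = v) ∧ (m ≠ l → p v = 0) := by
  classical
  have key : ∀ l v, IsWt f l v → ∀ L : List ι,
      (L.map fun i => prj (f i) (m i)).prod v = if ∀ i ∈ L, m i = l i then v else 0 := by
    intro l v hv L
    induction L with
    | nil => simp
    | cons i L ih =>
      rw [List.map_cons, List.prod_cons, Module.End.mul_apply, ih]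
      by_cases e : ∀ i ∈ L, m i = l i
      · rw [if_pos e, prj_of_eig (hv i)]
        exact if_congr (by simpa using fun _ => e) rfl rfl
      · rw [if_neg e, map_zero, if_neg fun h => e fun j hj => h j (List.mem_cons_of_mem _ hj)]
  refine ⟨(Finset.univ.toList.map fun i => prj (f i) (m i)).prod, fun l v hv => ⟨fun e => ?_, fun e => ?_⟩⟩
  · rw [key l v hv, if_pos fun _ _ => e ▸ rfl]
  · rw [key l v hv, if_neg fun h => e (funext fun i => h i (by simp))]

theorem wt_li [Fintype ι] {κ : Type*} {f : ι → Module.End F4 W} {v : κ → W} {l : κ → ι → ZMod 3}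
    (hl : Function.Injective l) (h0 : ∀ k, v k ≠ 0) (hv : ∀ k, IsWt f (l k) (v k)) :
    LinearIndependent F4 v := by
  classical
  rw [linearIndependent_iff']
  intro s g hg k hk
  obtain ⟨p, hp⟩ := exists_prj f (l k)
  have := congrArg p hg
  rw [map_sum, map_zero, Finset.sum_eq_single k] at this
  · rw [map_smul, (hp _ _ (hv k)).1 rfl] at this
    exact (smul_eq_zero.1 this).resolve_right (h0 k)
  · intro j _ hj
    rw [map_smul, (hp _ _ (hv j)).2 (hl.ne hj.symm), smul_zero]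
  · exact fun h => absurd hk h

theorem wt_dim [Fintype ι] {κ : Type*} [Fintype κ] {f : ι → Module.End F4 W} (B : Module.Basis κ F4 W)
    {l : κ → ι → ZMod 3} (hl : Function.Injective l) (hv : ∀ k, IsWt f (l k) (B k)) {k : κ} {v : W}
    (h : IsWt f (l k) v) : ∃ a : F4, v = a • B k := by
  classical
  obtain ⟨p, hp⟩ := exists_prj f (l k)
  refine ⟨B.repr v k, ?_⟩
  conv_lhs => rw [← (hp _ _ h).1 rfl, ← B.sum_repr v]
  rw [map_sum, Finset.sum_eq_single k]
  · rw [map_smul, (hp _ _ (hv k)).1 rfl]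
  · intro j _ hj
    rw [map_smul, (hp _ _ (hv j)).2 (hl.ne hj.symm), smul_zero]
  · simp

open Classical in
/-- the weights occurring in a subspace -/
noncomputable def wts [Fintype ι] (f : ι → Module.End F4 W) (S : Submodule F4 W) : Finset (ι → ZMod 3) :=
  Finset.univ.filter fun l => ∃ v ∈ S, v ≠ 0 ∧ IsWt f l v

theorem mem_wts [Fintype ι] {f : ι → Module.End F4 W} {S : Submodule F4 W} {l : ι → ZMod 3} :
    l ∈ wts f S ↔ ∃ v ∈ S, v ≠ 0 ∧ IsWt f l v := by simp [wts]

theorem card_wts [Fintype ι] [FiniteDimensional F4 W] (f : ι → Module.End F4 W) (S : Submodule F4 W) :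
    (wts f S).card ≤ Module.finrank F4 W := by
  choose v h1 h2 h3 using fun l : wts f S => mem_wts.1 l.2
  simpa using (wt_li Subtype.val_injective h2 h3).fintype_card_le_finrank

end wt

/-! ### `A₆` on `3⁴` -/

/-- weights -/
abbrev X4 : Type := Fin 4 → ZMod 3

/-- a basis of the diagonal group modulo scalars -/
def bt : Fin 4 → X6 := ![![1, 2, 0, 0, 0, 0], ![0, 0, 1, 2, 0, 0], ![0, 0, 0, 0, 1, 2], ![1, 1, 2, 2, 0, 0]]

/-- coordinates -/
def co (a : X6) : X4 := ![a 1 - a 0, a 3 - a 2, a 5 - a 4, a 4 + a 5 - a 0 - a 1]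

theorem sum_bt : ∀ i, ∑ j, bt i j = 0 := by decide

theorem co_spec (a : X6) (h : ∑ j, a j = 0) :
    a = (co a 0).val • bt 0 + (co a 1).val • bt 1 + (co a 2).val • bt 2 + (co a 3).val • bt 3 +
      fun _ => -(a 4 + a 5) := by
  revert a; decide +kernel

/-- the action on weights -/
def act (s : Perm (Fin 6)) (l : X4) : X4 := fun i => l ⬝ᵥ co (bt i ∘ s)

theorem act_sub (s : Perm (Fin 6)) (l m : X4) : act s (l - m) = act s l - act s m := by
  funext i; simp [act]

theorem act_neg (s : Perm (Fin 6)) (l : X4) : act s (-l) = -act s l := by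
  funext i; simp [act]

theorem act_smul (s : Perm (Fin 6)) (c : ZMod 3) (l : X4) : act s (c • l) = c • act s l := by
  funext i; simp [act]

theorem act_one (l : X4) : act 1 l = l := by
  have : ∀ i, co (bt i) = Pi.single i 1 := by decide
  funext i; simp [act, this]

theorem dot_co (l : X4) (t : Perm (Fin 6)) {a : X6} (h : ∑ j, a j = 0) :
    l ⬝ᵥ co (a ∘ t) = act t l ⬝ᵥ co a := by
  have e : co (a ∘ t) = ∑ k, co a k • co (bt k ∘ t) := by
    conv_lhs => rw [co_spec a h]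
    generalize co a = c
    funext i
    have e : ∀ (n : ZMod 3) (b : X6), n.val • b = n • b := fun n b => by
      rw [← Nat.cast_smul_eq_nsmul (ZMod 3), ZMod.natCast_zmod_val]
    simp only [e]
    fin_cases i <;> simp [co, Fin.sum_univ_four] <;> ring
  rw [e, dotProduct_sum, dotProduct_comm (act t l)]
  exact Finset.sum_congr rfl fun k _ => dotProduct_smul _ _ _

theorem act_mul (s t : Perm (Fin 6)) (l : X4) : act (s * t) l = act s (act t l) := by
  funext i
  rw [act, act, Perm.coe_mul, ← Function.comp_assoc, dot_co l t (sum_comp_perm (sum_bt i) s)]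

/-- code of a weight -/
def cd4 (l : X4) : ℕ := (l 0).val + 3 * ((l 1).val + 3 * ((l 2).val + 3 * (l 3).val))

/-- a labelling of `S₆` and of six weights -/
structure Dat where
  /-- triples of transpositions -/
  tb : Fin 6 → Fin 6 → Fin 6 → Fin 6
  /-- weights -/
  E : Fin 6 → X4

/-- the involutions -/
def Dat.s (D : Dat) (i j : Fin 6) : Perm (Fin 6) :=
  swap (D.tb i j 0) (D.tb i j 1) * swap (D.tb i j 2) (D.tb i j 3) * swap (D.tb i j 4) (D.tb i j 5)

/-- validity -/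
structure Dat.OK (D : Dat) : Prop where
  ne : ∀ i j, i ≠ j → D.tb i j 0 ≠ D.tb i j 1 ∧ D.tb i j 2 ≠ D.tb i j 3 ∧ D.tb i j 4 ≠ D.tb i j 5
  sq : ∀ i j, i ≠ j → D.s i j * D.s i j = 1
  sym : ∀ i j, i ≠ j → D.s i j = D.s j i
  cj : ∀ i j, i ≠ j → ∀ k l, k ≠ l → D.s i j * D.s k l * D.s i j = D.s (swap i j k) (swap i j l)
  gen : ∀ i j, i ≠ j → swap i j =
    D.s (D.tb i j 0) (D.tb i j 1) * D.s (D.tb i j 2) (D.tb i j 3) * D.s (D.tb i j 4) (D.tb i j 5)
  ac : ∃ e : ZMod 3, e * e = 1 ∧ ∀ i j, i ≠ j → ∀ m, act (D.s i j) (D.E m - D.E 0) =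
    e • (D.E (swap i j m) - D.E (swap i j 0))
  src : ∃ f : X4 → Fin 6, ∀ a b, a ≠ b → f (D.E a - D.E b) = a
  sum : ∑ j, D.E j = 0

/-- the natural labelling -/
def D1 : Dat := ⟨fun i j => ![i, j, i, j, i, j], fun j i => bt i j⟩

/-- the twisted labelling -/
def D2 : Dat := ⟨![![![0, 1, 0, 1, 0, 1], ![0, 1, 2, 3, 4, 5], ![0, 3, 1, 5, 2, 4], ![0, 2, 1, 4, 3, 5], ![0, 5, 1, 2, 3, 4], ![0, 4, 1, 3, 2, 5]],
  ![![0, 1, 2, 3, 4, 5], ![0, 1, 0, 1, 0, 1], ![0, 4, 1, 2, 3, 5], ![0, 5, 1, 3, 2, 4], ![0, 3, 1, 4, 2, 5], ![0, 2, 1, 5, 3, 4]],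
  ![![0, 3, 1, 5, 2, 4], ![0, 4, 1, 2, 3, 5], ![0, 1, 0, 1, 0, 1], ![0, 1, 2, 5, 3, 4], ![0, 2, 1, 3, 4, 5], ![0, 5, 1, 4, 2, 3]],
  ![![0, 2, 1, 4, 3, 5], ![0, 5, 1, 3, 2, 4], ![0, 1, 2, 5, 3, 4], ![0, 1, 0, 1, 0, 1], ![0, 4, 1, 5, 2, 3], ![0, 3, 1, 2, 4, 5]],
  ![![0, 5, 1, 2, 3, 4], ![0, 3, 1, 4, 2, 5], ![0, 2, 1, 3, 4, 5], ![0, 4, 1, 5, 2, 3], ![0, 1, 0, 1, 0, 1], ![0, 1, 2, 4, 3, 5]],
  ![![0, 4, 1, 3, 2, 5], ![0, 2, 1, 5, 3, 4], ![0, 5, 1, 4, 2, 3], ![0, 3, 1, 2, 4, 5], ![0, 1, 2, 4, 3, 5], ![0, 1, 0, 1, 0, 1]]],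
  ![![0, 0, 0, 0], ![0, 0, 0, 1], ![2, 2, 1, 2], ![2, 1, 2, 2], ![1, 1, 1, 2], ![1, 2, 2, 2]]⟩

theorem D1_OK : D1.OK where
  ne := by decide +kernel
  sq := by decide +kernel
  sym := by decide +kernel
  cj i j a k l b := by
    have : ∀ i j, D1.s i j = swap i j := fun i j => by simp [Dat.s, D1]
    rw [this, this, this, swap_apply_apply, swap_inv]
  gen := by decide +kernel
  ac := ⟨1, rfl, by decide +kernel⟩
  src := ⟨fun l => Fin.ofNat 6 ((0xc05680180a4040200000a052001008406c2400000000100000028080608 >>>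
    (3 * cd4 l)) % 8), by decide +kernel⟩
  sum := by decide +kernel

theorem D2_cj : ∀ i j, i ≠ j → ∀ k l, k ≠ l →
    D2.s i j * D2.s k l * D2.s i j = D2.s (swap i j k) (swap i j l) := by decide +kernel

theorem D2_OK : D2.OK where
  ne := by decide +kernel
  sq := by decide +kernel
  sym := by decide +kernel
  cj := D2_cj
  gen := by decide +kernel
  ac := ⟨-1, rfl, by decide +kernel⟩
  src := ⟨fun l => Fin.ofNat 6 ((0x1a190004418000000000050c0002004000000000204014400605ac462a000 >>>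
    (3 * cd4 l)) % 8), by decide +kernel⟩
  sum := by decide +kernel

/-- the negative weights -/
def Dat.neg (D : Dat) : Dat := ⟨D.tb, fun j => -D.E j⟩

theorem Dat.OK.neg {D : Dat} (h : D.OK) : D.neg.OK := by
  obtain ⟨e, e1, e2⟩ := h.ac
  obtain ⟨f, hf⟩ := h.src
  refine ⟨h.ne, h.sq, h.sym, h.cj, h.gen, ⟨e, e1, fun i j a m => ?_⟩, ⟨fun l => f (-l), fun a b c => ?_⟩,
    by simp [Dat.neg, Finset.sum_neg_distrib, h.sum]⟩
  · have := congrArg Neg.neg (e2 i j a m)
    rw [← act_neg, ← smul_neg, neg_sub', neg_sub'] at this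
    exact this
  · simp only [Dat.neg, neg_sub_neg, neg_sub, hf a b c]

theorem Dat.OK.sign {D : Dat} (h : D.OK) {i j : Fin 6} (e : i ≠ j) : Perm.sign (D.s i j) = -1 := by
  obtain ⟨a, b, c⟩ := h.ne i j e
  simp [Dat.s, Perm.sign_swap a, Perm.sign_swap b, Perm.sign_swap c]

theorem Dat.OK.ac' {D : Dat} (h : D.OK) {i j k l : Fin 6} (a : i ≠ j) (b : k ≠ l) (m n : Fin 6) :
    act (D.s i j * D.s k l) (D.E m - D.E n) =
      D.E (swap i j (swap k l m)) - D.E (swap i j (swap k l n)) := by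
  obtain ⟨e, e1, e2⟩ := h.ac
  have key : ∀ i j, i ≠ j → ∀ m n, act (D.s i j) (D.E m - D.E n) =
      e • (D.E (swap i j m) - D.E (swap i j n)) := fun i j a m n => by
    rw [← sub_sub_sub_cancel_right _ _ (D.E 0), act_sub, e2 i j a, e2 i j a, ← smul_sub,
      sub_sub_sub_cancel_right]
  rw [act_mul, key k l b, act_smul, key i j a, smul_smul, e1, one_smul]

theorem Dat.OK.E_inj {D : Dat} (h : D.OK) : Function.Injective D.E := fun a b e => by
  obtain ⟨f, hf⟩ := h.src
  by_contra c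
  have h1 := hf a b c
  have h2 := hf b a (Ne.symm c)
  rw [e] at h1 h2
  exact c (h1.symm.trans h2)

theorem Dat.OK.inj {D : Dat} (h : D.OK) {a b c d : Fin 6} (e : a ≠ b)
    (g : D.E a - D.E b = D.E c - D.E d) : a = c := by
  obtain ⟨f, hf⟩ := h.src
  have : c ≠ d := by
    rintro rfl
    exact e (h.E_inj (sub_eq_zero.1 (g.trans (sub_self _))))
  rw [← hf a b e, g, hf c d this]

/-- the invariant quadratic form -/
def Qf (l : X4) : ZMod 3 := l 3 * l 3 - l 0 * l 0 - l 1 * l 1 - l 2 * l 2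
/-- orbit representatives -/
def rp : ZMod 3 → X4 := (![![0, 0, 1, 1], ![0, 0, 0, 1], ![1, 0, 0, 0]] : Fin 3 → X4)
/-- generators of `A₆` -/
def gs : Fin 3 → Perm (Fin 6) := ![swap 0 1 * swap 2 3, swap 0 1 * swap 3 4, swap 1 2 * swap 4 5]
/-- depth -/
def dp4 (l : X4) : ℕ := (0xc1518180915121422100c1c0a0d1a0d100e0d0a140c101218150e1215161816181411150d0e111010141816000c08110609140c09000610050d0808111621191614121c111a1c1d06141211080e040000 >>> (8 * cd4 l)) % 256 / 4
/-- the orbits -/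
def Ob (c : ZMod 3) : Finset X4 := Finset.univ.filter fun l => l ≠ 0 ∧ Qf l = c

theorem sign_gs (i : Fin 3) : Perm.sign (gs i) = 1 := by fin_cases i <;> simp [gs]

theorem act_gs (i : Fin 3) (l : X4) : act (gs i) (act (gs i) l) = l := by
  rw [← act_mul, show gs i * gs i = 1 by revert i; decide, act_one]

theorem orb_chk : ∀ l : X4, l ≠ 0 → l = rp (Qf l) ∨
    ∃ i, dp4 (act (gs i) l) < dp4 l ∧ Qf (act (gs i) l) = Qf l ∧ act (gs i) l ≠ 0 := by decide +kernel

theorem Ob_subset {D : Finset X4} (hD : ∀ i, ∀ l ∈ D, act (gs i) l ∈ D) {l : X4} (hl : l ∈ D) (h0 : l ≠ 0) :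
    Ob (Qf l) ⊆ D := by
  have key : ∀ n, ∀ l : X4, dp4 l = n → l ≠ 0 → (l ∈ D ↔ rp (Qf l) ∈ D) := by
    intro n
    induction n using Nat.strong_induction_on with
    | _ n ih =>
      intro l hn h0
      rcases orb_chk l h0 with e | ⟨i, e1, e2, e3⟩
      · rw [← e]
      · rw [← e2, ← ih _ (hn ▸ e1) _ rfl e3]
        exact ⟨hD i l, fun h => act_gs i l ▸ hD i _ h⟩
  intro m hm
  simp only [Ob, Finset.mem_filter, Finset.mem_univ, true_and] at hm
  rw [key _ m rfl hm.1, hm.2, ← key _ l rfl h0]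
  exact hl

theorem card_Ob : (∀ c, 20 ≤ (Ob c).card) ∧ (∀ c, c ≠ 0 → 30 ≤ (Ob c).card) ∧
    (∀ c d, c ≠ d → 30 < (Ob c ∪ Ob d).card) ∧ ∀ c, rp c ∈ Ob c := by decide +kernel

/-- the candidates -/
def Dk (c : ZMod 3) (e : Bool) : Dat := if c = 2 then (if e then D1 else D1.neg) else if e then D2 else D2.neg

theorem Dk_OK (c : ZMod 3) (e : Bool) : (Dk c e).OK := by
  unfold Dk; split_ifs
  exacts [D1_OK, D1_OK.neg, D2_OK, D2_OK.neg]

theorem clq_chk : ∀ (c : ZMod 3) (x : X4), x ≠ 0 → x ≠ rp c → x ≠ -rp c → Qf x = c → Qf (x - rp c) = c →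
    c ≠ 0 ∧ ∃ e j0, (∃ j, x = (Dk c e).E j - (Dk c e).E j0) ∧ (∃ j, rp c = (Dk c e).E j - (Dk c e).E j0) ∧
      ∀ d, Qf d = c → Qf (d - rp c) = c → Qf (d - x) = c → ∃ j, d = (Dk c e).E j - (Dk c e).E j0 := by
  decide +kernel

/-- small invariant sets of weights -/
theorem clique {S : Finset X4} (h6 : S.card ≤ 6) (h2 : ∃ a ∈ S, ∃ b ∈ S, a ≠ b)
    (hg : ∀ i, ∃ t, ∀ l ∈ S, act (gs i) l + t ∈ S) :
    ∃ D : Dat, D.OK ∧ ∃ l0, ∀ l, l ∈ S ↔ ∃ j, l = l0 + D.E j := by
  let D := S.offDiag.image fun p => p.1 - p.2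
  have mD : ∀ l, l ∈ D ↔ ∃ a ∈ S, ∃ b ∈ S, a ≠ b ∧ a - b = l := fun l => by
    simp only [D, Finset.mem_image, Finset.mem_offDiag, Prod.exists]
    exact ⟨fun ⟨a, b, h, e⟩ => ⟨a, h.1, b, h.2.1, h.2.2, e⟩, fun ⟨a, h1, b, h2, h3, e⟩ => ⟨a, b, ⟨h1, h2, h3⟩, e⟩⟩
  have cD : D.card ≤ S.card * S.card - S.card := Finset.card_image_le.trans (Finset.offDiag_card S).le
  have c30 : D.card ≤ 30 := cD.trans (by generalize S.card = n at *; interval_cases n <;> omega)
  have hD : ∀ i, ∀ l ∈ D, act (gs i) l ∈ D := fun i l hl => by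
    obtain ⟨a, h1, b, h2, h3, rfl⟩ := (mD l).1 hl
    obtain ⟨t, ht⟩ := hg i
    refine (mD _).2 ⟨_, ht a h1, _, ht b h2, fun e => h3 ?_, by rw [act_sub]; abel⟩
    rw [← act_gs i a, add_right_cancel e, act_gs]
  obtain ⟨c1, c2, c3, c4⟩ := card_Ob
  obtain ⟨a0, ha0, b0, hb0, hab⟩ := h2
  have sub : ∀ a ∈ S, ∀ b ∈ S, a ≠ b → Ob (Qf (a - b)) ⊆ D := fun a ha b hb e =>
    Ob_subset hD ((mD _).2 ⟨a, ha, b, hb, e, rfl⟩) (sub_ne_zero.2 e)
  set c := Qf (a0 - b0)
  have hQ : ∀ a ∈ S, ∀ b ∈ S, a ≠ b → Qf (a - b) = c := fun a ha b hb e => by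
    by_contra f
    have := (c3 _ _ f).trans_le (Finset.card_le_card
      (Finset.union_subset (sub a ha b hb e) (sub a0 ha0 b0 hb0 hab)))
    omega
  have s0 := sub a0 ha0 b0 hb0 hab
  obtain ⟨a, ha, b, hb, hab', e⟩ := (mD _).1 (s0 (c4 c))
  have n1 := ((c1 c).trans (Finset.card_le_card s0)).trans cD
  obtain ⟨x, hx, hx2⟩ : ∃ x ∈ S, x ∉ ({a, b, b - rp c} : Finset X4) := by
    refine Finset.exists_mem_notMem_of_card_lt_card (Finset.card_le_three.trans_lt ?_)
    generalize S.card = n at *; interval_cases n <;> omega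
  simp only [Finset.mem_insert, Finset.mem_singleton, not_or] at hx2
  obtain ⟨f0, ε, j0, f1, f2, f3⟩ := clq_chk c (x - b) (sub_ne_zero.2 hx2.2.1)
    (fun f => hx2.1 (sub_left_injective (f.trans e.symm)))
    (fun f => hx2.2.2 (by rw [sub_eq_iff_eq_add] at f; rw [f]; abel)) (hQ x hx b hb hx2.2.1)
    (by rw [← e, sub_sub_sub_cancel_right]; exact hQ x hx a ha hx2.1)
  have n2 := ((c2 c f0).trans (Finset.card_le_card s0)).trans cD
  have key : S ⊆ Finset.univ.image fun j => b - (Dk c ε).E j0 + (Dk c ε).E j := fun d hd => by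
    suffices ∃ j, d - b = (Dk c ε).E j - (Dk c ε).E j0 by
      obtain ⟨j, hj⟩ := this
      exact Finset.mem_image.2 ⟨j, Finset.mem_univ _, by rw [sub_eq_iff_eq_add] at hj; rw [hj]; abel⟩
    by_cases g1 : d = b
    · exact ⟨j0, by rw [g1, sub_self, sub_self]⟩
    by_cases g2 : d = a
    · rwa [g2, e]
    by_cases g3 : d = x
    · rwa [g3]
    exact f3 _ (hQ d hd b hb g1) (by rw [← e, sub_sub_sub_cancel_right]; exact hQ d hd a ha g2)
      (by rw [sub_sub_sub_cancel_right]; exact hQ d hd x hx g3)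
  refine ⟨Dk c ε, Dk_OK c ε, b - (Dk c ε).E j0, fun l => ?_⟩
  rw [Finset.eq_of_subset_of_card_le key (Finset.card_image_le.trans (by
    rw [Finset.card_univ, Fintype.card_fin]; generalize S.card = n at *; interval_cases n <;> omega))]
  simp [eq_comm]

/-- small linearly invariant sets of weights -/
theorem small_inv {S : Finset X4} (h : S.card < 20) (hg : ∀ i, ∀ l ∈ S, act (gs i) l ∈ S) :
    ∀ l ∈ S, l = 0 := fun l hl => by
  by_contra e
  have := (card_Ob.1 _).trans (Finset.card_le_card (Ob_subset hg hl e))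
  omega

end CA.F24
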