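/-
Uniqueness of the six-dimensional representation of `3·U₄(3)` over `F₄`.
-/
import Cfsg.Agent.Lib.F24.Wt
import Cfsg.Agent.Lib.F24.Iso

set_option autoImplicit false
set_option linter.unusedSectionVars false
set_option linter.unusedVariables false

namespace CA.F24

open Equiv Subgroup CA.Fi CA.Unit CA.Fi.F4

variable {L : Type*} [Group L]

/-- a central extension of `U₄(3)` by a group of order dividing 3 -/
structure Cv (π : L →* U43) (x : L) : Prop where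
  sur : Function.Surjective π
  ker : ∀ l, π l = 1 ↔ l ∈ zpowers x
  x3 : x ^ 3 = 1
  cen : ∀ l, l * x = x * l

/-- `l` lifts `k` -/
def Lf (π : L →* U43) (l : L) (k : Perm V6) : Prop := ∃ hk : k ∈ K0, π l = phi ⟨k, hk⟩

variable {π : L →* U43} {x l l' z : L} {k k' : Perm V6}

theorem Lf.mul (h : Lf π l k) (h' : Lf π l' k') : Lf π (l * l') (k * k') :=
  ⟨mul_mem h.1 h'.1, by rw [map_mul, h.2, h'.2, ← map_mul]; rfl⟩
theorem Lf.inv (h : Lf π l k) : Lf π l⁻¹ k⁻¹ := ⟨inv_mem h.1, by rw [map_inv, h.2, ← map_inv]; rfl⟩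
theorem Lf.pow (h : Lf π l k) (n : ℕ) : Lf π (l ^ n) (k ^ n) :=
  ⟨pow_mem h.1 n, by rw [map_pow, h.2, ← map_pow]; rfl⟩
theorem lf_sc (π : L →* U43) (c : ZMod 3) : Lf π 1 (sc c) :=
  ⟨sc_K0 c, by rw [map_one, phi_eq_one.2 ⟨c, rfl⟩]⟩
theorem Lf.sc_of (h : Lf π l k) (h' : Lf π l k') : ∃ c, k' = k * sc c := by
  obtain ⟨c, hc⟩ := phi_eq_one.1 (show phi ((⟨k, h.1⟩ : K0)⁻¹ * ⟨k', h'.1⟩) = 1 by
    rw [map_mul, map_inv, ← h.2, ← h'.2, inv_mul_cancel])
  exact ⟨c, by rw [← hc]; simp⟩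

namespace Cv

variable (C : Cv π x)
include C

theorem lift (hk : k ∈ K0) : ∃ l, Lf π l k := (C.sur _).imp fun _ h => ⟨hk, h⟩
omit C in
theorem ex (l : L) : ∃ k, Lf π l k := by
  obtain ⟨k, hk⟩ := phi_surj (π l); exact ⟨k.1, k.2, hk.symm⟩
theorem eq (h : Lf π l k) (h' : Lf π l' k) : ∃ z ∈ zpowers x, l' = l * z :=
  ⟨l⁻¹ * l', (C.ker _).1 (by rw [map_mul, map_inv, h.2, h'.2, inv_mul_cancel]), by simp⟩
theorem memZ (h : Lf π l 1) : l ∈ zpowers x := (C.ker _).1 (h.2.trans (map_one phi))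
theorem lfx : Lf π x 1 := ⟨one_mem _, ((C.ker x).2 (mem_zpowers x)).trans (map_one phi).symm⟩
theorem zc (hz : z ∈ zpowers x) (l : L) : l * z = z * l := by
  obtain ⟨n, rfl⟩ := hz
  exact (Commute.zpow_right (C.cen l) n).eq
theorem z3 (hz : z ∈ zpowers x) : z ^ 3 = 1 := by
  obtain ⟨n, rfl⟩ := hz
  simp only [← zpow_natCast, ← zpow_mul, mul_comm n]
  rw [zpow_mul, zpow_natCast, C.x3, one_zpow]
theorem z1 (hz : z ∈ zpowers x) (h : z * z = 1) : z = 1 := by
  have := C.z3 hz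
  rwa [pow_succ, pow_two, h, one_mul] at this
theorem zpow' (hz : z ∈ zpowers x) : ∃ n : ℕ, z = x ^ n := by
  obtain ⟨n, rfl⟩ := hz
  refine ⟨(n % 3).toNat, ?_⟩
  rw [← zpow_natCast, Int.toNat_of_nonneg (by omega)]
  conv_lhs => rw [← Int.mul_ediv_add_emod n 3]
  simp only [zpow_add, zpow_mul]
  rw [show x ^ (3 : ℤ) = 1 from (zpow_natCast x 3).trans C.x3]; simp

theorem invol (hk : k ∈ K0) (h : k * k = 1) : ∃ y, Lf π y k ∧ y * y = 1 := by
  obtain ⟨l, hl⟩ := C.lift hk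
  have := hl.pow 3
  rw [pow_succ k, pow_two, h, one_mul] at this
  refine ⟨_, this, ?_⟩
  rw [← Commute.mul_pow (Commute.refl l)]
  exact C.z3 (C.memZ (h ▸ hl.mul hl))

theorem invol_eq (h : Lf π l k) (h' : Lf π l' k) (e : l * l = 1) (e' : l' * l' = 1) : l = l' := by
  obtain ⟨z, hz, rfl⟩ := C.eq h h'
  rw [C.z1 hz, mul_one]
  rwa [mul_assoc, ← mul_assoc z, ← C.zc hz l, mul_assoc, ← mul_assoc, e, one_mul] at e'

theorem cube {a : X6} {s : Perm (Fin 6)} (hs : Perm.sign s = 1) (h : Lf π l (dg a)) (e : a ∘ s = -a) :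
    l ^ 3 = 1 := by
  obtain ⟨g, hg⟩ := C.lift (pm_K0 hs)
  have h1 := (hg.inv.mul h).mul hg
  rw [pm_dg, e, ← dg_inv] at h1
  obtain ⟨z, hz, e1⟩ := C.eq h.inv h1
  have h2 := h.pow 3
  rw [dg_pow, show 3 • a = 0 from funext fun j => by
    rw [Pi.smul_apply, Pi.zero_apply]; generalize a j = c; revert c; decide, dg_zero] at h2
  have h3 := C.memZ h2
  refine C.z1 h3 ?_
  have : (g⁻¹ * l * g) ^ 3 = l ^ 3 := by
    rw [show (g⁻¹ * l * g) ^ 3 = g⁻¹ * (l ^ 3 * g) by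
      simp only [pow_succ, pow_zero, one_mul, mul_assoc, mul_inv_cancel_left], ← C.zc h3]; simp
  rw [e1, Commute.mul_pow (C.zc hz _), C.z3 hz, mul_one] at this
  conv_lhs => lhs; rw [← this]
  simp

theorem comm {a a' : X6} {s : Perm (Fin 6)} (hs : Perm.sign s = 1) (h : Lf π l (dg a))
    (h' : Lf π l' (dg a')) (e : a ∘ s = a) (e' : a' ∘ s = -a') : l * l' = l' * l := by
  obtain ⟨g, hg⟩ := C.lift (pm_K0 hs)
  have h1 := (hg.inv.mul h).mul hg
  have h2 := (hg.inv.mul h').mul hg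
  rw [pm_dg, e] at h1
  rw [pm_dg, e', ← dg_inv] at h2
  obtain ⟨z, hz, e1⟩ := C.eq h h1
  obtain ⟨z', hz', e2⟩ := C.eq h'.inv h2
  have h3 := ((h.mul h').mul h.inv).mul h'.inv
  rw [← dg_add, add_comm, dg_add, mul_inv_cancel_right, mul_inv_cancel] at h3
  have h4 := C.memZ h3
  set c := l * l' * l⁻¹ * l'⁻¹ with hc
  have e3 : l * l' = c * (l' * l) := by rw [hc]; group
  have e4 : (g⁻¹ * l * g) * (g⁻¹ * l' * g) = c * ((g⁻¹ * l' * g) * (g⁻¹ * l * g)) := by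
    calc _ = g⁻¹ * (l * l') * g := by group
      _ = (g⁻¹ * c) * (l' * l) * g := by rw [e3]; group
      _ = _ := by rw [C.zc h4]; group
  rw [e1, e2] at e4
  have e5 : l * l'⁻¹ = c * (l'⁻¹ * l) := by
    have : l * l'⁻¹ * (z * z') = c * (l'⁻¹ * l) * (z * z') := by
      calc _ = l * (l'⁻¹ * z) * z' := by group
        _ = l * z * (l'⁻¹ * z') := by rw [C.zc hz]; group
        _ = c * (l'⁻¹ * (z' * (l * z))) := by rw [e4]; group
        _ = _ := by rw [← C.zc hz']; group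
    exact mul_right_cancel this
  have : c * c = 1 := by
    have : l = c * c * l := by
      calc l = l * l'⁻¹ * l' := by group
        _ = c * l'⁻¹ * (l * l') := by rw [e5]; group
        _ = c * (l'⁻¹ * c) * (l' * l) := by rw [e3]; group
        _ = _ := by rw [C.zc h4]; group
    exact (right_eq_mul.1 this)
  rw [e3, C.z1 h4 this, one_mul]

end Cv

/-- a basis of the lifted diagonal group -/
structure Bs (π : L →* U43) (b : Fin 4 → L) : Prop where
  lf : ∀ i, Lf π (b i) (dg (bt i))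
  cube : ∀ i, b i ^ 3 = 1
  comm : ∀ i j, b i * b j = b j * b i

theorem Cv.exists_bs (C : Cv π x) : ∃ b, Bs π b := by
  choose b hb using fun i => C.lift (dg_K0 (sum_bt i))
  have s1 : Perm.sign (swap (0 : Fin 6) 1 * swap 4 5) = 1 := by simp
  have s2 : Perm.sign (swap (2 : Fin 6) 3 * swap 4 5) = 1 := by simp
  have s3 : Perm.sign (swap (0 : Fin 6) 2 * swap 1 3) = 1 := by simp
  have c01 := C.comm s1 (hb 1) (hb 0) (by decide) (by decide)
  have c02 := C.comm s2 (hb 0) (hb 2) (by decide) (by decide)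
  have c03 := C.comm s1 (hb 3) (hb 0) (by decide) (by decide)
  have c12 := C.comm s1 (hb 1) (hb 2) (by decide) (by decide)
  have c13 := C.comm s2 (hb 3) (hb 1) (by decide) (by decide)
  have c23 := C.comm s1 (hb 3) (hb 2) (by decide) (by decide)
  refine ⟨b, hb, fun i => ?_, fun i j => ?_⟩
  · fin_cases i
    exacts [C.cube s1 (hb 0) (by decide), C.cube s2 (hb 1) (by decide), C.cube s1 (hb 2) (by decide),
      C.cube s3 (hb 3) (by decide)]
  · fin_cases i <;> fin_cases j <;> first | rfl | assumption | (symm; assumption)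

section rep

variable {W : Type*} [AddCommGroup W] [Module F4 W] {b : Fin 4 → L} (ρ : L →* W ≃ₗ[F4] W)

/-- the operators -/
abbrev ops (b : Fin 4 → L) : Fin 4 → Module.End F4 W := fun i => (ρ (b i) : W →ₗ[F4] W)

theorem rho_mul (g k : L) (v : W) : ρ (g * k) v = ρ g (ρ k v) := by rw [map_mul]; rfl
theorem rho_one (v : W) : ρ 1 v = v := by rw [map_one]; rfl

theorem rho_pow {g : L} {c : ZMod 3} {v : W} (h : ρ g v = om c • v) (n : ℕ) :
    ρ (g ^ n) v = om (n * c) • v := by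
  induction n with
  | zero => simp
  | succ n ih => rw [pow_succ, rho_mul, h, map_smul, ih, smul_smul, ← om_add]; congr 2; push_cast; ring

variable {ρ}

theorem Cv.diag (C : Cv π x) (B : Bs π b) {a : X6} (ha : ∑ j, a j = 0) (h : Lf π l (dg a)) :
    ∃ n : ZMod 3, ∀ c m v, ρ x v = om c • v → IsWt (ops ρ b) m v →
      ρ l v = om (m ⬝ᵥ co a + n * c) • v := by
  have h1 := (((((B.lf 0).pow (co a 0).val).mul ((B.lf 1).pow (co a 1).val)).mul
    ((B.lf 2).pow (co a 2).val)).mul ((B.lf 3).pow (co a 3).val)).mul (lf_sc π (-(a 4 + a 5)))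
  simp only [dg_pow, sc, ← dg_add] at h1
  rw [← co_spec a ha] at h1
  obtain ⟨z, hz, rfl⟩ := C.eq h1 h
  obtain ⟨n, rfl⟩ := C.zpow' hz
  refine ⟨n, fun c m v e hv => ?_⟩
  simp only [rho_mul, rho_one, rho_pow ρ e, map_smul, rho_pow ρ (hv 0), rho_pow ρ (hv 1),
    rho_pow ρ (hv 2), rho_pow ρ (hv 3), smul_smul, ← om_add, ZMod.natCast_zmod_val]
  congr 2
  simp [dotProduct, Fin.sum_univ_four]; ring

theorem Cv.shift (C : Cv π x) (B : Bs π b) {g : L} {s : Perm (Fin 6)} (h : Lf π g (pm s)) :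
    ∃ t : X4, ∀ c m v, ρ x v = om c • v → IsWt (ops ρ b) m v →
      IsWt (ops ρ b) (act s m + c • t) (ρ g v) := by
  choose t ht using fun i => C.diag (ρ := ρ) B (sum_comp_perm (sum_bt i) s)
    (pm_dg s (bt i) ▸ (h.inv.mul (B.lf i)).mul h)
  refine ⟨t, fun c m v e hv i => ?_⟩
  have := congrArg (ρ g) (ht i c m v e hv)
  rw [← rho_mul, mul_assoc, mul_inv_cancel_left, rho_mul, map_smul] at this
  exact this.trans (by simp [act, mul_comm])

theorem Bs.c3 (B : Bs π b) (i : Fin 4) (v : W) : ops ρ b i (ops ρ b i (ops ρ b i v)) = v := by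
  have := rho_one ρ v
  rwa [← B.cube i, pow_succ, pow_two, rho_mul, rho_mul] at this

theorem Bs.cc (B : Bs π b) (i j : Fin 4) (v : W) : ops ρ b i (ops ρ b j v) = ops ρ b j (ops ρ b i v) :=
  ((rho_mul ρ _ _ v).symm.trans (by rw [B.comm])).trans (rho_mul ρ _ _ v)

/-- the eigenspaces of the central element -/
def eigS (ρ : L →* W ≃ₗ[F4] W) (x : L) (c : ZMod 3) : Submodule F4 W where
  carrier := {v | ρ x v = om c • v}
  add_mem' {u v} hu hv := by simp only [Set.mem_ofPred_eq] at *; rw [map_add, hu, hv, smul_add]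
  zero_mem' := by simp
  smul_mem' a v hv := by simp only [Set.mem_ofPred_eq] at *; rw [map_smul, hv, smul_comm]

theorem Cv.eig_inv (C : Cv π x) (c : ZMod 3) (g : L) {v : W} (h : v ∈ eigS ρ x c) :
    ρ g v ∈ eigS ρ x c := by
  change ρ x (ρ g v) = _
  rw [← rho_mul, ← C.cen, rho_mul, show ρ x v = _ from h, map_smul]

theorem Cv.wts_inv (C : Cv π x) (B : Bs π b) (c : ZMod 3) {g : L} {s : Perm (Fin 6)} (h : Lf π g (pm s)) :
    ∃ t : X4, ∀ m ∈ wts (ops ρ b) (eigS ρ x c), act s m + c • t ∈ wts (ops ρ b) (eigS ρ x c) := by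
  obtain ⟨t, ht⟩ := C.shift (ρ := ρ) B h
  refine ⟨t, fun m hm => ?_⟩
  obtain ⟨v, h1, h2, h3⟩ := mem_wts.1 hm
  exact mem_wts.2 ⟨_, C.eig_inv c g h1, by simpa using h2, ht c m v h1 h3⟩

theorem Cv.triv (C : Cv π x) (B : Bs π b) (c : ZMod 3) (g : L)
    (h : ∀ m ∈ wts (ops ρ b) (eigS ρ x c), ∀ n ∈ wts (ops ρ b) (eigS ρ x c), m = n) :
    ∀ v ∈ eigS ρ x c, ρ (g⁻¹ * b 0 * g * (b 0)⁻¹) v = v := by
  obtain ⟨a, ha⟩ : ∃ a : F4, ∀ v ∈ eigS ρ x c, ρ (b 0) v = a • v := by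
    by_cases e : ∃ m, m ∈ wts (ops ρ b) (eigS ρ x c)
    · obtain ⟨m, hm⟩ := e
      refine ⟨om (m 0), wt_ind (P := eigS ρ (b 0) (m 0)) B.cc B.c3 (fun i v => C.eig_inv c _) ?_⟩
      intro n v hv hn
      by_cases e : v = 0
      · simp [e]
      · exact h _ (mem_wts.2 ⟨v, hv, e, hn⟩) _ hm ▸ hn 0
    · refine ⟨1, wt_ind (P := eigS ρ (b 0) 0) B.cc B.c3 (fun i v => C.eig_inv c _) ?_⟩
      intro n v hv hn
      by_cases e' : v = 0
      · simp [e']
      · exact absurd ⟨n, mem_wts.2 ⟨v, hv, e', hn⟩⟩ e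
  intro v hv
  have h1 := C.eig_inv c (b 0)⁻¹ hv
  rw [rho_mul, rho_mul, rho_mul, ha _ (C.eig_inv c g h1), ← map_smul, ← ha _ h1, ← rho_mul, ← rho_mul,
    ← rho_mul]
  simp

theorem Cv.ne_one (C : Cv π x) (B : Bs π b) : ∃ g : L, g⁻¹ * b 0 * g * (b 0)⁻¹ ≠ 1 := by
  obtain ⟨g, hg⟩ := C.lift (pm_K0 (s := swap 0 1 * swap 4 5) (by simp))
  refine ⟨g, fun e => ?_⟩
  have := ((hg.inv.mul (B.lf 0)).mul hg).mul (B.lf 0).inv
  rw [e, pm_dg, dg_inv, ← dg_add] at this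
  obtain ⟨c, hc⟩ := (lf_sc π 0).sc_of this
  rw [← sc_add] at hc
  exact absurd (dg_inj hc) (by clear hc; revert c; decide)

variable [FiniteDimensional F4 W]

theorem Cv.dich (C : Cv π x) (B : Bs π b) (c : ZMod 3) (h6 : Module.finrank F4 W ≤ 6) :
    (∀ g, ∀ v ∈ eigS ρ x c, ρ (g⁻¹ * b 0 * g * (b 0)⁻¹) v = v) ∨
    ∃ D : Dat, D.OK ∧ ∃ l0, ∀ l, l ∈ wts (ops ρ b) (eigS ρ x c) ↔ ∃ j, l = l0 + D.E j := by
  by_cases h : ∀ m ∈ wts (ops ρ b) (eigS ρ x c), ∀ n ∈ wts (ops ρ b) (eigS ρ x c), m = n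
  · exact Or.inl fun g => C.triv B c g h
  · push Not at h
    refine Or.inr (clique ((card_wts _ _).trans h6) h fun i => ?_)
    obtain ⟨g, hg⟩ := C.lift (pm_K0 (sign_gs i))
    obtain ⟨t, ht⟩ := C.wts_inv (ρ := ρ) B c hg
    exact ⟨_, ht⟩

theorem Cv.triv0 (C : Cv π x) (B : Bs π b) (h : Module.finrank F4 W < 20) (g : L) :
    ∀ v ∈ eigS ρ x 0, ρ (g⁻¹ * b 0 * g * (b 0)⁻¹) v = v := by
  have := small_inv ((card_wts (ops ρ b) (eigS ρ x 0)).trans_lt h) fun i => by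
    obtain ⟨g, hg⟩ := C.lift (pm_K0 (sign_gs i))
    obtain ⟨t, ht⟩ := C.wts_inv (ρ := ρ) B 0 hg
    simpa using ht
  exact C.triv B 0 g fun m hm n hn => (this m hm).trans (this n hn).symm

theorem exists_wt_basis {c : ZMod 3} (h6 : Module.finrank F4 W ≤ 6) {D : Dat} (hD : D.OK) {l0 : X4}
    (h : ∀ l, l ∈ wts (ops ρ b) (eigS ρ x c) ↔ ∃ j, l = l0 + D.E j) :
    Module.finrank F4 W = 6 ∧ ∃ V : Module.Basis (Fin 6) F4 W,
      ∀ j, V j ∈ eigS ρ x c ∧ IsWt (ops ρ b) (l0 + D.E j) (V j) := by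
  choose v h1 h2 h3 using fun j => mem_wts.1 ((h _).2 ⟨j, rfl⟩)
  have li := wt_li (l := fun j => l0 + D.E j) (fun i j e => hD.E_inj (add_left_cancel e)) h2 h3
  have e : Module.finrank F4 W = 6 := le_antisymm h6 (by simpa using li.fintype_card_le_finrank)
  exact ⟨e, basisOfLinearIndependentOfCardEqFinrank li (by simp [e]), fun j => by simp [h1, h3]⟩

end rep

section main

variable {W : Type*} [AddCommGroup W] [Module F4 W] {b : Fin 4 → L} {ρ : L →* W ≃ₗ[F4] W}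

/-- the lifted involutions -/
structure Ys (π : L →* U43) (D : Dat) (y : Fin 6 → Fin 6 → L) : Prop where
  lf : ∀ i j, i ≠ j → Lf π (y i j) (T * pm (D.s i j))
  sq : ∀ i j, i ≠ j → y i j * y i j = 1
  sym : ∀ i j, i ≠ j → y i j = y j i
  cj : ∀ i j, i ≠ j → ∀ k l, k ≠ l → y i j * y k l * y i j = y (swap i j k) (swap i j l)

theorem Tpm_mul (s t : Perm (Fin 6)) : T * pm s * (T * pm t) = pm (s * t) := by
  rw [mul_assoc, ← mul_assoc (pm s), pm_T, mul_assoc, T_T, map_mul]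

theorem Cv.exists_ys (C : Cv π x) {D : Dat} (hD : D.OK) : ∃ y, Ys π D y := by
  have : ∀ i j, ∃ y, i ≠ j → Lf π y (T * pm (D.s i j)) ∧ y * y = 1 := fun i j => by
    by_cases e : i = j
    · exact ⟨1, fun h => absurd e h⟩
    · exact (C.invol (Tpm_K0 (hD.sign e)) (by rw [Tpm_mul, hD.sq i j e, map_one])).imp fun _ h _ => h
  choose y hy using this
  refine ⟨y, fun i j e => (hy i j e).1, fun i j e => (hy i j e).2, fun i j e =>
    C.invol_eq (hy i j e).1 (hD.sym i j e ▸ (hy j i e.symm).1) (hy i j e).2 (hy j i e.symm).2,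
    fun i j e k l f => ?_⟩
  have g := (swap i j).injective.ne f
  refine C.invol_eq ?_ (hy _ _ g).1 ?_ (hy _ _ g).2
  · have := ((hy i j e).1.mul (hy k l f).1).mul (hy i j e).1
    rwa [Tpm_mul, ← mul_assoc, pm_T, mul_assoc T, ← map_mul, hD.cj i j e k l f] at this
  · calc _ = y i j * (y k l * (y i j * y i j) * y k l) * y i j := by group
      _ = 1 := by rw [(hy i j e).2, mul_one, (hy k l f).2, mul_one, (hy i j e).2]

theorem Ys.app {D : Dat} {y : Fin 6 → Fin 6 → L} (Y : Ys π D y) {i j : Fin 6} (e : i ≠ j) (v : W) :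
    ρ (y i j) (ρ (y i j) v) = v := by rw [← rho_mul, Y.sq i j e, rho_one]

theorem Cv.perm_wt (C : Cv π x) (B : Bs π b) {D : Dat} (hD : D.OK) {y : Fin 6 → Fin 6 → L} (Y : Ys π D y)
    {c : ZMod 3} {l0 : X4} (h : ∀ l, l ∈ wts (ops ρ b) (eigS ρ x c) ↔ ∃ j, l = l0 + D.E j)
    (hx : ∀ v, v ∈ eigS ρ x c) {i j k l : Fin 6} (e : i ≠ j) (f : k ≠ l) {m : Fin 6} {v : W}
    (hv : IsWt (ops ρ b) (l0 + D.E m) v) :
    IsWt (ops ρ b) (l0 + D.E (swap i j (swap k l m))) (ρ (y i j * y k l) v) := by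
  have lf := (Y.lf i j e).mul (Y.lf k l f)
  rw [Tpm_mul] at lf
  obtain ⟨t, ht⟩ := C.shift (ρ := ρ) B lf
  have h1 : ∀ n, ∃ n', act (D.s i j * D.s k l) (l0 + D.E n) + c • t = l0 + D.E n' := fun n => by
    obtain ⟨u, u1, u2, u3⟩ := mem_wts.1 ((h _).2 ⟨n, rfl⟩)
    exact (h _).1 (mem_wts.2 ⟨_, hx _, by simpa using u2, ht c _ u u1 u3⟩)
  obtain ⟨n, hn⟩ := exists_ne m
  obtain ⟨m', hm'⟩ := h1 m
  obtain ⟨n', hn'⟩ := h1 n
  have h2 := hD.ac' e f m n
  rw [← add_sub_add_left_eq_sub _ _ l0, act_sub, ← add_sub_add_right_eq_sub _ _ (c • t), hm', hn',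
    add_sub_add_left_eq_sub] at h2
  rw [hD.inj ((swap i j).injective.ne ((swap k l).injective.ne hn.symm)) h2.symm, ← hm']
  exact ht c _ v (hx v) hv

set_option synthInstance.maxSize 1000 in
theorem exists_disj : ∀ i j : Fin 6, i ≠ 5 → j ≠ 5 → i ≠ j →
    (swap i j 0 = 0 ∧ swap i j 1 = 1) ∨ ∃ a b, a ≠ 5 ∧ b ≠ 5 ∧ a ≠ b ∧ swap i j a = a ∧ swap i j b = b ∧
      swap a b 0 = 0 ∧ swap a b 1 = 1 := by decide +kernel

/-- the monomial basis -/
theorem Cv.exists_mon (C : Cv π x) (B : Bs π b) {D : Dat} (hD : D.OK) {y : Fin 6 → Fin 6 → L}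
    (Y : Ys π D y) {c : ZMod 3} {l0 : X4} (h : ∀ l, l ∈ wts (ops ρ b) (eigS ρ x c) ↔ ∃ j, l = l0 + D.E j)
    (V : Module.Basis (Fin 6) F4 W) (hV : ∀ j, V j ∈ eigS ρ x c ∧ IsWt (ops ρ b) (l0 + D.E j) (V j)) :
    (∀ v, v ∈ eigS ρ x c) ∧ ∃ (e : Module.Basis (Fin 6) F4 W) (β : F4),
      (∀ j, IsWt (ops ρ b) (l0 + D.E j) (e j)) ∧ (∀ j, ∃ g, e j = ρ g (e 5)) ∧
      ∀ i k, i ≠ k → ∀ j, ρ (y i k) (e j) = e (swap i k j) + β • ∑ m, e m := by
  have hx : ∀ v, v ∈ eigS ρ x c := fun v => by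
    rw [← V.sum_repr v]; exact Submodule.sum_mem _ fun j _ => Submodule.smul_mem _ _ (hV j).1
  have hE : Function.Injective fun j => l0 + D.E j := fun i j e => hD.E_inj (add_left_cancel e)
  have P := @C.perm_wt _ _ _ _ _ _ _ _ ρ B D hD y Y c l0 h hx
  have f1 : ∀ i j k l : Fin 6, i ≠ 5 → j ≠ 5 → k ≠ 5 → l ≠ 5 → i ≠ j → k ≠ l →
      swap i j k = k → swap i j l = l → ρ (y i j) (ρ (y k l) (V 5)) = V 5 := by
    intro i j k l a1 a2 a3 a4 a5 a6 a7 a8
    have := P a5 a6 (hV 5).2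
    rw [swap_apply_of_ne_of_ne a3.symm a4.symm, swap_apply_of_ne_of_ne a1.symm a2.symm] at this
    obtain ⟨a, ha⟩ := wt_dim V hE (fun j => (hV j).2) this
    have e1 : y i j * y k l * (y i j * y k l) = 1 := by
      rw [← mul_assoc, Y.cj i j a5 k l a6, a7, a8, Y.sq k l a6]
    have e2 := rho_one ρ (V 5)
    rw [← e1, rho_mul, ha, map_smul, ha, smul_smul] at e2
    have e3 : a * a = 1 := smul_left_injective F4 (V.ne_zero 5) (e2.trans (one_smul _ _).symm)
    rw [← rho_mul, ha, show a = 1 by clear ha e2; revert a; decide, one_smul]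
  set u5 := ρ (y 0 1) (V 5) with hu5
  have f2 : ∀ i j : Fin 6, i ≠ 5 → j ≠ 5 → i ≠ j → ρ (y i j) u5 = V 5 := by
    intro i j a1 a2 a3
    rcases exists_disj i j a1 a2 a3 with ⟨a, b⟩ | ⟨p, q, h1, h2, h3, h4, h5, h6, h7⟩
    · exact f1 i j 0 1 a1 a2 (by decide) (by decide) a3 (by decide) a b
    · rw [hu5, ← f1 i j p q a1 a2 h1 h2 a3 h3 h4 h5]
      conv_rhs => rw [← f1 p q 0 1 h1 h2 (by decide) (by decide) h3 (by decide) h6 h7, Y.app h3]
      rw [f1 i j p q a1 a2 h1 h2 a3 h3 h4 h5]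
  have f3 : ∀ i j : Fin 6, i ≠ 5 → j ≠ 5 → i ≠ j → ρ (y i j) (V 5) = u5 := fun i j a1 a2 a3 => by
    rw [← f2 i j a1 a2 a3, Y.app a3]
  let e : Fin 6 → W := fun j => if j = 5 then V 5 else ρ (y j 5) u5
  let u : Fin 6 → W := fun j => if j = 5 then u5 else ρ (y j 5) (V 5)
  have e5 : e 5 = V 5 := if_pos rfl
  have u5' : u 5 = u5 := if_pos rfl
  have ej : ∀ j, j ≠ 5 → e j = ρ (y j 5) u5 := fun j a => if_neg a
  have uj : ∀ j, j ≠ 5 → u j = ρ (y j 5) (V 5) := fun j a => if_neg a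
  have A0 : ∀ i, i ≠ 5 → ∀ j, ρ (y i 5) (e j) = u (swap i 5 j) := fun i a j => by
    by_cases e1 : j = 5
    · rw [e1, e5, swap_apply_right, uj i a]
    by_cases e2 : j = i
    · rw [e2, ej i a, Y.app a, swap_apply_left, u5']
    · have := Y.cj j 5 e1 i 5 a
      rw [swap_apply_right, swap_apply_of_ne_of_ne (Ne.symm e2) a] at this
      rw [ej j e1, swap_apply_of_ne_of_ne e2 e1, uj j e1, ← f2 i j a e1 (Ne.symm e2), ← this,
        rho_mul, rho_mul, Y.app e1]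
  have A : ∀ i k, i ≠ k → ∀ j, ρ (y i k) (e j) = u (swap i k j) := fun i k a j => by
    by_cases e1 : k = 5
    · subst e1; exact A0 i a j
    by_cases e2 : i = 5
    · subst e2; rw [Y.sym _ _ a, swap_comm]; exact A0 k e1 j
    have e3 : swap i k 5 = 5 := swap_apply_of_ne_of_ne (Ne.symm e2) (Ne.symm e1)
    by_cases e4 : j = 5
    · rw [e4, e5, e3, u5', f3 i k e2 e1 a]
    · have := Y.cj i k a j 5 e4
      rw [e3] at this
      rw [ej j e4, uj _ (fun f => e4 ((swap i k).injective (f.trans e3.symm))), ← this, rho_mul, rho_mul,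
        f3 i k e2 e1 a]
  have A' : ∀ i k, i ≠ k → ∀ j, ρ (y i k) (u j) = e (swap i k j) := fun i k a j => by
    conv_lhs => rw [← swap_apply_self i k j, ← A i k a, Y.app a]
  have we : ∀ j, IsWt (ops ρ b) (l0 + D.E j) (e j) := fun j => by
    by_cases a : j = 5
    · rw [a, e5]; exact (hV 5).2
    · have := P a (show (0 : Fin 6) ≠ 1 by decide) (hV 5).2
      rwa [show swap (0 : Fin 6) 1 5 = 5 by decide, swap_apply_right, rho_mul, ← hu5, ← ej j a] at this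
  have ge : ∀ j, ∃ g, e j = ρ g (e 5) := fun j => by
    by_cases a : j = 5
    · exact ⟨1, by rw [a, rho_one]⟩
    · exact ⟨y j 5 * y 0 1, by rw [rho_mul, e5, ej j a]⟩
  have li := wt_li hE (fun j => by
    obtain ⟨g, hg⟩ := ge j
    rw [hg, e5]; simpa using V.ne_zero 5) we
  let E := basisOfLinearIndependentOfCardEqFinrank li (Module.finrank_eq_card_basis V).symm
  have hE' : ∀ j, E j = e j := fun j => by simp [E]
  have R : ∀ i j k l, i ≠ j → k ≠ l → ∀ v m, E.repr (ρ (y i j) (ρ (y k l) v)) (swap i j (swap k l m)) =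
      E.repr v m := by
    intro i j k l a1 a2 v m
    conv_lhs => rw [← E.sum_repr v]
    simp only [map_sum, map_smul, hE', A k l a2, A' i j a1]
    simp only [← hE', E.repr_self, Finsupp.coe_finsetSum, Finset.sum_apply, Finsupp.smul_apply,
      Finsupp.single_apply, EmbeddingLike.apply_eq_iff_eq]
    simp
  set β := E.repr u5 0
  have c1 : ∀ k, k ≠ 5 → E.repr u5 k = β := fun k a => by
    by_cases a0 : k = 0
    · rw [a0]
    obtain ⟨p, q, h1, h2, h3, h4⟩ : ∃ p q : Fin 6, p ≠ 5 ∧ q ≠ 5 ∧ p ≠ q ∧ swap p q 0 = 0 :=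
      ⟨1, 2, by decide⟩
    have := R 0 k p q (Ne.symm a0) h3 u5 0
    rwa [f2 p q h1 h2 h3, f3 0 k (by decide) a (Ne.symm a0), h4, swap_apply_left] at this
  obtain ⟨α, hα⟩ : ∃ α : F4, u5 = α • e 5 + β • ∑ m, e m := by
    refine ⟨E.repr u5 5 - β, E.repr.injective (Finsupp.ext fun k => ?_)⟩
    simp only [← hE', map_add, map_smul, map_sum, E.repr_self, Finsupp.add_apply, Finsupp.smul_apply,
      Finsupp.coe_finsetSum, Finset.sum_apply, Finsupp.single_apply]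
    by_cases a : k = 5
    · simp [a]
    · simp [Ne.symm a, c1 k a]
  have sw : ∀ i k, ∑ m, e (swap i k m) = ∑ m, e m := fun i k => Equiv.sum_comp (swap i k) e
  have sw' : ∀ i k, ∑ m, u (swap i k m) = ∑ m, u m := fun i k => Equiv.sum_comp (swap i k) u
  have U1 : ∀ j, u j = α • e j + β • ∑ m, e m := fun j => by
    by_cases a : j = 5
    · rw [a, u5', hα]
    · rw [uj j a, ← f2 0 1 (by decide) (by decide) (by decide), hα]
      simp only [map_add, map_smul, map_sum, A 0 1 (by decide), sw', A' j 5 a, sw]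
      rw [show swap (0 : Fin 6) 1 5 = 5 by decide, swap_apply_right]
  have six : ∀ v : W, 6 • v = 0 := fun v => by
    rw [← Nat.cast_smul_eq_nsmul F4, show ((6 : ℕ) : F4) = 0 by decide, zero_smul]
  have U2 : ∑ m, u m = α • ∑ m, e m := by
    simp only [U1, Finset.sum_add_distrib, ← Finset.smul_sum, Finset.sum_const, Finset.card_univ,
      Fintype.card_fin, six, smul_zero, add_zero]
  have hα1 : α = 1 := by
    have := A' 0 1 (by decide) 0
    rw [U1, map_add, map_smul, map_smul, map_sum] at this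
    simp only [A 0 1 (by decide), sw', U2, U1 (swap 0 1 0), smul_add, smul_smul] at this
    rw [add_assoc, ← add_smul, (by decide : ∀ a b : F4, a * b + b * a = 0), zero_smul,
      add_zero] at this
    have e3 : α * α = 1 := smul_left_injective F4 (li.ne_zero _) (this.trans (one_smul _ _).symm)
    clear this hα U1 U2; revert α; decide
  refine ⟨hx, E, β, fun j => hE' j ▸ we j, by simpa only [hE'] using ge, fun i k a j => ?_⟩
  simp only [hE', A i k a, U1, hα1, one_smul]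

/-- transport of a linear action along coordinates -/
def trp (ψ : W ≃ₗ[F4] V6) (ρ : L →* W ≃ₗ[F4] W) : L →* Perm V6 where
  toFun l := (ψ.symm.trans ((ρ l).trans ψ)).toEquiv
  map_one' := by ext1 v; simp
  map_mul' g k := by ext1 v; simp

theorem trp_apply (ψ : W ≃ₗ[F4] V6) (l : L) (v : W) : trp ψ ρ l (ψ v) = ψ (ρ l v) := by simp [trp]

theorem trp_eq {e : Module.Basis (Fin 6) F4 W} {g : Perm V6} (hg : g ∈ GU)
    (h : ∀ j, e.equivFun (ρ l (e j)) = g (Pi.single j 1)) : trp e.equivFun ρ l = g := by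
  obtain ⟨k, rfl⟩ := hg
  have : (e.equivFun.symm.trans ((ρ l).trans e.equivFun)) = k.1 := by
    refine LinearEquiv.toLinearMap_injective ((Pi.basisFun F4 (Fin 6)).ext fun j => ?_)
    have : e.equivFun.symm (Pi.single j 1) = e j := by simp [Pi.single_apply]
    simp only [Pi.basisFun_apply, LinearEquiv.coe_coe, LinearEquiv.trans_apply, this, h]; rfl
  exact congrArg LinearEquiv.toEquiv this

theorem not_mon : ∀ c, (T * dg (bt 0) * T * dg (bt 0)) (Pi.single 0 1) ≠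
    (dg (bt 0) * (T * dg (bt 0) * T) * sc c) (Pi.single 0 1) := by
  simp only [Perm.mul_apply, T_apply]; decide +kernel

/-- **Uniqueness**: a faithful unitary representation of dimension at most six has image in `K0`. -/
theorem Cv.unique [FiniteDimensional F4 W] (C : Cv π x) (hρ : Function.Injective ρ)
    (h6' : Module.finrank F4 W ≤ 6) {h : Herm F4 W} (hh : ND h) (hi : ∀ l u v, h (ρ l u) (ρ l v) = h u v) :
    ∃ ψ : W ≃ₗ[F4] V6, (∀ u v, h6 (ψ u) (ψ v) = h u v) ∧ (∀ l, trp ψ ρ l ∈ K0) ∧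
      ∃ c, trp ψ ρ x = sc c := by
  obtain ⟨b, B⟩ := C.exists_bs
  obtain ⟨c, D, hD, l0, hl⟩ : ∃ c, ∃ D : Dat, D.OK ∧ ∃ l0, ∀ l,
      l ∈ wts (ops ρ b) (eigS ρ x c) ↔ ∃ j, l = l0 + D.E j := by
    by_contra hc
    obtain ⟨g, hg⟩ := C.ne_one B
    have h1 : ∀ c, ∀ v ∈ eigS ρ x c, ρ (g⁻¹ * b 0 * g * (b 0)⁻¹) v = v := fun c =>
      (C.dich B c h6').resolve_right (fun h => hc ⟨c, h⟩) g
    refine hg (hρ (LinearEquiv.ext fun v => ?_))
    have x3 : ∀ v, (ρ x : W →ₗ[F4] W) ((ρ x : W →ₗ[F4] W) ((ρ x : W →ₗ[F4] W) v)) = v := fun v => by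
      have := rho_one ρ v
      rwa [← C.x3, pow_succ, pow_two, rho_mul, rho_mul] at this
    rw [rho_one, ← prj_sum (ρ x : W →ₗ[F4] W) v, map_add, map_add, h1 0 _ (prj_eig x3 0 v),
      h1 1 _ (prj_eig x3 1 v), h1 2 _ (prj_eig x3 2 v)]
  obtain ⟨-, V, hV⟩ := exists_wt_basis h6' hD hl
  obtain ⟨y, Y⟩ := C.exists_ys hD
  obtain ⟨hx, e, β, we, ge, ye⟩ := C.exists_mon B hD Y hl V hV
  have o1 : ∀ j k, j ≠ k → h (e j) (e k) = 0 := fun j k a => by
    obtain ⟨i, hi'⟩ := Function.ne_iff.1 (fun f => a (hD.E_inj (add_left_cancel f)) :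
      l0 + D.E j ≠ l0 + D.E k)
    have := hi (b i) (e j) (e k)
    rw [show ρ (b i) (e j) = _ from we j i, show ρ (b i) (e k) = _ from we k i, h_smul_left,
      h_smul_right] at this
    revert this hi'
    generalize (l0 + D.E j) i = p; generalize (l0 + D.E k) i = q; generalize h (e j) (e k) = r
    revert p q r; decide
  have o2 : ∀ j, h (e j) (e j) = 1 := fun j => by
    obtain ⟨g, hg⟩ := ge j
    rw [hg, hi]
    refine f4_real hK (h_star _ _) fun f => e.ne_zero 5 (hh _ fun v => ?_)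
    rw [← e.sum_repr v, h_eq_zero_comm]
    change h.lin (e 5) _ = 0
    rw [map_sum]
    refine Finset.sum_eq_zero fun k _ => ?_
    by_cases a : k = 5 <;> simp [a, f, o1]
  have o3 : ∀ u v, h6 (e.equivFun u) (e.equivFun v) = h u v := fun u v => by
    conv_rhs => rw [← e.sum_repr u]
    change _ = h.lin v _
    rw [map_sum, std_apply]
    refine Finset.sum_congr rfl fun j _ => ?_
    rw [map_smul, Herm.lin_apply, ← h_star]
    conv_rhs => rw [← e.sum_repr v]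
    change _ = _ • star (h.lin (e j) _)
    rw [map_sum, Finset.sum_eq_single j (fun k _ a => by simp [o1 k j a]) (by simp)]
    simp [o2]
  have ψe : ∀ j, e.equivFun (e j) = Pi.single j 1 := fun j => by
    funext k; simp [Pi.single_apply, eq_comm]
  have ψs : e.equivFun (∑ m, e m) = 1 := by
    rw [map_sum]; simp only [ψe]; decide
  have dgl : ∀ l (a : X6), ∑ j, a j = 0 → Lf π l (dg a) → ∃ a' : X6, ∑ j, a' j = 0 ∧
      ∀ j, ρ l (e j) = om (a' j) • e j := fun l a ha hl' => by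
    obtain ⟨n, hn⟩ := C.diag (ρ := ρ) B ha hl'
    refine ⟨_, ?_, fun j => hn c _ _ (hx _) (we j)⟩
    simp only [add_dotProduct, Finset.sum_add_distrib]
    rw [← sum_dotProduct _ D.E, hD.sum, zero_dotProduct]
    simp only [Finset.sum_const, Finset.card_univ, Fintype.card_fin, add_zero]
    exact (by decide : ∀ a b : ZMod 3, 6 • a + 6 • b = 0) _ _
  have hβ : β = 1 := by
    have h1 := hi (y 0 1) (e 0) (e 0)
    rw [ye 0 1 (by decide), ← o3, map_add, map_smul, ψe, ψs, o2] at h1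
    refine ((by decide : ∀ β : F4, h6 (Pi.single (swap (0 : Fin 6) 1 0) 1 + β • (1 : V6))
      (Pi.single (swap (0 : Fin 6) 1 0) 1 + β • (1 : V6)) = 1 → β = 0 ∨ β = 1) β h1).resolve_left ?_
    rintro rfl
    simp only [zero_smul, add_zero] at ye
    obtain ⟨l1, hl1⟩ := C.lift (dg_K0 (sum_comp_perm (sum_bt 0) (D.s 0 1)))
    obtain ⟨a1, -, e1⟩ := dgl _ _ (sum_comp_perm (sum_bt 0) _) hl1
    obtain ⟨a2, -, e2⟩ := dgl _ _ (sum_bt 0) (B.lf 0)
    have yi : (y 0 1)⁻¹ = y 0 1 := inv_eq_of_mul_eq_one_right (Y.sq 0 1 (by decide))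
    have h2 : y 0 1 * l1 * (y 0 1)⁻¹ * b 0 = b 0 * (y 0 1 * l1 * (y 0 1)⁻¹) := by
      refine hρ (LinearEquiv.toLinearMap_injective (e.ext fun j => ?_))
      simp only [LinearEquiv.coe_coe, yi, rho_mul, e2, map_smul, ye 0 1 (by decide), e1, swap_apply_self]
      rw [smul_comm]
    have h3 := ((Y.lf 0 1 (by decide)).mul hl1).mul (Y.lf 0 1 (by decide)).inv
    rw [← pm_dg, show T * pm (D.s 0 1) * ((pm (D.s 0 1))⁻¹ * dg (bt 0) * pm (D.s 0 1)) *
      (T * pm (D.s 0 1))⁻¹ = T * dg (bt 0) * T by rw [mul_inv_rev, T_inv]; group] at h3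
    obtain ⟨c, hc⟩ := ((B.lf 0).mul h3).sc_of (h2 ▸ h3.mul (B.lf 0))
    exact not_mon c (by rw [hc])
  subst hβ
  have m1 : ∀ l (a : X6), ∑ j, a j = 0 → Lf π l (dg a) → trp e.equivFun ρ l ∈ K0 := fun l a ha hl' => by
    obtain ⟨a', h1, h2⟩ := dgl l a ha hl'
    rw [trp_eq (dg_GU a') fun j => ?_]
    · exact dg_K0 h1
    · rw [h2, map_smul, ψe]
      funext k
      by_cases f : k = j <;> simp [dg_apply, f]
  have m2 : ∀ i j, i ≠ j → trp e.equivFun ρ (y i j) ∈ K0 := fun i j a => by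
    rw [trp_eq (mul_mem T_GU (pm_GU (swap i j))) fun k => ?_]
    · exact Tpm_K0 (Perm.sign_swap a)
    · rw [ye i j a, map_add, map_smul, ψe, ψs, Perm.mul_apply, pm_single, T_apply]
      generalize swap i j k = m; revert m; decide
  refine ⟨e.equivFun, o3, fun l => ?_, c, trp_eq (sc_GU c) fun j => ?_⟩
  · let L0 := K0.comap (trp e.equivFun ρ)
    have h1 : ∀ {l k}, l ∈ L0 → Lf π l k → k ∈ ((L0.map π).comap phi).map K0.subtype :=
      fun {l k} a b => ⟨⟨k, b.1⟩, ⟨l, a, b.2⟩, rfl⟩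
    have h2 : K0 ≤ ((L0.map π).comap phi).map K0.subtype := by
      refine K0_le_of (fun a ha => ?_) fun i j a => ?_
      · obtain ⟨l, hl⟩ := C.lift (dg_K0 ha)
        exact h1 (m1 l a ha hl) hl
      · obtain ⟨n1, n2, n3⟩ := hD.ne i j a
        have := h1 (mul_mem (mul_mem (m2 _ _ n1) (m2 _ _ n2)) (m2 _ _ n3))
          (((Y.lf _ _ n1).mul (Y.lf _ _ n2)).mul (Y.lf _ _ n3))
        rwa [Tpm_mul, ← mul_assoc, pm_T, mul_assoc T, ← map_mul, ← hD.gen i j a] at this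
    obtain ⟨k, hk⟩ := Cv.ex (π := π) l
    obtain ⟨k', ⟨l', h3, h4⟩, rfl⟩ := h2 hk.1
    obtain ⟨z, hz, rfl⟩ := C.eq (l := l') ⟨k'.2, h4⟩ hk
    exact mul_mem h3 ((zpowers_le (H := L0)).2 (m1 x 0 (by simp) (dg_zero ▸ C.lfx)) hz)
  · rw [show ρ x (e j) = _ from hx (e j), map_smul, ψe, sc_apply]

end main

end CA.F24
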