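/-
Groups of large Fischer type: the normaliser of the subgroup `V = 2³` over the line through `s0`.
-/
import Cfsg.Agent.Lib.F24.Sec
import Cfsg.Agent.Lib.Extra2.Affine

set_option autoImplicit false
set_option linter.unusedSectionVars false
set_option linter.unusedVariables false

namespace CA.F24

open Cfsg Equiv Subgroup CA CA.Fi CA.Unit CA.Fi.F4 CA.Ex2 CA.Core

/-- the line through `s0` -/
def InL (v : V6) : Prop := ∃ a : F4, v = a • s0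

theorem InL.h {u v : V6} (hu : InL u) (hv : InL v) : h6 u v = 0 := by
  obtain ⟨a, rfl⟩ := hu
  obtain ⟨b, rfl⟩ := hv
  rw [h_smul_left, h_smul_right, iso_s0.1, mul_zero, mul_zero]

theorem InL.S {v : V6} (hv : InL v) (h0 : v ≠ 0) : Iso v ∧ ¬ Rt v := by
  obtain ⟨a, rfl⟩ := hv
  revert a; decide

theorem fix_E5 {k : Perm V6} (hk : k ∈ E5) (h : ∀ v, h6 v s0 = 0 → k v = v) : k = 1 := by
  obtain ⟨n, hn, r⟩ := E5_cases hk
  have : allN (fun n => fc (bp gE n) fun M => orr (Nat.beq M idM)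
    (exL (fun c => neg (Nat.beq (app M c) c)) [17, 10, 256])) 32 = true := by decide +kernel
  have := allN_iff.1 this n hn
  simp only [fc_eq, orr_iff, beq_iff, exL_iff, neg_iff] at this
  rcases this with e | ⟨a, ha, e⟩
  · exact (e ▸ r).eq rep_one
  · have e1 : ∀ a ∈ [17, 10, 256], a < 4096 ∧ h6 (dec a) s0 = 0 := by decide
    exact absurd (dec_inj (app_lt _ _) (e1 a ha).1 ((r.app a).symm.trans (h _ (e1 a ha).2))) e

theorem exists_E5 : ∃ k ∈ E5, ∃ v, h6 v s0 = 0 ∧ k v + v = w • s0 := by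
  refine ⟨Fs 0 * Fs 1, mul_mem (Fs_E5 0) (Fs_E5 1), dec 10, by decide, ?_⟩
  rw [((rep_Fs 0).mul (rep_Fs 1)).app, show app (mm (FM 0) (FM 1)) 10 = 160 by decide +kernel]
  decide

theorem s0_inv {S : Set V6} (h1 : ∀ u ∈ S, ∀ v ∈ S, h6 (u + v) (u + v) = 0) (h0 : ∀ a : F4, a • s0 ∈ S)
    (h3 : ∀ k ∈ K0, InL (k s0) → ∀ v ∈ S, k v ∈ S) : ∀ v ∈ S, InL v := by
  let L := [mm WM (mm (trM 5) (trM 17)), mm WM (mm (trM 5) (trM 1467)), mm WM (mm (trM 5) (trM 1536))]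
  have e2 : ∀ M ∈ L, ∃ k ∈ K0, InL (k s0) ∧ Rep k M := by
    have : ∀ r, Rt (dec r) → app (mm WM (mm (trM 5) (trM r))) 85 = 170 →
        ∃ k ∈ K0, InL (k s0) ∧ Rep k (mm WM (mm (trM 5) (trM r))) := fun r hr e => by
      have a : Rt (dec 5) := by decide
      have b := rep_W.mul ((rep_trM a.iso.1).mul (rep_trM hr.iso.1))
      exact ⟨_, mul_mem (sc_K0 1) (a.mem0 hr), ⟨w, by rw [← dec_s0, b.app, e]; decide⟩, b⟩
    simp only [L, List.forall_mem_cons, List.not_mem_nil, false_imp_iff, implies_true, and_true]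
    exact ⟨this _ (by decide) (by decide +kernel), this _ (by decide) (by decide +kernel),
      this _ (by decide) (by decide +kernel)⟩
  let L' := [0xc008003002000c008000c008003002030020, 0x3692d7c698d7a1753e58ef49ad45bc5b2f61,
    0x1003008004000c008003002000300200c008]
  have e1 : L = L' := by decide +kernel
  have : allV (fun c => orr (tb QB c) (orr (tb QB (Nat.xor c 85)) (orr (tb QB (Nat.xor c 170))
    (orr (exL (Nat.beq c) [0, 85, 170, 255]) (exL (fun M => tb QB (Nat.xor c (app M c))) L'))))) = true := by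
    decide +kernel
  intro v hv
  obtain ⟨c, hc, rfl⟩ := exists_dec v
  have := allV_iff.1 this c hc
  simp only [orr_iff, exL_iff, xor_eq, beq_iff] at this
  rw [tb_QB' hc, tb_QB' (xor_lt hc (by norm_num)), tb_QB' (xor_lt hc (by norm_num)), dec_xor, dec_xor] at this
  rcases this with e | e | e | ⟨a, ha, rfl⟩ | ⟨M, hM, e⟩
  · exact absurd (by simpa using h1 _ hv _ (h0 0)) e
  · exact absurd (h1 _ hv _ ((by decide : (1 : F4) • s0 = dec 85) ▸ h0 1)) e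
  · exact absurd (h1 _ hv _ ((by decide : w • s0 = dec 170) ▸ h0 w)) e
  · exact (by decide : ∀ a ∈ [0, 85, 170, 255], ∃ b : F4, dec a = b • s0) _ ha
  · obtain ⟨k, hk, f, r⟩ := e2 M (e1 ▸ hM)
    rw [tb_QB' (xor_lt hc (app_lt _ _)), dec_xor, ← r.app] at e
    exact absurd (h1 _ hv _ (h3 k hk f _ hv)) e

theorem phS_K0 : pmap phS (K0 ⊓ St s0) = alternatingGroup (Fin 6) :=
  le_antisymm (phS_Hs ▸ pmap_mono _ (inf_le_inf_right _ K0_Hs)) (A6_le_phS.trans (pmap_mono _ inf_le_left))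

variable {G : Type*} [Group G]

theorem exists_ext {A : Type*} [Group A] {N C L D : Subgroup G} (θ : D →* A) (hC : C ≤ D) (hN : N ≤ 𝐍(C))
    (hs : ∀ n ∈ N, ∃ l ∈ L, ∃ y ∈ C, n = l * y) (hL : ⁅L, C⁆ ≤ pker θ)
    (hz : ∀ a ∈ pmap θ C, (∀ b ∈ pmap θ C, a * b = b * a) → a = 1) :
    ∃ β : N →* pmap θ C, (∀ y : N, y.1 ∈ C → (β y : A) = pel θ y) ∧ ∀ l : N, l.1 ∈ L → β l = 1 := by
  have k1 : ∀ l ∈ L, ∀ y ∈ C, pel θ (l * y * l⁻¹) = pel θ y := fun l hl y hy => by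
    have := mem_pker.1 (hL (comm_mem hl hy))
    rw [← inv_mul_cancel_right (l * y * l⁻¹) y, pel_mul _ this.1 (hC hy), this.2, one_mul]
  let P : G → pmap θ C → Prop := fun n a => ∀ y ∈ C, pel θ (n * y * n⁻¹) = a * pel θ y * (a : A)⁻¹
  have uq : ∀ n a b, P n a → P n b → a = b := fun n a b ha hb => by
    refine Subtype.ext (inv_mul_eq_one.1 (hz _ (mul_mem (inv_mem a.2) b.2) fun d hd => ?_))
    obtain ⟨y, hy, rfl⟩ := (mem_pmap_of_le hC).1 hd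
    have := (ha y hy).symm.trans (hb y hy)
    calc _ = (a : A)⁻¹ * (b * pel θ y * (b : A)⁻¹) * b := by group
      _ = _ := by rw [← this]; group
  have pc : ∀ y (hy : y ∈ C), P y ⟨_, pel_mem_pmap θ hy⟩ := fun y hy u hu => pel_conj _ (hC hy) (hC hu)
  have ex : ∀ n : N, ∃ a, P n a := fun n => by
    obtain ⟨l, hl, y, hy, e⟩ := hs n n.2
    refine ⟨⟨_, pel_mem_pmap θ hy⟩, fun u hu => ?_⟩
    rw [e, ← pc y hy u hu, ← k1 l hl _ (mul_mem (mul_mem hy hu) (inv_mem hy))]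
    congr 1; group
  choose f hf using ex
  refine ⟨MonoidHom.mk' f fun a b => uq _ _ _ (hf _) fun u hu => ?_,
    fun y hy => congrArg _ (uq _ _ _ (hf y) (pc y hy)),
    fun l hl => uq _ _ _ (hf l) fun u hu => by simpa using k1 l hl u hu⟩
  have := hf a _ (conj_mem_of_mem_normalizer (hN b.2) hu)
  rw [hf b u hu] at this
  simpa only [coe_mul, mul_inv_rev, mul_assoc] using this

variable [Finite G] {Q X : Subgroup G} {z : G} {π : ↥𝐂[z] →* Perm V6} {c : G → V6}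
variable {u v y g r : G}

namespace FT
variable (h : FT Q z π c)

/-- the elementary abelian subgroup of order 8 -/
def V8 : Subgroup G where
  carrier := {q | q ∈ Q ∧ InL (c q)}
  one_mem' := ⟨one_mem _, 0, by rw [h.c_one, zero_smul]⟩
  mul_mem' := by
    rintro a b ⟨ha, u, hu⟩ ⟨hb, v, hv⟩
    exact ⟨mul_mem ha hb, u + v, by rw [h.mul ha hb, hu, hv, add_smul]⟩
  inv_mem' := fun ha => ⟨inv_mem ha.1, by rw [h.c_inv ha.1]; exact ha.2⟩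

theorem V8_le : h.V8 ≤ Q := fun _ h => h.1
theorem z_V8 : z ∈ h.V8 := ⟨h.ez.mem, 0, by rw [h.c_z, zero_smul]⟩
theorem V8_sq (hu : u ∈ h.V8) : u * u = 1 := (h.sq hu.1).2 (hu.2.h hu.2)
theorem V8_ea : IsElementaryAbelian 2 h.V8 :=
  ⟨abelian_of_sq fun _ => h.V8_sq, fun u hu => (pow_two u).trans (h.V8_sq hu)⟩
theorem V8_ne (hu : u ∈ h.V8) (h1 : u ≠ 1) (e : u ≠ z) : c u ≠ 0 := fun f =>
  not_mem_zp2 h.zz h1 e ((h.zero hu.1).1 f)
theorem V8_conj (hu : u ∈ h.V8) (h1 : u ≠ 1) : IsConj z u := by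
  by_cases e : u = z
  · exact e ▸ IsConj.refl _
  · exact h.conj_of_S hu.1 (hu.2.S (h.V8_ne hu h1 e))
theorem norm_V8 (hy : y ∈ 𝐂[z]) (h1 : pel π y ∈ K0) (h2 : InL (pel π y s0)) : y ∈ 𝐍(h.V8) :=
  mem_normalizer_fintype fun u hu => ⟨h.conj_mem hy hu.1, by
    obtain ⟨a, ha⟩ := hu.2
    obtain ⟨b, hb⟩ := h2
    exact ⟨a * b, by rw [h.equi hy hu.1, ha, GU.smul (K0_GU h1), hb, smul_smul]⟩⟩

theorem V8_le_cj (hg : g * z * g⁻¹ ∈ Q) (e : c (g * z * g⁻¹) = s0) : h.V8 ≤ cj g Q := by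
  have hT := h.tri_s0 hg e
  obtain ⟨k, hk, v, h1, h2⟩ := exists_E5
  obtain ⟨p, hp, rfl⟩ := (mem_pmap_of_le inf_le_right).1 ((h.main_s0 hg e).2.1.ge hk)
  obtain ⟨q, hq, rfl⟩ := h.sur v
  have a1 : q ∈ 𝐂[g * z * g⁻¹] := mem_cent1_iff.2 ((h.comm hq hg).2 (bv_eq_zero.2 (by rw [e, h1, t2_zero])))
  rw [mem_inf] at hp
  have a2 : p * q * p⁻¹ * q⁻¹ ∈ Q ⊓ cj g Q := mem_inf.2 ⟨mul_mem (h.conj_mem hp.2 hq) (inv_mem hq), by
    simpa only [mul_assoc] using mul_mem hp.1 (conj_mem_of_mem_normalizer (hT.r.le_norm a1) (inv_mem hp.1))⟩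
  rw [← h.equi hp.2 hq, ← h.c_inv hq, ← h.mul (h.conj_mem hp.2 hq) (inv_mem hq)] at h2
  have a3 : ∀ a : F4, ∃ t ∈ Q ⊓ cj g Q, c t = a • s0 := fun a => by
    rcases (by decide : ∀ a : F4, a = 0 ∨ a = 1 ∨ a = w ∨ a = 1 + w) a with rfl | rfl | rfl | rfl
    · exact ⟨1, one_mem _, by rw [h.c_one, zero_smul]⟩
    · exact ⟨_, ⟨hg, hT.r.ez.mem⟩, by rw [e, one_smul]⟩
    · exact ⟨_, a2, h2⟩
    · exact ⟨_, mul_mem ⟨hg, hT.r.ez.mem⟩ a2, by rw [h.mul hg a2.1, e, h2, add_smul, one_smul]⟩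
  rintro u ⟨hu, a, ha⟩
  obtain ⟨t, ht, f⟩ := a3 a
  rcases (h.c_eq_iff ht.1 hu).1 (f.trans ha.symm) with rfl | rfl
  · exact ht.2
  · exact mul_mem ht.2 hT.mem'

theorem sing (hQ : oP 2 𝐂[z] = Q) : Sing h.V8 := by
  refine ⟨fun _ => h.V8_sq, fun u hu h1 => ?_, fun u hu h1 => ?_⟩
  · obtain ⟨g, rfl⟩ := isConj_iff.1 (h.V8_conj hu h1)
    rw [← LQ.cj_oP_cent, hQ]; exact h.lq.cj g
  by_cases e : u = z
  · rw [e, hQ]; exact h.V8_le
  obtain ⟨g, hg, f⟩ := h.exists_g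
  obtain ⟨a, ha⟩ := hu.2
  have a0 : a ≠ 0 := fun f => h.V8_ne hu h1 e (by rw [ha, f, zero_smul])
  obtain ⟨y, hy, e1, rfl⟩ := h.conj_of hg hu.1 (f ▸ iso_s0.2) (h.k0 (sc_K0 (lg a)))
    (by rw [sc_apply, om_lg _ a0, f, ha])
  rw [← LQ.cj_oP_cent, ← LQ.cj_oP_cent, hQ,
    ← cj_eq_of_mem_normalizer (h.norm_V8 hy (e1 ▸ sc_K0 _) ⟨_, e1 ▸ sc_apply _ _⟩)]
  exact cj_mono _ (h.V8_le_cj hg f)

theorem card_V8 : Nat.card h.V8 = 8 := by
  obtain ⟨x, σ, H⟩ := h.exists_fs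
  have : Function.Bijective fun p : F4 × ZMod 2 => (⟨σ (p.1 • s0) * ze z p.2, mul_mem (H.mem _) (h.ze_Q _), p.1,
      by rw [h.c_ze (H.mem _), H.c_s]⟩ : h.V8) := ⟨fun p q e => by
    obtain ⟨e1, e2⟩ := H.s_inj (congrArg Subtype.val e)
    exact Prod.ext (smul_left_injective F4 iso_s0.2 e1) e2, fun u => by
    obtain ⟨f, e⟩ := H.exists_s u.2.1
    obtain ⟨a, ha⟩ := u.2.2
    exact ⟨(a, f), Subtype.ext (by rw [ha] at e; exact e.symm)⟩⟩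
  rw [← Nat.card_eq_of_bijective _ this]; simp [F4.card]

theorem C8_le : 𝐂(h.V8) ≤ 𝐂[z] := cent_le_cent1 h.z_V8

theorem pmap_C8 : pmap π 𝐂(h.V8) = K0 ⊓ St s0 := by
  obtain ⟨x, σ, H⟩ := h.exists_fs
  ext k
  rw [mem_pmap_of_le h.C8_le]
  constructor
  · rintro ⟨y, hy, rfl⟩
    have : ∀ a : F4, pel π y (a • s0) = a • s0 := fun a => by
      rw [← H.c_s (a • s0), ← h.equi (h.C8_le hy) (H.mem _), conj_eq_of_mem_cent hy ⟨H.mem _, a, H.c_s _⟩]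
    have e := this 1
    rw [one_smul] at e
    refine ⟨by_contra fun f => ?_, e⟩
    have := (this w).symm.trans (Hs_smul (h.pel_Hs y) f w s0)
    rw [e] at this; revert this; decide
  · rintro ⟨h1, h2⟩
    obtain ⟨n, hn, rfl⟩ := H.lift0 h1
    refine ⟨n, mem_cent_iff'.2 fun u hu => ?_, rfl⟩
    obtain ⟨f, e⟩ := H.exists_s hu.1
    obtain ⟨a, ha⟩ := hu.2
    have := H.conj_c hn (a • s0)
    rw [GU.smul (K0_GU h1), mem_St.1 h2, mul_inv_eq_iff_eq_mul] at this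
    rw [e, ha, ← mul_assoc, this, mul_assoc, mul_assoc, ze_comm hn.1]

theorem C8_dom : 𝐂(h.V8) ≤ pcomap π (Nrm Fs) := (le_pcomap_iff h.C8_le).2 (h.pmap_C8 ▸ stab0_le)
theorem pmap_th : pmap (pcomp phS π) 𝐂(h.V8) = alternatingGroup (Fin 6) := by
  rw [pmap_pcomp, h.pmap_C8, phS_K0]
theorem card_QC8 : Nat.card ↥(Q ⊓ 𝐂(h.V8)) = 2 ^ 11 := by
  have := h.ez.card_mul_card_cent h.z_V8 h.V8_le
  rw [h.card_V8, h.card] at this
  omega
theorem card_ker8 : Nat.card ↥(pker (pcomp phS π) ⊓ 𝐂(h.V8)) = 2 ^ 15 := by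
  have a1 := card_pmap_mul (pcomp phS π) h.C8_dom
  have a2 := card_pmap_mul π h.C8_le
  rw [h.pmap_th, card_A6] at a1
  rw [h.ker, h.card_QC8, h.pmap_C8, card_K0_s0] at a2
  omega
theorem oP_C8 : oP 2 𝐂(h.V8) = pker (pcomp phS π) ⊓ 𝐂(h.V8) :=
  le_antisymm (le_inf ((pmap_eq_bot_iff ((oP_le _ _).trans h.C8_dom)).1 (pgroup_eq_bot
    (pgroup_pmap (oP_isPGroup _ _) _) (h.pmap_th ▸ ((oP_normalIn _ _).pmap _).2))) (oP_le _ _))
    (le_oP ((pker_normalIn _).inf_right h.C8_dom) (IsPGroup.of_card h.card_ker8))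
theorem pel_E5 (hr : r ∈ oP 2 𝐂(h.V8)) : pel π r ∈ E5 := by
  rw [h.oP_C8, pker_pcomp] at hr
  have := h.pmap_C8.le (pel_mem_pmap π hr.2)
  exact ⟨(mem_pcomap.1 hr.1).2, K0_Hs this.1, this.2⟩
theorem QC8_le : Q ⊓ 𝐂(h.V8) ≤ oP 2 𝐂(h.V8) :=
  le_oP (h.lq.normalIn.inf_right h.C8_le) (h.ez.pg.to_le inf_le_left)

theorem center8 : 𝐙(oP 2 𝐂(h.V8)) = h.V8 := by
  refine le_antisymm (fun r hr => ?_) (le_inf ((le_inf h.V8_le (abelian_iff.1 h.V8_ea.1)).trans h.QC8_le)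
    (cents_symm (oP_le _ _)))
  have a1 := h.C8_le (oP_le _ _ hr.1)
  have a2 := cent_mono h.QC8_le hr.2
  refine (h.ez.cent_cent h.z_V8 h.V8_le).le ⟨h.mem_of_pel a1 (fix_E5 (h.pel_E5 hr.1) fun v hv => ?_), a2⟩
  obtain ⟨q, hq, rfl⟩ := h.sur v
  rw [← h.equi a1 hq, conj_eq_of_mem_cent a2 ⟨hq, mem_cent_iff'.2 fun u hu => ?_⟩]
  obtain ⟨a, ha⟩ := hu.2
  exact (h.comm hq hu.1).2 (bv_eq_zero.2 (by rw [ha, h_smul_right, hv, mul_zero, t2_zero]))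

variable (hQ : oP 2 𝐂[z] = Q)
include hQ

theorem trans8 (hu : u ∈ h.V8) (hv : v ∈ h.V8) (h1 : u ≠ 1) (h2 : v ≠ 1) : ∃ n ∈ 𝐍(h.V8), n * u * n⁻¹ = v := by
  obtain ⟨n, hn, e⟩ := (h.sing hQ).exists_move bot_le hu hv (mt mem_bot.1 h1) (mt mem_bot.1 h2)
  exact ⟨n, (h.sing hQ).iSup_le_norm hn.1, e⟩

theorem V8_le_of (hX : 𝐍(h.V8) ≤ 𝐍(X)) (hu : u ∈ h.V8) (h1 : u ≠ 1) (h2 : u ∈ X) : h.V8 ≤ X := fun v hv => by
  by_cases e : v = 1
  · exact e ▸ one_mem _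
  obtain ⟨n, hn, rfl⟩ := h.trans8 hQ hu hv h1 e
  exact conj_mem_of_mem_normalizer (hX hn) h2

theorem oP_N8 : oP 2 𝐍(h.V8) = oP 2 𝐂(h.V8) := by
  refine le_antisymm ?_ (oP_le_oP_of_normalIn (cent_normalIn_normalizer _))
  obtain ⟨u, hu, h1⟩ := exists_ne_one_mem' (inf_cent_ne_bot (oP_isPGroup 2 𝐍(h.V8))
    (IsPGroup.of_card (n := 3) h.card_V8) (oP_le _ _) (ne_bot_of_mem h.z_V8 h.ez.ne_one))
  have := cents_symm (h.V8_le_of hQ (norms_cent (oP_normalIn _ _).2) hu.1 h1 hu.2)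
  exact le_oP ⟨this, (centralizer_le_normalizer _).trans (oP_normalIn _ _).2⟩ (oP_isPGroup _ _)

theorem mem_V8_of (hr : ∀ n ∈ 𝐍(h.V8), n * r * n⁻¹ ∈ Q) : r ∈ h.V8 := by
  obtain ⟨s, hs, e⟩ := h.sur s0
  obtain ⟨g, hg, rfl⟩ := h.trans8 hQ h.z_V8 (v := s) ⟨hs, 1, by rw [e, one_smul]⟩ h.ez.ne_one fun f =>
    iso_s0.2 (by rw [← e, f, h.c_one])
  have a1 : ∀ r, (∀ n ∈ 𝐍(h.V8), n * r * n⁻¹ ∈ Q) → r ∈ Q ⊓ cj g Q := fun r hr =>
    ⟨by simpa using hr 1 (one_mem _), mem_cj.2 (by simpa using hr _ (inv_mem hg))⟩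
  refine ⟨(a1 r hr).1, s0_inv (S := c '' {r | ∀ n ∈ 𝐍(h.V8), n * r * n⁻¹ ∈ Q}) ?_ (fun a => ?_) ?_ _ ⟨r, hr, rfl⟩⟩
  · rintro _ ⟨u, hu, rfl⟩ _ ⟨v, hv, rfl⟩
    rw [← h.mul (a1 u hu).1 (a1 v hv).1, ← h.sq (mul_mem (a1 u hu).1 (a1 v hv).1), ← pow_two]
    exact (h.tri_s0 hs e).elemAb_E.2 _ (mul_mem (a1 u hu) (a1 v hv))
  · obtain ⟨q, hq, f⟩ := h.sur (a • s0)
    exact ⟨q, fun n hn => h.V8_le (conj_mem_of_mem_normalizer hn ⟨hq, a, f⟩), f⟩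
  · rintro k hk f _ ⟨u, hu, rfl⟩
    obtain ⟨y, hy, rfl⟩ := h.lift (K0_Hs hk)
    exact ⟨y * u * y⁻¹, fun n hn => by
      simpa only [mul_assoc, mul_inv_rev] using hu _ (mul_mem hn (h.norm_V8 hy hk f)), h.equi hy (a1 u hu).1⟩

theorem sq8 (hr : r ∈ oP 2 𝐂(h.V8)) : r * r ∈ h.V8 := h.mem_V8_of hQ fun n hn => by
  have a1 := conj_mem_of_mem_normalizer (norm_le_norm_oP 2 _ (norms_cent le_rfl hn)) hr
  have a2 := h.C8_le (oP_le _ _ a1)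
  have := h.mem_of_pel (mul_mem a2 a2) (by rw [pel_mul _ a2 a2, E5_sq (h.pel_E5 a1)])
  simpa only [mul_assoc, inv_mul_cancel_left] using this

theorem der8 : ⁅oP 2 𝐂(h.V8), oP 2 𝐂(h.V8)⁆ = h.V8 := by
  refine le_antisymm (commutator_le.2 fun a ha b hb => ?_) (h.V8_le_of hQ
    (norms_der ((norms_cent le_rfl).trans (norm_le_norm_oP 2 _))) h.z_V8 h.ez.ne_one
    (der_mono h.QC8_le (h.ez.mem_of_not_abelian inf_le_left fun e => ?_)))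
  · have := mul_mem (mul_mem (h.sq8 hQ ha) (h.sq8 hQ (mul_mem (inv_mem ha) hb))) (h.sq8 hQ (inv_mem hb))
    simpa only [commutatorElement_def, mul_assoc, mul_inv_cancel_left] using this
  · have := card_le_of_ab h.ez (mem_inf.2 ⟨h.ez.mem, cent_mono h.V8_le h.ez.memC⟩) inf_le_left e h.card
    rw [h.card_QC8] at this
    omega

theorem special8 : Special 2 (oP 2 𝐂(h.V8)) := by
  refine ⟨oP_isPGroup _ _, ?_, (h.der8 hQ).trans h.center8.symm⟩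
  rw [h.center8]
  exact le_antisymm (phi_le_of_der_of_pow (p := 2) (h.der8 hQ).le fun r hr => pow_two r ▸ h.sq8 hQ hr)
    ((h.der8 hQ).ge.trans (der_le_phi (oP_isPGroup 2 _)))

theorem quot8 : ∃ φ : ↥𝐍(h.V8) →* MulAut h.V8 × alternatingGroup (Fin 6), Function.Surjective φ ∧
    φ.ker = (oP 2 𝐂(h.V8)).subgroupOf 𝐍(h.V8) := by
  have hS := h.sing hQ
  have k : ∀ n : ↥𝐍(h.V8), h.V8.normalizerMonoidHom n = 1 ↔ n.1 ∈ 𝐂(h.V8) := fun n => by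
    rw [← MonoidHom.mem_ker, normalizerMonoidHom_ker, mem_subgroupOf]
  have ind : ∀ φ, ∃ l : ↥𝐍(h.V8), l.1 ∈ ⨆ u ∈ ((h.V8 : Set G) \ {1}), oP 2 𝐂[u] ∧
      h.V8.normalizerMonoidHom l = φ := fun φ => by
    obtain ⟨g, hg, e⟩ := hS.exists_induce φ
    exact ⟨⟨g, hS.iSup_le_norm hg⟩, hg, MulEquiv.ext fun u => Subtype.ext (e u)⟩
  obtain ⟨β, b1, b2⟩ := exists_ext (pcomp phS π) h.C8_dom (N := 𝐍(h.V8)) (norms_cent le_rfl)
    (L := ⨆ u ∈ ((h.V8 : Set G) \ {1}), oP 2 𝐂[u]) (fun n hn => by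
      obtain ⟨l, h1, h2⟩ := ind (h.V8.normalizerMonoidHom ⟨n, hn⟩)
      exact ⟨l, h1, _, (k (l⁻¹ * ⟨n, hn⟩)).1 (by rw [map_mul, map_inv, h2, inv_mul_cancel]), by simp⟩)
    (by
      refine le_trans ?_ (h.oP_C8.le.trans inf_le_left)
      have a1 : ∀ u ∈ (h.V8 : Set G) \ {1}, oP 2 𝐂[u] ≤ 𝐍(oP 2 𝐂(h.V8)) := fun u hu =>
        (norms_cent (hS.norm hu.1 hu.2)).trans (norm_le_norm_oP 2 _)
      exact comm_iSup_le (fun u => comm_iSup_le (fun hu => (comm_le_inf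
        ((cent_le_cent1 hu.1).trans (oP_normalIn _ _).2) (norms_cent (hS.norm hu.1 hu.2))).trans
        (oP_inf_le_oP (cent_le_cent1 hu.1))) (a1 u)) fun u => iSup_le (a1 u))
    (by rw [h.pmap_th]; exact fun a _ => eq_one_of_comm_A6)
  refine ⟨h.V8.normalizerMonoidHom.prod ((MulEquiv.subgroupCongr h.pmap_th).toMonoidHom.comp β), ?_, ?_⟩
  · rintro ⟨φ, a⟩
    obtain ⟨l, h1, h2⟩ := ind φ
    obtain ⟨y, hy, e⟩ := (mem_pmap_of_le h.C8_dom).1 (h.pmap_th.ge a.2)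
    refine ⟨l * ⟨y, centralizer_le_normalizer _ hy⟩, Prod.ext ?_ (Subtype.ext ?_)⟩
    · rw [map_mul]; exact (congrArg₂ _ h2 ((k ⟨y, _⟩).2 hy)).trans (mul_one _)
    · change (β _ : Perm (Fin 6)) = a
      rw [map_mul, b2 l h1, one_mul, b1 _ hy, e]
  · ext n
    rw [MonoidHom.mem_ker, Prod.ext_iff, mem_subgroupOf, h.oP_C8, Subtype.ext_iff]
    change h.V8.normalizerMonoidHom n = 1 ∧ (β n : Perm (Fin 6)) = 1 ↔ _
    rw [k, mem_inf, and_comm, mem_pker]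
    exact and_congr_left fun hn => by rw [b1 n hn, and_iff_right (h.C8_dom hn)]

end FT
end CA.F24
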