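import Cfsg.Agent.Lib.F24.Y1
import Cfsg.Agent.Lib.TC.F22
import Cfsg.Agent.Lib.TC.PModel
import Cfsg.Agent.Lib.Fi.Tw24
import Cfsg.Prelude.Def_Spor_Fi24

/-!
The presentation `Y₅₄₂` of `Fi₂₄`: the map to the model is injective on the subgroups `Y₄₄₁`
and `Y₃₃₂`. Letters: `0 c, 1 d, 2 e, 3 f, 4 g, 5 h, 6 i, 8 a, 9 b, 11 j, 12 l, 13 k`.
-/

set_option autoImplicit false
set_option maxRecDepth 100000
set_option Elab.async false

namespace CA.Y24
open CA.Fi CA.TC Equiv Subgroup Cfsg Cfsg.Spor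

/-! ### Stabiliser chains in a system -/

/-- a level: base point, letters, steps `(point, letter)` -/
abbrev Lw := ℕ × List ℕ × List (ℕ × ℕ)

noncomputable def orb (S : Sys) (ls : List ℕ) (st : List (ℕ × ℕ)) : ℕ → Bool :=
  List.rec (fun _ => true) (fun s _ rc X => frc (S.tab s.2 s.1) fun q =>
    an (memL s.2 ls) (an (tb X s.1) (cond' (tb X q) false (frc (Nat.lor X (bit q)) rc)))) st
def gens (L : List Lw) : List ℕ := L.flatMap (·.2.1)
def bound (L : List Lw) : ℕ := (L.map fun l => l.2.2.length + 1).prod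
noncomputable def chain (S : Sys) (L : List Lw) : Bool :=
  List.rec true (fun l L rc => an (lt' l.1 S.N) (an (allL (fun i => Nat.beq (S.tab i l.1) l.1) (gens L))
    (an (orb S l.2.1 l.2.2 (bit l.1)) rc))) L

theorem orb_spec {S : Sys} (h : S.OK) {K : Subgroup (Perm ℕ)} {ls : List ℕ}
    (hw : ∀ i ∈ ls, i < S.r ∧ S.σ i ∈ K) {b : ℕ}
    (st : List (ℕ × ℕ)) : ∀ (X : ℕ) (A : Finset ℕ), (∀ q, X.testBit q = true ↔ q ∈ A) →
      (∀ q ∈ A, q < S.N ∧ q ∈ MulAction.orbit K b) → orb S ls st X = true →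
      ∃ A' : Finset ℕ, (∀ q ∈ A', q ∈ MulAction.orbit K b) ∧ A'.card = A.card + st.length := by
  induction st with
  | nil => exact fun X A _ h2 _ => ⟨A, fun q hq => (h2 q hq).2, rfl⟩
  | cons s st ih =>
    intro X A h1 h2 h3
    have e : orb S ls (s :: st) X = frc (S.tab s.2 s.1) fun q =>
      an (memL s.2 ls) (an (tb X s.1) (cond' (tb X q) false (frc (Nat.lor X (bit q)) (orb S ls st)))) := rfl
    rw [e, frc_eq, an_iff, an_iff, memL_iff, tb_eq, tb_eq, frc_eq] at h3
    obtain ⟨h0, h3, h4⟩ := h3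
    obtain ⟨b1, k, hk⟩ := h2 _ ((h1 _).1 h3)
    rw [h.tab _ (hw _ h0).1 _ b1] at h4
    set q := S.σ s.2 s.1 with hq
    cases h5 : X.testBit q <;> rw [h5] at h4
    swap; · cases h4
    have hqS : q ∉ A := fun hh => by rw [(h1 q).2 hh] at h5; cases h5
    obtain ⟨A', a1, a2⟩ := ih _ (insert q A) (fun p => by
      rw [lor_eq, Nat.testBit_or, Bool.or_eq_true, h1, testBit_bit, Finset.mem_insert, decide_eq_true_eq]
      tauto) (fun p hp => by
      rcases Finset.mem_insert.1 hp with rfl | hp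
      · refine ⟨h.σ_lt (hw _ h0).1 b1, (⟨_, (hw _ h0).2⟩ : K) * k, ?_⟩
        change ((⟨_, (hw _ h0).2⟩ : K) * k) • b = _
        rw [mul_smul, show k • b = s.1 from hk, hq]; rfl
      · exact h2 p hp) h4
    exact ⟨A', a1, by rw [a2, Finset.card_insert_of_notMem hqS, List.length_cons]; omega⟩

theorem chain_spec {S : Sys} (h : S.OK) (L : List Lw) : ∀ (K : Subgroup (Perm ℕ)) [Finite K],
    (∀ i ∈ gens L, i < S.r ∧ S.σ i ∈ K) → chain S L = true → bound L ≤ Nat.card K := by
  induction L with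
  | nil => exact fun K _ _ _ => Nat.card_pos
  | cons l L ih =>
    intro K _ h1 h2
    have e : chain S (l :: L) = an (lt' l.1 S.N) (an (allL (fun i => Nat.beq (S.tab i l.1) l.1) (gens L))
      (an (orb S l.2.1 l.2.2 (bit l.1)) (chain S L))) := rfl
    rw [e, an_iff, an_iff, an_iff, allL_iff, lt'_iff] at h2
    obtain ⟨h0, h2, h3, h4⟩ := h2
    have hg : gens (l :: L) = l.2.1 ++ gens L := by simp [gens]
    rw [hg] at h1
    obtain ⟨A, a1, a2⟩ := orb_spec h (K := K) (fun w hw => h1 w (List.mem_append_left _ hw)) (b := l.1) l.2.2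
      (bit l.1) {l.1} (fun q => by simp [eq_comm]) (fun q hq => by
        rw [Finset.mem_singleton.1 hq]; exact ⟨h0, MulAction.mem_orbit_self _⟩) h3
    have : Finite ((MulAction.stabilizer K l.1).map K.subtype) :=
      Finite.of_surjective _ ((MulAction.stabilizer K l.1).equivMapOfInjective _ K.subtype_injective).surjective
    have b1 := ih ((MulAction.stabilizer K l.1).map K.subtype) (fun w hw => by
      have hw' := h1 w (List.mem_append_right _ hw)
      refine ⟨hw'.1, ⟨_, hw'.2⟩, ?_, rfl⟩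
      have := beq_iff.1 (h2 w hw)
      rwa [h.tab _ hw'.1 _ h0] at this) h4
    rw [Subgroup.card_map_of_injective K.subtype_injective] at b1
    have b2 : A.card ≤ (MulAction.stabilizer K l.1).index := by
      rw [MulAction.index_stabilizer, ← Set.ncard_coe_finset]
      exact Set.ncard_le_ncard a1 (Set.finite_range _)
    rw [← (MulAction.stabilizer K l.1).index_mul_card, bound, List.map_cons, List.prod_cons]
    exact Nat.mul_le_mul (by rw [a2] at b2; simpa [add_comm] using b2) b1

/-! ### The presentation -/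

def gs : List Fi24.Gen := [.c, .d, .e, .f, .g, .h, .i, .c, .a, .b, .c, .j, .l, .k]
def wE : List ℕ := pw [8, 9, 0, 1, 2, 3, 5] 9
def wW : List ℕ := [1, 0, 9, 8, 13, 12, 1, 2, 3, 4, 11, 1, 5, 6]
def X24 : List (List ℕ) := [12 :: wE.reverse, 12 :: wE, pw wW 17]
def RR : List (List ℕ) := coxR gs Fi24.edges ++ X24
theorem gs_all (x : Fi24.Gen) : x ∈ gs := by cases x <;> decide

theorem fam24 : Fam (coxG gs Fi24.edges Fi24.extra) 14 RR := by
  have h0 : Fam (coxG gs Fi24.edges Fi24.extra) 14 (coxR gs Fi24.edges ++ []) :=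
    coxFam (by decide) (by simp)
  have k : ∀ r ∈ Fi24.extra, PresentedGroup.mk (coxRelators Fi24.edges ∪ {r | r ∈ Fi24.extra}) r = 1 :=
    fun r hr => PresentedGroup.one_of_mem (Or.inr hr)
  have h1 : coxG gs Fi24.edges Fi24.extra 12 * (ev (coxG gs Fi24.edges Fi24.extra) wE)⁻¹ = 1 := by
    have := k _ (.head _)
    rw [wE, ev_pw]
    simpa [coxG, gs, mul_assoc, PresentedGroup.of] using this
  refine ⟨h0.sq, h0.one, fun w hw => (List.mem_append.1 hw).elim
    (fun hw => h0.rel w (List.mem_append_left _ hw)) fun hw => ?_⟩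
  simp only [X24, List.mem_cons, List.not_mem_nil, or_false] at hw
  rcases hw with rfl | rfl | rfl
  · rw [ev_cons, ev_rev h0.sq, h1]
  · rw [ev_cons, ← mul_inv_eq_one.1 h1, h0.sq]
  · have := k _ (.tail _ (.head _))
    rw [ev_pw]
    simpa [coxG, gs, wW, mul_assoc, PresentedGroup.of] using this

theorem hom24 {Γ : Type*} [Group Γ] {G : ℕ → Γ} {e : ℕ} (h : Fam G e RR) :
    ∃ φ : Fi24 →* Γ, ∀ x, φ (PresentedGroup.of x) = G (gs.idxOf x) :=
  cox_hom (extra := Fi24.extra) gs_all (X := X24) (fun r hr => by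
    simp only [Fi24.extra, List.mem_cons, List.not_mem_nil, or_false] at hr
    rcases hr with rfl | rfl
    · exact ⟨_, .head _, fun G hG => by rw [ev_cons, ev_rev hG, wE, ev_pw]; simp [mul_assoc]; rfl⟩
    · exact ⟨_, .tail _ (.tail _ (.head _)), fun G _ => by simp [ev_pw, wW, mul_assoc]; rfl⟩) h

def gJ : List ℕ := [8, 9, 0, 1, 2, 3, 4, 11, 5, 12, 13]
def gK : List ℕ := [8, 9, 0, 1, 2, 3, 4, 5, 6]

theorem ubJ {Γ : Type*} [Group Γ] {G : ℕ → Γ} (h : Fam G 14 RR) : Finite (KS G gJ) ∧
    Nat.card (KS G gJ) ≤ 528 * (255 * (128 * (56 * (27 * (16 * (5 * (4 * (3 * (2 * 1))))))))) :=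
  h.step gJ [8, 9, 0, 1, 2, 3, 4, 11, 5, 12] f24ya_card (by decide +kernel) <|
  h.step _ [8, 9, 0, 1, 2, 3, 4, 5, 12] f24yb_card (by decide +kernel) <|
  h.step _ [8, 9, 0, 1, 2, 3, 5, 12] f24yc_card (by decide +kernel) <|
  h.step _ [5, 1, 2, 3, 0, 9] f24yd_card (by decide +kernel) <|
  h.step _ [5, 1, 2, 0, 9] f22d_card (by decide +kernel) <|
  h.step _ [5, 1, 0, 9] f22e_card (by decide +kernel) <|
  h.step _ [5, 1, 0] f22f_card (by decide +kernel) <|
  h.step _ [5, 1] f22g_card (by decide +kernel) <|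
  h.step _ [5] f22h_card (by decide +kernel) <|
  h.step _ [] f22i_card (by decide +kernel) <|
  KS_nil G

def LJ : List Lw := [(31671, [8, 9, 0, 1, 2, 3, 4, 11, 5, 12, 13], [(31671, 13), (31675, 8), (31675, 12), (31681, 9), (31681, 12), (31693, 0), (31693, 12), (31674, 13), (31717, 1), (31717, 12), (31680, 13), (31767, 2), (31767, 5), (31767, 12), (31692, 13), (696, 8), (31859, 3), (31859, 5), (31859, 12), (31858, 12), (31716, 13), (698, 8), (32021, 4), (32021, 5), (32021, 12), (31763, 1), (31763, 12), (31765, 13), (31766, 13), (701, 8), (695, 9), (32286, 11), (32286, 5), (32286, 12), (31846, 1), (31846, 12), (31861, 13), (31714, 0), (31714, 12), (31860, 13), (704, 8), (706, 8), (697, 9), (32797, 5), (32797, 12), (31991, 1), (31991, 12), (32030, 13), (31753, 0), (31753, 2), (31753, 12), (32022, 13), (710, 8), (31690, 9), (31690, 12), (31764, 13), (713, 8), (699, 9), (700, 9), (8, 0), (32287, 1), (32287, 12), (32324, 13), (31826, 0), (31826, 2), (31826, 12), (32288, 13), (718,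 8), (31707, 9), (31707, 2), (31707, 12), (31810, 12), (31847, 13), (722, 8), (702, 9), (31678, 8), (31678, 12), (31715, 13), (727, 8), (703, 9), (9, 0), (10, 0), (31992, 0), (31992, 2), (31992, 12), (32799, 13), (3559, 8), (31740, 9), (31740, 2), (31740, 12), (31935, 3), (31935, 12), (31993, 13), (735, 8), (707, 9), (31685, 8), (31685, 2), (31685, 12), (31733, 1), (31733, 12), (31754, 13), (31959, 13), (743, 8), (708, 9), (13, 0), (31673, 12), (31673, 13), (31691, 13), (751, 8), (711, 9), (14, 0), (11, 1), (12, 1), (31827, 9), (31827, 2), (31827, 12), (32186, 3), (32186, 12), (32290, 13), (3594, 8), (3535, 9), (31700, 8), (31700, 2), (31700, 12), (31796, 1), (31796, 3), (31796, 12), (31828, 13), (32148, 12), (32187, 13), (764, 8), (716, 9), (19, 0), (31676, 2), (31676, 12), (31676, 13), (31697, 1), (31697, 12), (31708, 13), (31785, 5), (31785, 12), (31811, 13), (778, 8), (777, 8), (719, 9), (20, 0), (16, 1), (31741, 8), (31741, 2), (31741, 12), (31936, 1), (31936, 3), (31936,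 12), (31995, 13), (32554, 4), (32554, 12), (32626, 13), (3649, 8), (3553, 9), (3524, 0), (31683, 2), (31683, 12), (31683, 13), (31726, 1), (31726, 3), (31726, 12), (31742, 13), (31892, 3), (31892, 5), (31892, 12), (31915, 12), (31937, 13), (805, 8), (32555, 13), (804, 8), (732, 9), (32, 0), (26, 1), (31682, 1), (31682, 12), (31682, 13), (31722, 0), (31722, 5), (31722, 12), (31734, 13), (31877, 12), (31871, 13), (742, 8), (740, 9), (25, 2), (31701, 2), (31701, 12), (31701, 13), (31797, 1), (31797, 3), (31797, 12), (31830, 13), (32101, 3), (32101, 5), (32101, 12), (32149, 4), (32149, 12), (32189, 13), (3733, 8), (33249, 12), (33251, 13), (3736, 8), (3585, 9), (3533, 0), (3519, 1), (31695, 1), (31695, 3), (31695, 12), (31695, 13), (31777, 0), (31777, 3), (31777, 5), (31777, 12), (31788, 12), (31798, 13), (32079, 2), (32079, 5), (32079, 12), (32050, 12), (32040, 13), (32150, 13), (763, 8), (869, 8), (761, 9), (41, 2), (31694, 0), (31694, 5), (31694, 12), (31694, 13), (31769, 13),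 (31772, 13), (721, 8), (31727, 1), (31727, 3), (31727, 12), (31727, 13), (31893, 0), (31893, 3), (31893, 5), (31893, 12), (31916, 4), (31916, 12), (31939, 13), (32428, 2), (32428, 4), (32428, 5), (32428, 12), (32372, 12), (32352, 13), (32556, 12), (32558, 13), (3646, 8), (34411, 13), (3874, 8), (3638, 9), (3516, 2), (31719, 0), (31719, 3), (31719, 5), (31719, 12), (31719, 13), (31724, 12), (31724, 13), (31866, 3), (31882, 2), (31882, 5), (31882, 12), (31864, 13), (31917, 13), (32340, 5), (32340, 12), (32344, 12), (32331, 13), (31867, 13), (734, 8), (811, 8), (806, 9), (67, 3), (31718, 13), (31720, 13), (709, 8), (31778, 0), (31778, 3), (31778, 5), (31778, 12), (31778, 13), (31789, 4), (31789, 12), (31789, 13), (32048, 3), (32080, 2), (32080, 4), (32080, 5), (32080, 12), (32041, 13), (32151, 12), (32153, 13), (32868, 4), (32868, 5), (32868, 12), (33019, 5), (33019, 12), (32875, 12), (32846, 13), (32049, 13), (3592, 8), (33247, 13), (3750, 8), (4088, 8), (3726, 9), (3514, 3),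 (31768, 3), (31768, 13), (31774, 2), (31774, 5), (31774, 12), (31774, 13), (31775, 13), (32035, 2), (32034, 5), (32034, 12), (32032, 13), (32838, 1), (32838, 12), (32830, 13), (32036, 13), (767, 8), (717, 8), (31868, 3), (31868, 13), (31883, 2), (31883, 4), (31883, 5), (31883, 12), (31883, 13), (31886, 13), (31918, 12), (31918, 13), (32342, 2), (32342, 4), (32341, 4), (32341, 5), (32341, 12), (32429, 5), (32429, 12), (32332, 13), (32552, 13), (33752, 3), (33752, 5), (33752, 12), (33697, 1), (33697, 12), (33680, 13), (33753, 12), (33696, 13), (32343, 13), (3660, 8), (3557, 8), (3914, 8), (3867, 9), (3512, 4), (31863, 2), (31863, 13), (31878, 5), (31878, 12), (31878, 13), (31879, 13), (31881, 1), (32329, 1), (32325, 13), (32550, 0), (32550, 12), (32327, 13), (816, 8), (736, 8), (32037, 2), (32037, 4), (32037, 13), (32068, 4), (32068, 5), (32068, 12), (32068, 13), (32081, 5), (32081, 12), (32081, 13), (32071, 13), (32078, 1), (32078, 4), (32869, 3), (32869, 5), (32869, 12), (32841,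 1), (32831, 13), (32840, 13), (32919, 5), (32919, 12), (33020, 1), (33020, 12), (32874, 13), (33248, 0), (33248, 12), (32837, 13), (3770, 8), (32873, 13), (3772, 8), (3599, 8), (32031, 1), (32031, 13), (32066, 1), (32066, 13), (33245, 12), (32142, 13), (770, 8), (32328, 1), (32328, 4), (32328, 13), (32345, 13), (32403, 3), (32403, 5), (32403, 12), (32403, 13), (32398, 1), (32398, 13), (32404, 13), (31913, 4), (32426, 3), (32373, 5), (32373, 12), (32430, 1), (32346, 13), (32464, 1), (32464, 12), (32371, 13), (32557, 0), (32557, 12), (33695, 13), (3678, 8), (34412, 12), (32549, 13), (3670, 8), (3672, 8), (31912, 13), (31914, 13), (32548, 13), (821, 8), (32143, 4), (32143, 13), (32839, 3), (32839, 13), (32087, 5), (32087, 12), (32087, 13), (32082, 1), (32082, 13), (32147, 13), (32145, 3), (32102, 1), (32051, 13), (32188, 0), (32188, 2), (32188, 12), (32885, 13), (3605, 8), (33250, 12), (33246, 13), (3778, 8), (33244, 13), (3786, 8), (894, 8), (32551, 3), (32551, 13), (32353,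 13), (31894, 1), (31894, 13), (31919, 13), (31940, 2), (31938, 2), (32625, 2), (32625, 12), (31994, 12), (32627, 13), (3666, 8), (34410, 13), (3919, 8), (3970, 8), (999, 9), (32190, 2), (32190, 13), (31799, 2), (31799, 13), (32289, 1), (32289, 12), (33383, 13), (32291, 13), (3755, 8), (4101, 8), (4089, 9), (31996, 13), (31743, 13), (32798, 5), (32798, 12), (32800, 13), (3892, 8), (3890, 8), (3875, 9), (33657, 12), (33658, 13), (3757, 8), (3737, 9), (32828, 13), (3667, 8), (3650, 9), (3606, 8), (3595, 9), (3560, 9), (3554, 0), (3536, 0), (3527, 1), (3521, 2), (3518, 3), (3515, 4), (3513, 11)]), (3510, [8, 9, 0, 1, 2, 3, 4, 11, 5, 12], [(3510, 11), (3513, 4), (3515, 3), (3518, 2), (3521, 1), (3527, 0), (3527, 5), (3536, 9), (3536, 5), (3560, 8), (3560, 5), (3554, 1), (3606, 5), (3595, 1), (3586, 2), (3667, 1), (3650, 0), (3650, 2), (3639, 3), (3757, 0), (3757, 2), (3756, 2), (3737, 3), (3727, 4), (3890, 9), (3890, 2), (3892, 3), (3891, 1), (3891, 3), (3875, 4), (3868, 11), (3734,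 2), (3755, 1), (3755, 3), (4101, 4), (3784, 3), (3784, 5), (4100, 4), (4089, 11), (3647, 1), (3647, 3), (3666, 3), (3666, 5), (3919, 4), (3970, 11), (3959, 2), (3959, 4), (3959, 5), (3971, 11), (3593, 0), (3593, 3), (3593, 5), (3751, 4), (3778, 2), (3778, 4), (3778, 5), (3786, 11), (3794, 4), (3794, 5), (3790, 11), (3790, 5), (3565, 3), (3565, 5), (3661, 2), (3661, 4), (3661, 5), (3668, 11), (3672, 4), (3672, 5), (3670, 11), (3670, 5), (3677, 3), (3677, 11), (3677, 5), (3950, 1), (823, 5), (3613, 2), (3613, 4), (3613, 5), (3542, 1), (3597, 4), (3597, 5), (3596, 11), (3596, 5), (3599, 3), (3599, 11), (3599, 5), (3772, 1), (770, 5), (3604, 11), (3604, 5), (772, 5), (3777, 1), (4087, 0), (3567, 1), (3567, 4), (3567, 5), (3566, 11), (3566, 5), (3569, 1), (3530, 2), (3555, 3), (3555, 11), (3555, 5), (3658, 1), (89, 5), (3557, 11), (3557, 5), (736, 5), (3660, 1), (3914, 0), (738, 4), (738, 5), (3665, 1), (818, 1), (3873, 0), (3867, 9), (3543, 4), (3540, 3), (3540, 11), (3540, 5),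 (115, 5), (3610, 1), (3534, 11), (3534, 5), (54, 5), (3590, 1), (717, 4), (717, 5), (3592, 1), (767, 1), (3750, 0), (724, 5), (769, 1), (3735, 0), (3735, 2), (864, 0), (3726, 9), (3528, 3), (3528, 11), (3526, 11), (3526, 5), (73, 5), (172, 1), (33, 4), (33, 5), (3552, 1), (87, 1), (709, 5), (734, 1), (3646, 0), (3646, 2), (811, 0), (747, 1), (802, 0), (802, 2), (3638, 9), (3638, 2), (806, 9), (3520, 2), (3520, 11), (44, 4), (44, 5), (21, 5), (53, 1), (3584, 2), (721, 1), (763, 0), (763, 2), (3736, 2), (775, 0), (775, 2), (761, 9), (761, 2), (3582, 2), (3585, 1), (3517, 11), (69, 4), (28, 5), (36, 1), (85, 2), (742, 0), (742, 2), (804, 2), (3649, 1), (740, 9), (740, 2), (739, 3), (83, 2), (732, 1), (3550, 1), (3553, 5), (107, 4), (58, 2), (777, 2), (778, 3), (764, 1), (3594, 5), (56, 2), (719, 1), (719, 3), (51, 1), (716, 5), (3533, 0), (3533, 5), (68, 3), (93, 3), (743, 1), (743, 3), (735, 5), (34, 1), (34, 3), (708, 3), (708, 5), (32, 0), (32, 5), (3525, 5), (722, 3), (722,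 5), (20, 0), (20, 3), (20, 5), (703, 2), (703, 5), (43, 5), (3519, 1), (713, 2), (713, 5), (27, 3), (27, 5), (14, 2), (14, 5), (700, 5), (26, 1), (3516, 2), (706, 5), (17, 2), (17, 5), (16, 1), (10, 5), (697, 1), (41, 2), (3514, 3), (701, 1), (12, 1), (12, 5), (11, 1), (25, 2), (8, 1), (695, 0), (67, 3), (3512, 4), (698, 0), (696, 9)]), (3511, [8, 9, 0, 1, 2, 3, 4, 5, 12], [(3511, 4), (3512, 3), (3514, 2), (3516, 1), (3519, 0), (3519, 5), (3524, 9), (3524, 5), (3535, 8), (3535, 5), (3533, 1), (3559, 5), (3553, 1), (3550, 2), (3594, 1), (3585, 0), (3585, 2), (3582, 3), (3649, 0), (3649, 2), (3648, 2), (3638, 3), (3635, 4), (3733, 9), (3733, 2), (3736, 3), (3735, 1), (3735, 3), (3726, 4), (3637, 2), (3646, 1), (3646, 3), (3874, 4), (3665, 3), (3665, 5), (3873, 4), (3584, 1), (3584, 3), (3592, 3), (3592, 5), (3750, 4), (3777, 2), (3777, 4), (3777, 5), (3552, 0), (3552, 3), (3552, 5), (3644, 4), (3660, 2), (3660, 4), (3660, 5), (3946, 4), (3946, 5), (3950, 5), (3538, 3), (3538,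 5), (3590, 2), (3590, 4), (3590, 5), (3770, 4), (3770, 5), (3772, 5), (3803, 3), (3803, 5), (3790, 1), (3563, 2), (3563, 4), (3563, 5), (3526, 1), (3657, 4), (3657, 5), (3658, 5), (3678, 3), (3678, 5), (3670, 1), (3684, 5), (3959, 1), (3971, 0), (3610, 1), (3610, 4), (3610, 5), (3611, 5), (3540, 1), (3520, 2), (3600, 3), (3600, 5), (3596, 1), (3605, 5), (3778, 1), (3786, 0), (3784, 1), (4100, 0), (4089, 9), (3573, 4), (3569, 3), (3569, 5), (3567, 1), (3558, 5), (3661, 1), (3666, 1), (3919, 0), (3891, 0), (3891, 2), (3875, 9), (3545, 3), (3542, 5), (3593, 1), (3755, 0), (3755, 2), (3737, 9), (3737, 2), (3530, 2), (3647, 2), (3892, 2), (3639, 2), (3650, 1), (3757, 1), (3586, 1), (3595, 5), (3667, 5), (3554, 0), (3554, 5), (3539, 5), (3527, 1), (3521, 2), (3518, 3), (3515, 4)]), (31672, [8, 9, 0, 1, 2, 3, 5, 12], [(31672, 8), (31672, 12), (31674, 9), (31674, 12), (31680, 0), (31680, 12), (31692, 1), (31692, 12), (31716, 2), (31716, 5), (31716, 12), (31765, 3), (31765, 5), (31765,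 12), (31766, 12), (31861, 5), (31861, 12), (31860, 1), (31860, 12), (32022, 1), (32022, 12), (31764, 0), (31764, 12), (31847, 0), (31847, 2), (31847, 12), (31715, 9), (31715, 12), (31754, 9), (31754, 2), (31754, 12), (31959, 12), (31691, 8), (31691, 12), (31708, 8), (31708, 2), (31708, 12), (31811, 1), (31811, 12), (31679, 12), (31686, 2), (31686, 12), (31734, 1), (31734, 12), (31871, 5), (31871, 12), (31698, 1), (31698, 12), (31769, 0), (31769, 5), (31769, 12), (31772, 12), (31723, 0), (31723, 5), (31723, 12)]), (693, [9, 0, 1, 2, 3, 5], [(693, 9), (696, 0), (698, 1), (701, 2), (701, 5), (704, 3), (704, 5), (710, 5), (713, 1), (722, 1), (727, 0), (743, 0), (743, 2), (751, 9), (778, 9), (778, 2), (93, 2), (742, 1), (58, 1), (721, 5), (36, 0), (36, 5), (46, 5), (28, 1), (42, 2), (68, 3)]), (694, [0, 1, 2, 3, 5], [(694, 0), (695, 1), (697, 2), (697, 5), (699, 3), (699, 5), (702, 5), (703, 1), (708, 1), (711, 0), (719, 0), (719, 2), (739, 2), (775, 1), (747, 5)]), (4, [5, 1,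 2, 3], [(4, 3), (67, 2), (41, 1), (26, 5)]), (3, [5, 1, 2], [(3, 2), (25, 1), (16, 5)]), (2, [5, 1], [(2, 1), (11, 5)]), (1, [5], [(1, 5)])]
theorem LJ_ok : chain S24 LJ = true := by decide +kernel

def ws0 : List (List ℕ) := [[0], [1], [2], [3], [4], [5], [6], [0], [8], [9], [0], [11], [12], [13]]
theorem ws0_ok : an (allL (fun w => S24.relW (w ++ w)) ws0)
    (allL (fun w => S24.relW (w.flatMap (ws0.getD · []))) RR) = true := by decide +kernel

end CA.Y24
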