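import Cfsg.Agent.Lib.F24.Y2

/-!
The presentation `Y₅₄₂` of `Fi₂₄`: injectivity on `Y₄₄₁` and `Y₃₃₂`.
-/

set_option autoImplicit false
set_option maxRecDepth 100000
set_option Elab.async false

namespace CA.Y24
open CA.Fi CA.TC Equiv Subgroup Cfsg Cfsg.Spor

variable {Γ G : Type*} [Group Γ] [Group G]

theorem exists_ev {g : ℕ → Γ} (hG : ∀ i, g i * g i = 1) {gm : List ℕ} {x : Γ} (hx : x ∈ KS g gm) :
    ∃ w, (∀ i ∈ w, i ∈ gm) ∧ ev g w = x := by
  induction hx using Subgroup.closure_induction with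
  | mem x hx => obtain ⟨i, h, rfl⟩ := hx; exact ⟨[i], by simpa using h, mul_one _⟩
  | one => exact ⟨[], by simp, rfl⟩
  | mul x y _ _ hx hy =>
    obtain ⟨u, h1, rfl⟩ := hx
    obtain ⟨v, h2, rfl⟩ := hy
    exact ⟨u ++ v, fun i hi => (List.mem_append.1 hi).elim (h1 i) (h2 i), ev_append _ _ _⟩
  | inv x _ hx =>
    obtain ⟨u, h1, rfl⟩ := hx
    exact ⟨u.reverse, fun i hi => h1 i (List.mem_reverse.1 hi), ev_rev hG _⟩

theorem mem_KS (g : ℕ → Γ) {gm : List ℕ} {i : ℕ} (hi : i ∈ gm) : g i ∈ KS g gm :=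
  subset_closure ⟨i, hi, rfl⟩
theorem ev_KS (g : ℕ → Γ) {gm w : List ℕ} (hw : ∀ i ∈ w, i ∈ gm) : ev g w ∈ KS g gm :=
  ev_mem fun i hi => mem_KS g (hw i hi)
theorem KS_le {g : ℕ → Γ} {gm : List ℕ} {H : Subgroup Γ} (h : ∀ i ∈ gm, g i ∈ H) : KS g gm ≤ H :=
  (closure_le _).2 (by rintro _ ⟨i, hi, rfl⟩; exact h i hi)

/-- `φ` is injective on `H` -/
def Inj (φ : Γ →* G) (H : Subgroup Γ) : Prop := ∀ x ∈ H, φ x = 1 → x = 1

theorem Inj.eq {φ : Γ →* G} {H : Subgroup Γ} (h : Inj φ H) {x y : Γ} (hx : x ∈ H) (hy : y ∈ H)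
    (e : φ x = φ y) : x = y :=
  inv_mul_eq_one.1 (h _ (mul_mem (inv_mem hx) hy) (by rw [map_mul, map_inv, e, inv_mul_cancel]))

theorem Inj.conj {φ : Γ →* G} {H : Subgroup Γ} (h : Inj φ H) (a : Γ) :
    Inj φ (H.comap (MulAut.conj a).toMonoidHom) := fun x hx e => by
  have := h _ hx (by simp [e])
  simpa using this

theorem mem_cj {H : Subgroup Γ} {a x : Γ} :
    x ∈ H.comap (MulAut.conj a).toMonoidHom ↔ a * x * a⁻¹ ∈ H := Iff.rfl

def gA : List ℕ := 6 :: gJ

/-- the setting -/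
structure Cx (G0 : ℕ → Γ) (φ : Γ →* G) (D : Set G) (t : ℕ → G) (ι : G →* Perm ℕ) : Prop where
  fam : Fam G0 14 RR
  mod : Model S24 D t
  map : ∀ i ∈ gA, φ (G0 i) = t (S24.pt i)
  inj : Function.Injective ι
  ισ : ∀ i < 14, ι (t (S24.pt i)) = S24.σ i

def wz : List ℕ := 12 :: pw [8, 9, 0, 1, 2, 5] 5
def wm : List ℕ := pw [9, 0, 1, 2, 3, 4, 5] 9
def wS : List ℕ := pw [1, 0, 9, 1, 2, 3, 1, 5, 6] 10
def ws : List (List ℕ) := [[0], [1], [2], [3], [4], [5], [6], wz, [8], [9], wm, [11], [12], [13]]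
/-- the generators of the system `S24` -/
def gg (G0 : ℕ → Γ) (i : ℕ) : Γ := ev G0 (ws.getD i [])

theorem gg_eq (G0 : ℕ → Γ) {i : ℕ} (hi : i ∈ gA) : gg G0 i = G0 i := by
  have : ∀ i ∈ gA, ws.getD i [] = [i] := by decide
  rw [gg, this i hi]; exact mul_one _

theorem rel1 : allL S24.relW [7 :: wz, 10 :: wm, wS, wz ++ wz, wm ++ wm, pw (6 :: wm) 2,
    pw (8 :: wm) 2] = true := by decide +kernel

namespace Cx
variable {G0 : ℕ → Γ} {φ : Γ →* G} {D : Set G} {t : ℕ → G} {ι : G →* Perm ℕ} (h : Cx G0 φ D t ι)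
include h

theorem ev0 {w : List ℕ} (hw : ∀ i ∈ w, i ∈ gA) : φ (ev G0 w) = ev (Model.g S24 t) w := by
  rw [map_ev]; exact ev_congr fun i hi => h.map i (hw i hi)

theorem injJ : Inj φ (KS G0 gJ) := fun x hx e => by
  obtain ⟨w, hw, rfl⟩ := exists_ev h.fam.sq hx
  have hτ : Fam (fun i => ι (φ (G0 i))) 14 RR := ⟨fun i => by rw [← map_mul, ← map_mul, h.fam.sq]; simp,
    by rw [h.fam.one]; simp, fun w hw => by
      rw [← map_ev ι (fun i => φ (G0 i)), ← map_ev, h.fam.rel w hw]; simp⟩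
  refine h.fam.transfer hτ ubJ (fun hf => le_of_eq_of_le (by decide +kernel)
    (chain_spec S24_OK LJ _ (fun i hi => ?_) LJ_ok)) hw
    (by rw [← map_ev ι (fun i => φ (G0 i)), ← map_ev, e]; simp)
  have k : ∀ i ∈ gens LJ, i < 14 ∧ i ∈ gJ := by decide +kernel
  refine ⟨(k i hi).1, ?_⟩
  rw [← h.ισ i (k i hi).1, ← h.map i (List.mem_cons_of_mem _ (k i hi).2)]
  exact mem_KS (fun i => ι (φ (G0 i))) (k i hi).2

theorem one_of {H : Subgroup Γ} (hH : Inj φ H) {w : List ℕ} (hw : ∀ i ∈ w, i ∈ gA) (hm : ev G0 w ∈ H)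
    (e : S24.relW w = true) : ev G0 w = 1 :=
  hH _ hm (by rw [h.ev0 hw, h.mod.ev_eq_one e])

theorem spider : ev G0 wS = 1 :=
  h.one_of h.injJ (by decide +kernel) (h.fam.word [6, 5, 1, 2, 3, 0, 9, 8, 13, 12] gJ f24ys_mem
    (by decide +kernel) [pw [2, 5, 6, 2, 3, 4, 2, 1, 0] 10] (by decide +kernel) _ (by decide +kernel))
    (allL_iff.1 rel1 _ (by simp))

theorem mi : ev G0 (pw (6 :: wm) 2) = 1 :=
  h.one_of h.injJ (by decide +kernel) ((h.fam.add (R' := [wS]) (by simpa using h.spider)).word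
    [6, 5, 1, 2, 3, 4, 0, 9] gJ f24ym_mem (by decide +kernel) [pw (0 :: pw [7, 6, 2, 3, 4, 5, 1] 9) 2]
    (by decide +kernel) _ (by decide +kernel)) (allL_iff.1 rel1 _ (by simp))

theorem oneJ {w : List ℕ} (hw : ∀ i ∈ w, i ∈ gJ) (e : S24.relW w = true) : ev G0 w = 1 :=
  h.one_of h.injJ (fun i hi => List.mem_cons_of_mem _ (hw i hi)) (ev_KS _ hw) e

theorem sq (i : ℕ) : gg G0 i * gg G0 i = 1 := by
  rcases lt_or_ge i 14 with hi | hi
  · by_cases h7 : i = 7
    · rw [h7, gg, ← ev_append]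
      exact h.oneJ (by decide +kernel) (allL_iff.1 rel1 _ (by simp [ws]))
    by_cases h10 : i = 10
    · rw [h10, gg, ← ev_append]
      exact h.oneJ (by decide +kernel) (allL_iff.1 rel1 _ (by simp [ws]))
    rw [gg_eq G0 (by interval_cases i <;> simp_all [gA, gJ]), h.fam.sq]
  · rw [gg, List.getD_eq_default _ _ hi]; simp

theorem mapg {i : ℕ} (hi : i < 14) : φ (gg G0 i) = t (S24.pt i) := by
  have key : ∀ w, (∀ j ∈ w, j ∈ gA) → S24.relW (i :: w) = true → φ (ev G0 w) = t (S24.pt i) :=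
    fun w hw e => by
      have := h.mod.ev_eq_one e
      rw [ev_cons, ← h.mod.g_sq i hi] at this
      rw [h.ev0 hw, mul_left_cancel this]
  by_cases h7 : i = 7
  · subst h7; exact key _ (by decide +kernel) (allL_iff.1 rel1 _ (by simp [ws]))
  by_cases h10 : i = 10
  · subst h10; exact key _ (by decide +kernel) (allL_iff.1 rel1 _ (by simp [ws]))
  have : i ∈ gA := by interval_cases i <;> simp_all [gA, gJ]
  rw [gg_eq G0 this, h.map i this]

theorem evg {w : List ℕ} (hw : ∀ i ∈ w, i < 14) : φ (ev (gg G0) w) = ev (Model.g S24 t) w := by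
  rw [map_ev]; exact ev_congr fun i hi => h.mapg (hw i hi)

theorem cjg {a : Cw} (ha : cOK 14 a = true) : φ (Fi.cj (gg G0) a) = t (S24.cp a) := by
  rw [← ev_cjW (fun i _ => h.sq i) ha, h.evg (cjW_lt ha), h.mod.cp ha]

theorem comm_of {x : ℕ} {w : List ℕ} (e : ev G0 (pw (x :: w) 2) = 1) (hw : ev G0 w * ev G0 w = 1) :
    Commute (G0 x) (ev G0 w) := by
  rw [ev_pw, ev_cons, pow_two, mul_eq_one_iff_eq_inv, mul_inv_rev, inv_eq_of_mul_eq_one_right hw,
    inv_eq_of_mul_eq_one_right (h.fam.sq x)] at e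
  exact e

theorem comm0 {x y : ℕ} (e : [x, y, x, y] ∈ RR) : Commute (G0 x) (G0 y) := by
  have := h.comm_of (x := x) (w := [y]) (h.fam.rel _ e) (by simpa using h.fam.sq y)
  simpa using this

theorem l_mem : G0 12 ∈ KS G0 gK := by
  have := h.fam.rel (12 :: wE) (by decide +kernel)
  rw [ev_cons, mul_eq_one_iff_eq_inv] at this
  rw [this]; exact inv_mem (ev_KS _ (by decide +kernel))

theorem l_cent : ∀ x ∈ KS G0 gK, Commute (G0 12) x := fun x hx =>
  KS_le (H := centralizer {G0 12}) (fun i hi => mem_centralizer_singleton_iff.2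
    (h.comm0 ((by decide +kernel : ∀ i ∈ gK, [i, 12, i, 12] ∈ RR) i hi))) hx _ rfl

theorem m_cent : ∀ x ∈ KS G0 gK, Commute (gg G0 10) x := fun x hx => by
  have k : ∀ i ∈ gK, i ≠ 6 → (∀ j ∈ pw (i :: wm) 2, j ∈ gJ) ∧ S24.relW (pw (i :: wm) 2) = true := by
    decide +kernel
  refine KS_le (H := centralizer {gg G0 10}) (fun i hi => mem_centralizer_singleton_iff.2 ?_) hx _ rfl
  refine h.comm_of ?_ (h.sq 10)
  by_cases h6 : i = 6
  · rw [h6]; exact h.mi
  · exact h.oneJ (k i hi h6).1 (k i hi h6).2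

theorem not_comm : ¬ Commute (t (S24.pt 8)) (t (S24.pt 9)) := fun e => by
  have := (h.mod.commute_iff (w := [8]) (by decide) (p := S24.pt 9) (by decide)).1 (by simpa using e)
  rw [← S24_OK.apW_eq (by decide) (by decide)] at this
  revert this; decide +kernel

theorem injK : Inj φ (KS G0 gK) := by
  set K := KS G0 gK
  have hm : gg G0 10 ∈ K := ev_KS _ (by decide +kernel)
  let N : Subgroup K := (closure {G0 12, gg G0 10}).subgroupOf K
  have hc : ∀ n ∈ N, ∀ x ∈ K, Commute (n : Γ) x := fun n hn x hx =>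
    ((closure_le (centralizer {x})).2 (by
      rintro _ (rfl | rfl)
      exacts [mem_centralizer_singleton_iff.2 (h.l_cent x hx),
        mem_centralizer_singleton_iff.2 (h.m_cent x hx)]) hn x rfl).symm
  have : N.Normal := ⟨fun n hn g => by
    have : g * n * g⁻¹ = n := Subtype.ext (conj_of_commute (hc n hn g g.2).symm)
    rwa [this]⟩
  have mem : ∀ i, G0 (gK.getD i 14) ∈ K := fun i => by
    rcases lt_or_ge i gK.length with hi | hi
    · rw [List.getD_eq_getElem _ _ hi]; exact mem_KS _ (List.getElem_mem hi)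
    · rw [List.getD_eq_default _ _ hi, h.fam.one]; exact one_mem _
  let F0 : ℕ → K := fun i => ⟨_, mem i⟩
  have e0 : ∀ w, ((ev F0 w : K) : Γ) = ev G0 (w.map (gK.getD · 14)) := fun w => by
    rw [← ev_map G0 (gK.getD · 14)]; exact map_ev K.subtype F0 w
  have hF : Fam (fun i => QuotientGroup.mk' N (F0 i)) 9 (coxR gs22 Fi22.edges ++ X22) := by
    refine ⟨fun i => ?_, ?_, fun w hw => ?_⟩
    · rw [← map_mul, show F0 i * F0 i = 1 from Subtype.ext (h.fam.sq _), map_one]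
    · rw [show F0 9 = 1 from Subtype.ext h.fam.one, map_one]
    · rw [← map_ev, QuotientGroup.mk'_apply, QuotientGroup.eq_one_iff, mem_subgroupOf, e0]
      have k : ∀ w ∈ coxR gs22 Fi22.edges ++ X22, w.map (gK.getD · 14) ∈ RR ∨
          w.map (gK.getD · 14) = wS ∨ w.map (gK.getD · 14) = wE ∨ w.map (gK.getD · 14) = wm := by
        decide +kernel
      rcases k w hw with e | e | e | e
      · rw [h.fam.rel _ e]; exact one_mem _
      · rw [e, h.spider]; exact one_mem _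
      · have := h.fam.rel (12 :: wE) (by decide +kernel)
        rw [ev_cons, mul_eq_one_iff_inv_eq] at this
        rw [e, ← this]; exact inv_mem (subset_closure (by simp))
      · rw [e]; exact subset_closure (Or.inr rfl)
  obtain ⟨ρ, hρ⟩ := hom_Fi22 hF
  have hs : Function.Surjective ρ := by
    intro y
    obtain ⟨⟨x, hx⟩, rfl⟩ := QuotientGroup.mk'_surjective N y
    obtain ⟨w, hw, rfl⟩ := exists_ev h.fam.sq hx
    have : (⟨ev G0 w, hx⟩ : K) = ev F0 (w.map (gK.idxOf ·)) := Subtype.ext (by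
      rw [e0, List.map_map]
      refine congrArg (ev G0) ((List.map_id w).symm.trans (List.map_congr_left fun i hi => ?_))
      exact (by decide : ∀ i ∈ gK, i = gK.getD (gK.idxOf i) 14) i (hw i hi))
    rw [this, map_ev, ← MonoidHom.mem_range]
    refine ev_mem fun i hi => ?_
    obtain ⟨j, hj, rfl⟩ := List.mem_map.1 hi
    obtain ⟨x, hx⟩ := (by decide : ∀ j ∈ gK, ∃ x ∈ gs22, gs22.idxOf x = gK.idxOf j) j (hw j hj)
    exact ⟨_, hx.2 ▸ hρ x⟩
  intro x hx e
  by_cases hN : (⟨x, hx⟩ : K) ∈ N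
  · refine h.injJ x ((closure_le _).2 ?_ (mem_subgroupOf.1 hN)) e
    rintro _ (rfl | rfl)
    exacts [mem_KS _ (by decide), ev_KS _ (by decide +kernel)]
  exfalso
  have hne : QuotientGroup.mk' N ⟨x, hx⟩ ≠ 1 := fun e => hN ((QuotientGroup.eq_one_iff _).1 e)
  have : Nontrivial (K ⧸ N) := ⟨_, _, hne⟩
  have := isSimpleGroup_Fi22
  have := IsSimpleGroup.isSimpleGroup_of_surjective ρ hs
  have hM : ((φ.comp K.subtype).ker.map (QuotientGroup.mk' N)).Normal :=
    Normal.map inferInstance _ (QuotientGroup.mk'_surjective N)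
  rcases hM.eq_bot_or_eq_top with e1 | e1
  · exact hne (mem_bot.1 (e1 ▸ mem_map_of_mem _ (show (⟨x, hx⟩ : K) ∈ (φ.comp K.subtype).ker from e)))
  · obtain ⟨y, hy, e2⟩ : QuotientGroup.mk' N ⟨G0 8, mem_KS _ (by decide)⟩ ∈
      (φ.comp K.subtype).ker.map (QuotientGroup.mk' N) := e1 ▸ mem_top _
    have e3 := (hc _ (QuotientGroup.eq.1 e2) _ (mem_KS G0 (by decide : 9 ∈ gK))).map φ
    have e4 : φ y = 1 := hy
    apply h.not_comm
    rw [← h.map 8 (by decide), ← h.map 9 (by decide)]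
    simpa [e4] using e3

end Cx
end CA.Y24
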