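import Cfsg.Agent.Lib.F24.Y3

/-!
The presentation `Y₅₄₂` of `Fi₂₄`: injectivity on the subgroup `⟨a, …, j⟩`.
-/

set_option autoImplicit false
set_option maxRecDepth 100000
set_option Elab.async false

namespace CA.Y24
open CA.Fi CA.TC CA.TT Equiv Subgroup Cfsg Cfsg.Spor

variable {Γ G : Type*} [Group Γ] [Group G]

theorem cov_of_real {S : Sys} {T : ℕ → Perm ℕ} (hm : Mdl S T) {u : ℕ → Γ} (hu : S.Real u)
    (hq : ∀ i < S.r, u (S.pt i) * u (S.pt i) = 1) {E : Set G} {t : ℕ → G} (L : Fi.LM S E t)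
    (hE : Closed E) (φ : Γ →* G) (hφ : ∀ i < S.r, φ (u (S.pt i)) = t (S.pt i)) :
    (∀ p < S.N, φ (u p) = t p) ∧ Cov φ (u '' Set.Iio S.N) E := by
  have h1 : ∀ p < S.N, φ (u p) = t p := hm.trans.ind hm.ok (hφ 0 hm.trans.1) fun i hi p hp e => by
    rw [hu i hi p hp, L.real i hi p hp, map_mul, map_mul, map_inv, hφ i hi, e]
  have h2 := hu.sq hm.ok hm.trans hq
  refine ⟨h1, ⟨⟨?_, ?_⟩, ?_⟩, hE, fun x _ y _ => map_mul φ x y, ?_, ?_, ?_⟩
  · rintro _ ⟨p, hp, rfl⟩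
    refine orderOf_eq_prime (by rw [pow_two, h2 p hp]) fun e => ?_
    have := hE.set.1 _ (L.mem hp)
    rw [← h1 p hp, e, map_one, orderOf_one] at this
    exact absurd this (by norm_num)
  · rintro _ ⟨p, hp, rfl⟩ _ ⟨q, hq', rfl⟩
    have e1 := h2 p hp
    have e2 := h2 q hq'
    rcases hm.three p hp q hq' with e | e
    · left
      have := hm.conj hu hq hp hq'
      rw [e, eq_comm, mul_inv_eq_iff_eq_mul] at this
      rw [Commute.mul_pow this, pow_two, pow_two, e1, e2, one_mul]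
    · right
      have := congrArg u e
      rw [hm.conj hu hq hp hq', hm.conj hu hq hq' hp, inv_eq_of_mul_eq_one_right e1,
        inv_eq_of_mul_eq_one_right e2] at this
      calc _ = (u p * u q * u p) * (u q * u p * u q) := by simp only [pow_succ, pow_zero, one_mul, mul_assoc]
        _ = u q * (u p * (u q * u q) * u p) * u q := by rw [this]; group
        _ = 1 := by rw [e2, mul_one, e1, mul_one, e2]
  · rintro _ ⟨p, hp, rfl⟩ _ ⟨q, hq', rfl⟩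
    exact ⟨_, hm.T_lt hp hq', by rw [hm.conj hu hq hp hq', inv_eq_of_mul_eq_one_right (h2 p hp)]⟩
  · rintro _ ⟨p, hp, rfl⟩
    rw [h1 p hp]; exact L.mem hp
  · rintro _ ⟨p, hp, rfl⟩ _ ⟨q, hq', rfl⟩ e
    rw [h1 p hp, h1 q hq'] at e
    rw [L.inj p hp q hq' e]
  · intro y hy
    obtain ⟨p, hp, rfl⟩ := L.exists_pt hy
    exact ⟨_, ⟨p, hp, rfl⟩, h1 p hp⟩

theorem dd_sub {S0 S : Sys} {c : Lc} {T0 τ : ℕ → Perm ℕ} (h : Lev S0 S c T0 τ) {u : ℕ → Γ}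
    (hu : S.Real u) (inj : ∀ p < S.N, ∀ q < S.N, u p = u q → p = q) {H : Subgroup Γ}
    (hH : ∀ i < S0.r, u (S.pt i) ∈ H) : Dd (u '' Set.Iio S.N) (u S0.N) ⊆ H := by
  rintro _ ⟨⟨p, hp, rfl⟩, h1, h2⟩
  have e := hu _ h.dlt p hp
  rw [h.ptd, conj_of_commute h2] at e
  have e2 := inj _ (h.ok.σ_lt h.dlt hp) _ hp e
  have h0 : S0.Real u := fun i hi p hp => by
    rw [← h.cmp i hi p hp, hu i (h.lt hi) p (h.ltN hp), h.pt i hi]
  rcases lt_trichotomy p S0.N with e | rfl | e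
  · exact h0.mem h.ok0 h.m0.trans (fun i hi => h.pt i hi ▸ hH i hi) p e
  · exact absurd rfl h1
  · exact absurd e2 (h.δ_moves e hp)

theorem stab_step {v k l m s j n1 n2 : ℕ} {φ : Γ →* G} {E : Set Γ} {E' : Set G} (hc : Cov φ E E')
    (tw : Tw E' v k l m s j) (hN : TNum v k l m s j n1 n2) (hl : ∀ d ∈ E', Stab (Dd E' d))
    (tr : Fi.Tr E') {p z : Γ} (hp : p ∈ E) {H : Subgroup Γ} (hH : Dd E p ⊆ H) (hpH : p ∈ H)
    (hZ : z ∈ centralizer E) (hzH : z ∈ H) (inj : Inj φ H)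
    (hz : ∀ x ∈ E', centralizer (Dd E' x) ≤ closure {φ z, x}) :
    (∀ g ∈ closure E, Commute g p → g ∈ H) ∧ Inj φ (closure E) := by
  have key : ∀ g ∈ closure E, Commute g p → g ∈ H := fun g hg hgp => by
    have := (hc.tw tw).stab_gen hN (fun d hd => (hc.dd hd).stab (hl _ (hc.mem hd)))
      (Z := zpowers z) (zpowers_le.2 hZ) (fun u hu c h1 h2 => ?_) hp hg hgp
    · refine (sup_le ((closure_le _).2 fun x hx => ?_) (zpowers_le.2 hzH) :) this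
      by_cases e : x = p
      · exact e ▸ hpH
      · exact hH ⟨hx.1, e, hx.2⟩
    obtain ⟨a, ha, e⟩ := hc.tr tr u hu p hp
    have h3 := hz _ (hc.mem hu) (((hc.dd hu).cent_iff h1).2 h2)
    have h4 : closure {φ z, φ u} = (closure {z, u}).map φ := by
      rw [MonoidHom.map_closure, Set.image_pair]
    rw [h4] at h3
    obtain ⟨c', h5, e2⟩ := h3
    have h6 : closure {z, u} ≤ H.comap (MulAut.conj a).toMonoidHom := (closure_le _).2 (by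
      rintro _ (rfl | rfl)
      · exact mem_cj.2 (by rwa [conj_of_commute (commute_of_cent hZ ha).symm])
      · exact mem_cj.2 (e ▸ hpH))
    have h7 : closure (Dd E u) ≤ H.comap (MulAut.conj a).toMonoidHom := (closure_le _).2 fun x hx =>
      mem_cj.2 (hH ⟨hc.cl.conj ha hx.1, fun e3 => hx.2.1 (by simpa using e3.trans e.symm),
        e ▸ (commute_conj_iff a).2 hx.2.2⟩)
    rw [← (inj.conj a).eq (h6 h5) (h7 h1) e2]
    refine (closure_le (zpowers u ⊔ zpowers z)).2 ?_ h5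
    rintro _ (rfl | rfl)
    exacts [mem_sup_right (mem_zpowers _), mem_sup_left (mem_zpowers _)]
  refine ⟨key, fun g hg e => inj g (key g hg (Fi.mem_cent_iff.1 ((hc.cent_iff hg).1 ?_) p hp)) e⟩
  rw [show (φ : Γ → G) g = 1 from e]; exact one_mem _

/-- the letters of a relation -/
def lets (ρ : Rel) : List ℕ := ρ.1.2 :: ρ.2.2 :: (ρ.1.1 ++ ρ.2.1)
def AK : List ℕ := [0, 1, 2, 3, 4, 5, 6, 7, 8, 9, 10, 12]
def AJ : List ℕ := [0, 1, 2, 3, 4, 5, 7, 8, 9, 10, 11, 12, 13]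
def AH : List ℕ := List.range 13
def AC : List ℕ := [0, 1, 2, 3, 4, 8, 9, 10, 11, 12, 13]
def sw : List ℕ := [12, 13, 8, 9, 0, 1, 2, 3, 4, 11, 4, 3, 2, 1, 0, 9, 8, 13, 12, 13, 8, 9, 0, 1, 2, 3, 4, 11, 10, 11, 4, 3, 2, 1, 0, 9, 8, 13]
def sv : List ℕ := [8, 9, 0, 1, 2, 3, 4, 11, 4, 3, 2, 1, 0, 9, 8, 9, 0, 1, 2, 3, 4, 11, 10, 11, 4, 3, 2, 1, 0, 9]
def cs : List (ℕ × Cw) := [(0, ([], 0)), (1, ([], 1)), (2, ([], 2)), (3, ([], 3)), (4, ([], 4)), (5, ([1, 2, 3, 7, 5, 4, 3, 2], 1)), (7, ([], 7)), (8, ([], 8)), (9, ([], 9)), (10, ([], 12)), (12, ([], 10)), (13, ([10, 11, 8, 9, 4, 3, 2, 1], 0))]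
def cv : List (ℕ × Cw) := [(0, ([], 0)), (1, ([], 1)), (2, ([], 2)), (3, ([], 3)), (4, ([], 4)), (5, ([1, 2, 3, 7, 4, 3, 2, 1], 0)), (7, ([3, 2, 1, 5, 4, 3, 2, 1], 0)), (8, ([], 10)), (10, ([], 8)), (11, ([8, 9, 4, 3, 2, 1], 0)), (12, ([], 12))]

theorem cj_mem {g : ℕ → Γ} {H : Subgroup Γ} {a : Cw} (h : ∀ i ∈ a.2 :: a.1, g i ∈ H) : Fi.cj g a ∈ H :=
  have := ev_mem fun i hi => h i (List.mem_cons_of_mem _ hi)
  mul_mem (mul_mem this (h _ List.mem_cons_self)) (inv_mem this)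

theorem cls23 : ∀ ρ ∈ R23, ρ ∈ R24 ∧ ((∀ i ∈ lets ρ, i ∈ AK) ∨ (∀ i ∈ lets ρ, i ∈ AJ) ∨
    ∀ i ∈ lets ρ, i ∈ 6 :: cv.map (·.1)) := fun ρ hρ =>
  ⟨List.mem_append_left _ hρ, by revert ρ; decide +kernel⟩

namespace Cx
variable {G0 : ℕ → Γ} {φ : Γ →* G} {D : Set G} {t : ℕ → G} {ι : G →* Perm ℕ} (h : Cx G0 φ D t ι)
include h

theorem holds {H : Subgroup Γ} (hH : Inj φ H) {ρ : Rel} (hρ : ρ ∈ R24) (hl : ∀ i ∈ lets ρ, gg G0 i ∈ H) :
    Holds (gg G0) ρ := by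
  have k : ∀ ρ ∈ R24, ∀ i ∈ lets ρ, i < 14 := by decide +kernel
  have e : ∀ a : Cw, (∀ i ∈ a.2 :: a.1, i < 14) → ι (φ (Fi.cj (gg G0) a)) = Fi.cj S24.σ a := fun a ha => by
    have : ∀ i < 14, ι (φ (gg G0 i)) = S24.σ i := fun i hi => by rw [h.mapg hi, h.ισ i hi]
    simp only [Fi.cj, map_mul, map_inv, map_ev]
    rw [this _ (ha _ List.mem_cons_self), ev_congr fun i hi => this i (ha i (List.mem_cons_of_mem _ hi))]
  have k1 : ∀ i ∈ ρ.1.2 :: ρ.1.1, i ∈ lets ρ := by simp +contextual [lets]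
  have k2 : ∀ i ∈ ρ.2.2 :: ρ.2.1, i ∈ lets ρ := by simp +contextual [lets]
  refine hH.eq (cj_mem fun i hi => hl i (k1 i hi)) (cj_mem fun i hi => hl i (k2 i hi)) (h.inj ?_)
  rw [e _ fun i hi => k ρ hρ i (k1 i hi), e _ fun i hi => k ρ hρ i (k2 i hi)]
  exact hol24 ρ hρ

omit h in
theorem memJ : ∀ i ∈ AJ, gg G0 i ∈ KS G0 gJ := fun i hi =>
  ev_KS _ ((by decide +kernel : ∀ i ∈ AJ, ∀ j ∈ ws.getD i [], j ∈ gJ) i hi)

theorem memK : ∀ i ∈ AK, gg G0 i ∈ KS G0 gK := fun i hi =>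
  ev_mem fun j hj => ((by decide +kernel : ∀ i ∈ AK, ∀ j ∈ ws.getD i [], j = 12 ∨ j ∈ gK) i hi j hj).elim
    (fun e => e ▸ h.l_mem) (mem_KS _)

theorem comm6 : ∀ i ∈ AC, Commute (gg G0 i) (gg G0 6) := fun i hi => by
  by_cases e : i = 10
  · exact e ▸ h.m_cent _ (h.memK 6 (by decide))
  · have := (by decide +kernel : ∀ i ∈ AC, i ≠ 10 → i ∈ gA ∧ [i, 6, i, 6] ∈ RR) i hi e
    rw [gg_eq G0 this.1, gg_eq G0 (by decide)]
    exact h.comm0 this.2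

theorem conj_mem {w A : List ℕ} {H : Subgroup Γ} (hH : ∀ i ∈ A, gg G0 i ∈ H) {c : List (ℕ × Cw)}
    (e1 : (∀ i ∈ w, i ∈ AC) ∧ 6 ∈ A ∧ ∀ x ∈ c, x.1 ∈ AJ ∧ ∀ i ∈ x.2.2 :: x.2.1, i ∈ AJ ∧ i ∈ A)
    (e2 : allL (fun x => Nat.beq (S24.cp (w, x.1)) (S24.cp x.2)) c = true) :
    ∀ i ∈ 6 :: c.map (·.1), gg G0 i ∈ H.comap (MulAut.conj (ev (gg G0) w)).toMonoidHom := by
  intro i hi
  rw [mem_cj]
  have k : (∀ i ∈ AC, i ∈ AJ) ∧ ∀ i ∈ AJ, i < 14 := by decide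
  rcases List.mem_cons.1 hi with rfl | hi
  · have : ev (gg G0) w ∈ centralizer {gg G0 6} := ev_mem fun i hi =>
      mem_centralizer_singleton_iff.2 (h.comm6 i (e1.1 i hi))
    rw [conj_of_commute (mem_centralizer_singleton_iff.1 this)]
    exact hH 6 e1.2.1
  obtain ⟨x, hx, rfl⟩ := List.mem_map.1 hi
  obtain ⟨a1, a2⟩ := e1.2.2 x hx
  have b1 : ∀ i ∈ x.1 :: w, i ∈ AJ := fun i hi =>
    (List.mem_cons.1 hi).elim (fun e => e ▸ a1) fun hi => k.1 i (e1.1 i hi)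
  have := h.injJ.eq (cj_mem (a := (w, x.1)) fun i hi => memJ i (b1 i hi))
    (cj_mem (a := x.2) fun i hi => memJ i (a2 i hi).1) (by
      rw [h.cjg (wOK_iff.2 fun i hi => k.2 i (b1 i hi)), h.cjg (wOK_iff.2 fun i hi => k.2 i (a2 i hi).1),
        beq_iff.1 (allL_iff.1 e2 x hx)])
  have h2 := cj_mem (a := x.2) fun i hi => hH i (a2 i hi).2
  rwa [← this] at h2

theorem hol23 : ∀ ρ ∈ R23, Holds (gg G0) ρ := fun ρ hρ => by
  obtain ⟨h1, e | e | e⟩ := cls23 ρ hρ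
  · exact h.holds h.injK h1 fun i hi => h.memK i (e i hi)
  · exact h.holds h.injJ h1 fun i hi => memJ i (e i hi)
  · exact h.holds (h.injK.conj _) h1 fun i hi => h.conj_mem (w := sv) h.memK (by decide +kernel)
      (by decide +kernel) i (e i hi)

theorem t24 [Finite G] : IsThreeTranspositionGroup D ∧ T24 D :=
  ⟨class_group h.mod.cls24, t24_of (class_group h.mod.cls24) h.mod.prim24 h.mod.type24⟩

theorem lev23' [Finite G] : ∃ E : Set Γ, Cov φ E (Dd D (t 31671)) ∧ closure E = KS (gg G0) AH ∧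
    gg G0 10 ∈ E ∧ (∀ g ∈ closure E, Commute g (gg G0 10) → g ∈ KS G0 gK) ∧ Inj φ (closure E) := by
  obtain ⟨T2, m2⟩ := mdl22
  obtain ⟨τ3, l3⟩ := lev23 m2
  obtain ⟨T3, m3⟩ := mdl23
  obtain ⟨τ4, l4⟩ := lev24 m3
  obtain ⟨T4, m4⟩ := mdl24
  obtain ⟨hD, hT⟩ := h.t24
  have hd : t 31671 ∈ D := h.mod.mem l4.nlt
  obtain ⟨u, u1, u2⟩ := pres23.any (gg G0) (fun i _ => h.sq i) h.hol23
  have L : Fi.LM S23 (Dd D (t 31671)) t := l4.lm_dd m4 h.mod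
  obtain ⟨c1, c2⟩ := cov_of_real m3 u2 (fun i hi => by rw [u1 i hi, h.sq]) L (hT.cl.dd _) φ
    fun i hi => by rw [u1 i hi, h.mapg (l4.lt hi), l4.pt i hi]
  have e10 : u S22.N = gg G0 10 := by rw [← l3.ptd, u1 _ l3.dlt]; rfl
  have hl : gg G0 12 = G0 12 := gg_eq G0 (by decide)
  have hK : KS G0 gK ≤ closure (u '' Set.Iio S23.N) := KS_le fun i hi => by
    have := (by decide : ∀ i ∈ gK, i ∈ gA ∧ i < 12) i hi
    rw [← gg_eq G0 this.1, ← u1 i this.2]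
    exact subset_closure ⟨_, S23_OK.pt_lt i this.2, rfl⟩
  have hz : gg G0 12 ∈ centralizer (u '' Set.Iio S23.N) := Fi.mem_cent_iff.2 (by
    rintro _ ⟨p, hp, rfl⟩
    refine u2.commute S23_OK m3.trans (fun i hi => ?_) p hp
    have := h.holds (ρ := (([i], 12), ([], 12))) (H := if i = 6 then KS G0 gK else KS G0 gJ)
      (by split_ifs; exacts [h.injK, h.injJ])
      ((by decide +kernel : ∀ i < 12, (([i], 12), ([], 12)) ∈ R24) i hi) fun j hj => by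
        split_ifs with e
        · exact h.memK j ((by decide : ∀ j ∈ lets (([6], 12), ([], 12)), j ∈ AK) j (e ▸ hj))
        · exact memJ j ((by decide : ∀ i < 12, i ≠ 6 → ∀ j ∈ lets (([i], 12), ([], 12)), j ∈ AJ) i hi e j hj)
    rw [u1 i hi]
    symm
    simpa [Holds, Fi.cj, mul_inv_eq_iff_eq_mul] using this)
  have hp : gg G0 10 ∈ u '' Set.Iio S23.N := ⟨_, l3.nlt, e10⟩
  refine ⟨_, c2, le_antisymm ((closure_le _).2 ?_) (KS_le fun i hi => ?_), hp,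
    stab_step c2 (hT.loc _ hd).tw num23 (fun d hd' => ((hT.loc _ hd).loc d hd').stab) (hT.loc _ hd).tr hp
      ?_ (h.memK 10 (by decide)) hz (h.memK 12 (by decide)) h.injK fun x hx => ?_⟩
  · rintro _ ⟨p, hp, rfl⟩
    exact u2.mem S23_OK m3.trans (fun i hi => by
      rw [u1 i hi]; exact mem_KS _ (List.mem_range.2 (hi.trans (by decide)))) p hp
  · rcases Nat.lt_succ_iff_lt_or_eq.1 (List.mem_range.1 hi) with hi | rfl
    · rw [← u1 i hi]; exact subset_closure ⟨_, S23_OK.pt_lt i hi, rfl⟩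
    · exact hK (h.memK 12 (by decide))
  · rw [← e10]
    refine dd_sub l3 u2 (fun p hp q hq e => L.inj p hp q hq (by rw [← c1 p hp, ← c1 q hq, e]))
      fun i hi => ?_
    rw [u1 i (l3.lt hi)]
    exact h.memK i ((by decide : ∀ i < 10, i ∈ AK) i hi)
  · rw [hT.cent_dd2 hD h.mod.center hd hx, h.mapg (by decide)]; rfl

end Cx
end CA.Y24
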